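/-
Abstract Hermitian spaces: simplicity modulo the centre, by Iwasawa's criterion on the isotropic points.
-/
import Mathlib
import Cfsg.Agent.Lib.Classical.UTBridge
import Cfsg.Agent.Lib.Classical.SpSimple
import Cfsg.Agent.Lib.Classical.RingCongr

set_option autoImplicit false
set_option linter.unusedSectionVars false

namespace Cfsg.Agent.Lib.Classical.UT

open Module Witt
open scoped commutatorElement LinearAlgebra.Projectivization Pointwise

variable {F : Type*} [Field F] [Fintype F] {q : ℕ} {hF : Fintype.card F = q ^ 2}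
variable {V : Type*} [AddCommGroup V] [Module F V] {B : V →ₛₗ[conjQ hF] V →ₗ[F] F}

lemma T_smul (g : TG B) (v : V) : g • v = g.1 v := rfl

lemma T_ne_zero (g : TG B) {v : V} (hv : v ≠ 0) : g.1 v ≠ 0 := by
  simpa using hv

lemma rep_iff {v : V} (hv : v ≠ 0) : B (Projectivization.mk F v hv).rep (Projectivization.mk F v hv).rep = 0 ↔ B v v = 0 := by
  obtain ⟨a, ha⟩ := Projectivization.exists_smul_eq_mk_rep F v hv
  rw [← ha]
  have e : (a • v) = (a : F) • v := rfl
  rw [e, smul_l, smul_r]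
  have ha0 : (a : F) ≠ 0 := a.ne_zero
  have ha1 : (a : F) ^ q ≠ 0 := pow_ne_zero _ ha0
  simp [ha0, ha1]

/-- The isotropic points. -/
def isoP (hS : B.IsSymm) : SubMulAction (TG B) (ℙ F V) where
  carrier := {p | B p.rep p.rep = 0}
  smul_mem' g p hp := by
    have h1 : B p.rep p.rep = 0 := hp
    have h3 : g • p = Projectivization.mk F (g • p.rep) (by
        rw [T_smul]
        exact T_ne_zero g p.rep_nonzero) := by
      exact congrArg (g • ·) p.mk_rep.symm
    change B (g • p).rep (g • p).rep = 0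
    rw [h3, rep_iff, T_smul, TG_iso hS g.2, h1]

variable (hS : B.IsSymm)

/-- An isotropic point. -/
def pt (v : V) (hv : v ≠ 0) (hs : B v v = 0) : isoP hS :=
  ⟨Projectivization.mk F v hv, (rep_iff hv).mpr hs⟩

lemma exists_pt (p : isoP hS) : ∃ v hv hs, p = pt hS v hv hs :=
  ⟨p.1.rep, p.1.rep_nonzero, p.2, Subtype.ext p.1.mk_rep.symm⟩

lemma pt_congr {v w : V} (h : v = w) (hv : v ≠ 0) (hs : B v v = 0) (hw : w ≠ 0) (ht : B w w = 0) :
    pt hS v hv hs = pt hS w hw ht := by
  subst h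
  rfl

lemma smul_pt (g : TG B) {v : V} (hv : v ≠ 0) (hs : B v v = 0) (hgv : g.1 v ≠ 0) (hgs : B (g.1 v) (g.1 v) = 0) :
    g • pt hS v hv hs = pt hS (g.1 v) hgv hgs :=
  Subtype.ext (Projectivization.smul_mk (K := F) g hv)

lemma pt_eq_iff {v w : V} (hv : v ≠ 0) (hs : B v v = 0) (hw : w ≠ 0) (ht : B w w = 0) :
    pt hS v hv hs = pt hS w hw ht ↔ ∃ a : Fˣ, a • w = v := by
  constructor
  · intro h
    exact (Projectivization.mk_eq_mk_iff _ _ _ _ _).mp (congrArg Subtype.val h)
  · intro h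
    exact Subtype.ext ((Projectivization.mk_eq_mk_iff _ _ _ _ _).mpr h)

lemma pt_smul {v : V} {c : F} (hc : c ≠ 0) (hv : v ≠ 0) (hs : B v v = 0) (hcv : c • v ≠ 0) (hcs : B (c • v) (c • v) = 0) :
    pt hS (c • v) hcv hcs = pt hS v hv hs := by
  rw [pt_eq_iff]
  exact ⟨Units.mk0 c hc, rfl⟩

/-- A point of a block fixed by `g` gives invariance. -/
lemma block_mv {Δ : Set (isoP hS)} (hΔ : MulAction.IsBlock (TG B) Δ) (g : TG B) {a b : V}
    (ha : a ≠ 0) (ha' : B a a = 0) (hb : b ≠ 0) (hb' : B b b = 0)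
    (h1 : pt hS a ha ha' ∈ Δ) (h3 : pt hS b hb hb' ∈ Δ) (hfix : g.1 a = a) {b' : V} (hmove : g.1 b = b')
    (hbn : b' ≠ 0) (hbs : B b' b' = 0) : pt hS b' hbn hbs ∈ Δ := by
  have hfix' : g • pt hS a ha ha' = pt hS a ha ha' := by
    rw [smul_pt hS g ha ha' (by rw [hfix]; exact ha) (by rw [hfix]; exact ha')]
    exact pt_congr hS hfix _ _ _ _
  have hB' := hΔ.smul_eq_of_mem (g := g) h1 (by rw [hfix']; exact h1)
  have hmem := Set.smul_mem_smul_set (a := g) h3
  rw [hB', smul_pt hS g hb hb' (by rw [hmove]; exact hbn) (by rw [hmove]; exact hbs)] at hmem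
  rwa [pt_congr hS hmove _ _ hbn hbs] at hmem

variable [FiniteDimensional F V] (hB : B.Nondegenerate)

include hS hB

/-- The Heisenberg group acts transitively on the partners of an isotropic vector. -/
lemma exists_he_move (hcase : 4 ≤ finrank F V ∨ (3 ≤ finrank F V ∧ 3 ≤ q)) {v e e₁ : V} (hv : B v v = 0)
    (he' : B e e = 0) (hve : B v e = 1) (h1 : B v e₁ = 1) (h2 : B e₁ e₁ = 0) :
    ∃ E ∈ TG B, E v = v ∧ E e₁ = e := by
  have hev := flip_one hS hve
  set α := B e e₁ with hα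
  set u' := e₁ - e - α • v with hu'
  have hvu' : B v u' = 0 := by
    simp only [hu', sub_r, smul_r, hv, hve, h1]
    ring
  have heu' : B e u' = 0 := by
    simp only [hu', sub_r, smul_r, he', hev, ← hα]
    ring
  have hu'v := flip_zero hS hvu'
  have hu'e := flip_zero hS heu'
  have hdec : e₁ = u' + e + α • v := by
    rw [hu']
    abel
  have hN : B u' u' + α + α ^ q = 0 := by
    rw [hdec] at h2
    simp only [add_l, add_r, smul_l, smul_r, hv, hve, hev, he', hvu', heu', hu'v, hu'e] at h2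
    linear_combination h2
  have hNq : (B u' u') ^ q = B u' u' := flip_eq hS _ _
  have hvu : B v (-u') = 0 := by rw [neg_r, hvu', neg_zero]
  have heu : B e (-u') = 0 := by rw [neg_r, heu', neg_zero]
  have huv : B (-u') v = 0 := by rw [neg_l, hu'v, neg_zero]
  set s := -α - B u' u' with hs'
  have hs : s + s ^ q + B (-u') (-u') = 0 := by
    rw [hs', conjQ_sub hF, conjQ_neg hF, hNq, neg_l, neg_r]
    linear_combination -hN
  obtain ⟨E, hE, hEx⟩ := he_mem hS hB hcase hv he' hve hvu heu hs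
  refine ⟨E, hE, ?_, ?_⟩
  · rw [hEx]
    exact he_fix huv hv s
  · rw [hEx, he_apply, h1, one_smul, neg_l]
    have h3 : B u' e₁ = B u' u' := by
      rw [hdec]
      simp only [add_r, smul_r, hu'v, hu'e]
      ring
    rw [h3, hs']
    have : e₁ = u' + e + α • v := hdec
    rw [this]
    (module)

/-- Step A: a block containing two non-orthogonal points contains all points not orthogonal to one of them. -/
lemma block_A (hcase : 4 ≤ finrank F V ∨ (3 ≤ finrank F V ∧ 3 ≤ q)) {Δ : Set (isoP hS)}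
    (hΔ : MulAction.IsBlock (TG B) Δ) {a b c : V} (ha : a ≠ 0) (ha' : B a a = 0) (hb : b ≠ 0) (hb' : B b b = 0)
    (hc : c ≠ 0) (hc' : B c c = 0) (h1 : pt hS a ha ha' ∈ Δ) (h3 : pt hS b hb hb' ∈ Δ)
    (hab : B a b ≠ 0) (hac : B a c ≠ 0) : pt hS c hc hc' ∈ Δ := by
  set x := (B a b)⁻¹ • b with hx
  set y := (B a c)⁻¹ • c with hy
  have hx0 : x ≠ 0 := smul_ne_zero (inv_ne_zero hab) hb
  have hy0 : y ≠ 0 := smul_ne_zero (inv_ne_zero hac) hc
  have hxx : B x x = 0 := by
    simp only [hx, smul_l, smul_r, hb', mul_zero]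
  have hyy : B y y = 0 := by
    simp only [hy, smul_l, smul_r, hc', mul_zero]
  have hax : B a x = 1 := by
    rw [hx, smul_r]
    field_simp
  have hay : B a y = 1 := by
    rw [hy, smul_r]
    field_simp
  have e1 : pt hS x hx0 hxx = pt hS b hb hb' := pt_smul hS (inv_ne_zero hab) hb hb' hx0 hxx
  have e2 : pt hS y hy0 hyy = pt hS c hc hc' := pt_smul hS (inv_ne_zero hac) hc hc' hy0 hyy
  rw [← e1] at h3
  rw [← e2]
  obtain ⟨E, hE, hEa, hEy⟩ := exists_he_move hS hB hcase ha' hxx hax hay hyy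
  have hE' : E⁻¹ ∈ TG B := Subgroup.inv_mem _ hE
  refine block_mv hS hΔ ⟨E⁻¹, hE'⟩ ha ha' hx0 hxx h1 h3 ?_ ?_ hy0 hyy
  · change E⁻¹ a = a
    conv_lhs => rw [← hEa]
    exact E.symm_apply_apply a
  · change E⁻¹ x = y
    rw [← hEy]
    exact E.symm_apply_apply y

/-- A block with two distinct points is everything. -/
lemma block_all (hcase : 4 ≤ finrank F V ∨ (3 ≤ finrank F V ∧ 3 ≤ q)) {Δ : Set (isoP hS)}
    (hΔ : MulAction.IsBlock (TG B) Δ) {v x : V} (hv : v ≠ 0) (hv' : B v v = 0) (hx : x ≠ 0) (hx' : B x x = 0)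
    (h1 : pt hS v hv hv' ∈ Δ) (h3 : pt hS x hx hx' ∈ Δ) (hne : pt hS v hv hv' ≠ pt hS x hx hx') : Δ = Set.univ := by
  -- two non-orthogonal points
  obtain ⟨a, b, ha, ha', hb, hb', ha1, hb1, hab⟩ : ∃ a b : V, ∃ (ha : a ≠ 0) (ha' : B a a = 0) (hb : b ≠ 0) (hb' : B b b = 0),
      pt hS a ha ha' ∈ Δ ∧ pt hS b hb hb' ∈ Δ ∧ B a b ≠ 0 := by
    by_cases hvx : B v x = 0
    · have hvW : v ∉ Submodule.span F {x} := by
        intro hmem
        obtain ⟨t, ht⟩ := Submodule.mem_span_singleton.mp hmem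
        have ht0 : t ≠ 0 := by
          rintro rfl
          rw [zero_smul] at ht
          exact hv ht.symm
        apply hne
        rw [pt_eq_iff]
        exact ⟨Units.mk0 t ht0, ht⟩
      have hWv : ∀ z ∈ Submodule.span F {x}, B v z = 0 := by
        intro z hz
        obtain ⟨t, rfl⟩ := Submodule.mem_span_singleton.mp hz
        rw [smul_r, hvx, mul_zero]
      have hWt : ∀ z ∈ Submodule.span F {x}, ∀ z' ∈ Submodule.span F {x}, B z z' = 0 := by
        intro z hz z' hz'
        obtain ⟨t, rfl⟩ := Submodule.mem_span_singleton.mp hz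
        obtain ⟨t', rfl⟩ := Submodule.mem_span_singleton.mp hz'
        rw [smul_l, smul_r, hx']
        ring
      obtain ⟨f, hvf, hfv, hff, hfx⟩ := exists_partner_perp hS hB _ hvW hv' hWv hWt
      have hfx' := hfx x (Submodule.mem_span_singleton_self x)
      obtain ⟨ε, hε0, hε⟩ := exists_eps (hF := hF)
      have hT := tvE_mem (B := B) hff hε
      set v' := v + ε • f with hv'def
      have hv'0 : v' ≠ 0 := by
        intro h0
        have h5 : B v v' = ε := by
          rw [hv'def, add_r, smul_r, hv', hvf]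
          ring
        rw [h0, zero_r] at h5
        exact hε0 h5.symm
      have hv'v' : B v' v' = 0 := by
        simp only [hv'def, add_l, add_r, smul_l, smul_r, hv', hvf, hfv, hff]
        linear_combination hε
      refine ⟨v, v', hv, hv', hv'0, hv'v', h1, ?_, ?_⟩
      · refine block_mv hS hΔ ⟨_, hT⟩ hx hx' hv hv' h3 h1 ?_ ?_ hv'0 hv'v'
        · change tvE B f ε hff x = x
          rw [tvE_apply, hfx']
          simp
        · change tvE B f ε hff v = v'
          rw [tvE_apply, hfv, mul_one]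
      · rw [hv'def, add_r, smul_r, hv', hvf]
        simpa using hε0
    · exact ⟨v, x, hv, hv', hx, hx', h1, h3, hvx⟩
  rw [Set.eq_univ_iff_forall]
  intro p
  obtain ⟨c, hc, hc', rfl⟩ := exists_pt hS p
  by_cases hac : B a c = 0
  · by_cases hind : c ∈ Submodule.span F {a}
    · obtain ⟨t, rfl⟩ := Submodule.mem_span_singleton.mp hind
      have ht0 : t ≠ 0 := by
        rintro rfl
        simp at hc
      rw [pt_smul hS ht0 ha ha' hc hc']
      exact ha1
    · obtain ⟨z, hz0, hz, haz, hzc⟩ := exists_common hS hB ha ha' hc' hac hind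
      have hzmem := block_A hS hB hcase hΔ ha ha' hb hb' hz0 hz ha1 hb1 hab haz
      have hza : B z a ≠ 0 := by
        intro h0
        exact haz (flip_zero hS h0)
      exact block_A hS hB hcase hΔ hz0 hz ha ha' hc hc' hzmem ha1 hza hzc
  · exact block_A hS hB hcase hΔ ha ha' hb hb' hc hc' ha1 hb1 hab hac

/-- Primitivity on the isotropic points. -/
theorem iso_preprimitive (hcase : 4 ≤ finrank F V ∨ (3 ≤ finrank F V ∧ 3 ≤ q)) :
    MulAction.IsPreprimitive (TG B) (isoP hS) := by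
  have hV3 : 3 ≤ finrank F V := by omega
  haveI hT : MulAction.IsPretransitive (TG B) (isoP hS) := ⟨fun p p' => by
      obtain ⟨a, ha, ha', rfl⟩ := exists_pt hS p
      obtain ⟨b, hb, hb', rfl⟩ := exists_pt hS p'
      obtain ⟨t, ht, htab⟩ := orb_iso hS hB hV3 ha ha' hb hb'
      refine ⟨⟨t, ht⟩, ?_⟩
      rw [smul_pt hS _ ha ha' (by change t a ≠ 0; rw [htab]; exact hb) (by change B (t a) (t a) = 0; rw [htab]; exact hb')]
      exact pt_congr hS htab _ _ _ _⟩
  refine ⟨?_⟩
  intro Δ hΔ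
  by_cases hsub : Δ.Subsingleton
  · exact Or.inl hsub
  right
  rw [Set.not_subsingleton_iff] at hsub
  obtain ⟨p, hp, p', hp', hpq⟩ := hsub
  obtain ⟨a, ha, ha', rfl⟩ := exists_pt hS p
  obtain ⟨b, hb, hb', rfl⟩ := exists_pt hS p'
  exact block_all hS hB hcase hΔ ha ha' hb hb' hp hp' hpq

end Cfsg.Agent.Lib.Classical.UT
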