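/-
Abstract Hermitian spaces: the Iwasawa structure; simplicity of PSU.
-/
import Mathlib
import Cfsg.Agent.Lib.Classical.UTSimple

set_option autoImplicit false
set_option linter.unusedSectionVars false

namespace Cfsg.Agent.Lib.Classical.UT

open Module Witt
open scoped commutatorElement LinearAlgebra.Projectivization Pointwise

universe u

variable {F : Type*} [Field F] [Fintype F] {q : ℕ} {hF : Fintype.card F = q ^ 2}
variable {V : Type u} [AddCommGroup V] [Module F V] {B : V →ₛₗ[conjQ hF] V →ₗ[F] F}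

/-- Transvections conjugate. -/
lemma tv_conj {g : V ≃ₗ[F] V} (hg : ∀ x y, B (g x) (g y) = B x y) (a : V) (c : F) (z : V) :
    g (tv B a c (g⁻¹ z)) = tv B (g a) c z := by
  have h2 : g (g⁻¹ z) = z := g.apply_symm_apply z
  have h3 : B a (g⁻¹ z) = B (g a) z := by
    rw [← hg a (g⁻¹ z), h2]
  rw [tv_apply, tv_apply, map_add, map_smul, h2, h3]

lemma tv_smul_v (t c : F) (a z : V) : tv B (t • a) c z = tv B a (c * t ^ q * t) z := by
  simp only [tv_apply, smul_l, smul_r]
  congr 1
  rw [smul_smul]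
  congr 1
  ring

section

variable (hS : B.IsSymm) (hB : B.Nondegenerate)
include hS hB

/-- The same eigenvalue on non-orthogonal isotropic vectors. -/
lemma same_of_ne {g : V →ₗ[F] V} (hs : ∀ c : V, c ≠ 0 → B c c = 0 → ∃ μ : F, g c = μ • c) {a b : V}
    (ha' : B a a = 0) (hb' : B b b = 0) (hab : B a b ≠ 0) {μ μ' : F} (h1 : g a = μ • a) (h2 : g b = μ' • b) : μ = μ' := by
  obtain ⟨ε, hε0, hε⟩ := exists_eps (hF := hF)
  obtain ⟨s, hs1⟩ : ∃ s, s * B a b = ε := ⟨ε / B a b, by field_simp⟩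
  have hba : B b a = (B a b) ^ q := (flip_eq hS a b).symm
  have hcc : B (a + s • b) (a + s • b) = 0 := by
    simp only [add_l, add_r, smul_l, smul_r, ha', hb', mul_zero, add_zero, zero_add]
    have h3 : (s * B a b) ^ q = s ^ q * B b a := by rw [mul_pow, hba]
    rw [hs1] at h3
    linear_combination hs1 - h3 + hε
  have hc0 : a + s • b ≠ 0 := by
    intro h0
    have h3 : B a (a + s • b) = s * B a b := by
      rw [add_r, smul_r, ha', zero_add]
    rw [h0, zero_r, hs1] at h3
    exact hε0 h3.symm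
  obtain ⟨μ'', hμ''⟩ := hs _ hc0 hcc
  rw [map_add, map_smul, h1, h2] at hμ''
  have h3 := congrArg (B a) hμ''
  have h4 := congrArg (B b) hμ''
  simp only [add_r, smul_r, ha', hb', mul_zero, zero_add, add_zero] at h3 h4
  have hbane : B b a ≠ 0 := by
    intro h0
    exact hab (flip_zero hS h0)
  have e1 : μ' = μ'' := by
    have h5 : s * B a b * (μ' - μ'') = 0 := by linear_combination h3
    exact sub_eq_zero.mp ((mul_eq_zero.mp h5).resolve_left (by rw [hs1]; exact hε0))
  have e2 : μ = μ'' := by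
    have h5 : B b a * (μ - μ'') = 0 := by linear_combination h4
    exact sub_eq_zero.mp ((mul_eq_zero.mp h5).resolve_left hbane)
  rw [e1, e2]

variable [FiniteDimensional F V]

/-- Isotropic vectors span. -/
lemma iso_span (hV : 2 ≤ finrank F V) (x : V) : x ∈ Submodule.span F {c : V | B c c = 0} := by
  by_contra hx
  obtain ⟨h, hhx, hhS⟩ := herm_partner (conjQ hF) B hS hB _ x hx
  have hperp : ∀ c : V, B c c = 0 → B h c = 0 := fun c hc => hhS c (Submodule.subset_span hc)
  have hh0 : h ≠ 0 := by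
    rintro rfl
    rw [zero_l] at hhx
    exact zero_ne_one hhx
  by_cases hhh : B h h = 0
  · obtain ⟨f, hf1, -, hf3⟩ := exists_partner hS hB hh0 hhh
    rw [hperp f hf3] at hf1
    exact zero_ne_one hf1
  · obtain ⟨w, hw1, hw2⟩ := exists_aniso_perp hS hB hV hhh
    have hw1' := flip_zero hS hw1
    obtain ⟨ρ, hρ⟩ := exists_norm (hF := hF) (ν := - B h h / B w w) (by
      rw [div_pow, conjQ_neg hF, flip_eq hS, flip_eq hS])
    have h4 : ρ ^ q * ρ * B w w = - B h h := by
      rw [hρ]
      field_simp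
    have h5 : B (h + ρ • w) (h + ρ • w) = 0 := by
      simp only [add_l, add_r, smul_l, smul_r, hw1, hw1']
      linear_combination h4
    have h6 := hperp _ h5
    rw [add_r, smul_r, hw1, mul_zero, add_zero] at h6
    exact hhh h6

/-- An isometry-like map fixing all isotropic points is scalar. -/
theorem scalar_of_fix (hV : 2 ≤ finrank F V) (g : V →ₗ[F] V)
    (hs : ∀ c : V, c ≠ 0 → B c c = 0 → ∃ μ : F, g c = μ • c) : ∃ μ : F, ∀ x, g x = μ • x := by
  obtain ⟨v₀, hv₀, hv₀'⟩ := exists_isotropic hS hB hV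
  obtain ⟨μ, hμ⟩ := hs v₀ hv₀ hv₀'
  have hall : ∀ c : V, B c c = 0 → g c = μ • c := by
    intro c hc
    by_cases hc0 : c = 0
    · subst hc0
      simp
    obtain ⟨μ', hμ'⟩ := hs c hc0 hc
    by_cases h1 : B v₀ c = 0
    · by_cases hind : c ∈ Submodule.span F {v₀}
      · obtain ⟨t, rfl⟩ := Submodule.mem_span_singleton.mp hind
        rw [map_smul, hμ, smul_comm]
      · obtain ⟨z, hz0, hz, hvz, hzc⟩ := exists_common hS hB hv₀ hv₀' hc h1 hind
        obtain ⟨μz, hμz⟩ := hs z hz0 hz
        have e1 := same_of_ne hS hB hs hv₀' hz hvz hμ hμz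
        have e2 := same_of_ne hS hB hs hz hc hzc hμz hμ'
        rw [hμ', ← e2, ← e1]
    · have e := same_of_ne hS hB hs hv₀' hc h1 hμ hμ'
      rw [hμ', e]
  refine ⟨μ, fun x => ?_⟩
  have hx := iso_span hS hB hV x
  induction hx using Submodule.span_induction with
  | mem c hc => exact hall c hc
  | zero => simp
  | add a b _ _ ha hb => rw [map_add, ha, hb, smul_add]
  | smul c a _ ha => rw [map_smul, ha, smul_comm]

end

variable (B) in
/-- The root group of an isotropic vector. -/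
def Ta (a : V) (ha : B a a = 0) : Subgroup (V ≃ₗ[F] V) where
  carrier := {g | ∃ c : F, c + c ^ q = 0 ∧ ∀ x, g x = tv B a c x}
  mul_mem' := by
    rintro g g' ⟨c, hc, h⟩ ⟨c', hc', h'⟩
    refine ⟨c + c', ?_, fun x => ?_⟩
    · have h2 := map_add (conjQ hF) c c'
      simp only [conjQ_apply] at h2
      rw [h2]
      linear_combination hc + hc'
    · change g (g' x) = _
      rw [h', h, tv_tv ha]
  one_mem' := ⟨0, by
      have hq := one_lt_q hF
      simp [zero_pow (show q ≠ 0 by omega)], fun x => (tv_zero a x).symm⟩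
  inv_mem' := by
    rintro g ⟨c, hc, h⟩
    refine ⟨-c, ?_, fun x => ?_⟩
    · rw [conjQ_neg hF]
      linear_combination -hc
    · have h1 : g (tv B a (-c) x) = x := by
        rw [h, tv_tv ha, add_neg_cancel, tv_zero]
      conv_lhs => rw [← h1]
      exact g.symm_apply_apply _

lemma mem_Ta {a : V} {ha : B a a = 0} {g : TG B} :
    g ∈ (Ta B a ha).subgroupOf (TG B) ↔ ∃ c : F, c + c ^ q = 0 ∧ ∀ x, g.1 x = tv B a c x :=
  Subgroup.mem_subgroupOf

variable (hS : B.IsSymm)

lemma iso_rep (p : isoP hS) : B p.1.rep p.1.rep = 0 := p.2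

include hS

/-- The Iwasawa structure. -/
noncomputable def iwaU : MulAction.IwasawaStructure (TG B) (isoP hS) where
  T p := (Ta B p.1.rep (iso_rep hS p)).subgroupOf (TG B)
  is_comm p := by
    refine ⟨⟨?_⟩⟩
    rintro ⟨x, hx⟩ ⟨y, hy⟩
    obtain ⟨c, hc, h1⟩ := mem_Ta.mp hx
    obtain ⟨c', hc', h3⟩ := mem_Ta.mp hy
    apply Subtype.ext
    apply Subtype.ext
    ext z
    change x.1 (y.1 z) = y.1 (x.1 z)
    rw [h1, h3, h1, h3, tv_tv (iso_rep hS p), tv_tv (iso_rep hS p), add_comm]
  is_conj g p := by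
    have hgiso := TG_iso hS g.2
    have hgiso' := TG_iso hS (Subgroup.inv_mem _ g.2)
    obtain ⟨t, ht0, hr⟩ : ∃ t : F, t ≠ 0 ∧ ((g • p : isoP hS) : ℙ F V).rep = t • g.1 p.1.rep := by
      have h3 : ((g • p : isoP hS) : ℙ F V) = Projectivization.mk F (g • p.1.rep) (by
          rw [T_smul]
          exact T_ne_zero g p.1.rep_nonzero) := by
        change g • p.1 = _
        exact congrArg (g • ·) p.1.mk_rep.symm
      obtain ⟨a, ha⟩ := Projectivization.exists_smul_eq_mk_rep F (g • p.1.rep) (by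
          rw [T_smul]
          exact T_ne_zero g p.1.rep_nonzero)
      exact ⟨a, a.ne_zero, by rw [h3, ← ha]; rfl⟩
    have hN : ∀ (s c : F), c + c ^ q = 0 → (c * s ^ q * s) + (c * s ^ q * s) ^ q = 0 := by
      intro s c hc
      rw [mul_pow, mul_pow, pow_q_pow_q hF]
      linear_combination (s ^ q * s) * hc
    ext x
    rw [mem_Ta, Subgroup.mem_smul_pointwise_iff_exists]
    constructor
    · rintro ⟨c, hc, hx⟩
      rw [hr] at hx
      refine ⟨g⁻¹ * x * g, mem_Ta.mpr ⟨c * t ^ q * t, hN t c hc, fun z => ?_⟩, ?_⟩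
      · have h5 : (g⁻¹ * x * g).1 z = g.1.symm (x.1 (g.1 z)) := rfl
        rw [h5, hx, tv_smul_v]
        have h6 := tv_conj hgiso p.1.rep (c * t ^ q * t) (g.1 z)
        rw [show (g.1)⁻¹ (g.1 z) = z from g.1.symm_apply_apply z] at h6
        rw [← h6]
        exact g.1.symm_apply_apply _
      · rw [MulAut.smul_def, MulAut.conj_apply]
        group
    · rintro ⟨y, hy, rfl⟩
      obtain ⟨c, hc, hy⟩ := mem_Ta.mp hy
      rw [hr]
      refine ⟨c * (t⁻¹) ^ q * t⁻¹, hN _ c hc, fun z => ?_⟩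
      rw [MulAut.smul_def, MulAut.conj_apply]
      have h5 : (g * y * g⁻¹).1 z = g.1 (y.1 ((g.1)⁻¹ z)) := rfl
      rw [h5, hy, tv_conj hgiso, tv_smul_v]
      have e : c * (t⁻¹) ^ q * t⁻¹ * t ^ q * t = c := by
        rw [inv_pow]
        have : t ^ q ≠ 0 := pow_ne_zero _ ht0
        field_simp
      rw [e]
  is_generator := by
    rw [eq_top_iff]
    rintro g -
    have key : ∀ x ∈ TG B, ∃ hx : x ∈ TG B, (⟨x, hx⟩ : TG B) ∈ ⨆ p : isoP hS, (Ta B p.1.rep (iso_rep hS p)).subgroupOf (TG B) := by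
      intro x hx
      induction hx using Subgroup.closure_induction with
      | mem x hx =>
        have hxm : x ∈ TG B := Subgroup.subset_closure hx
        refine ⟨hxm, ?_⟩
        obtain ⟨v, c, hv, hc, h⟩ := hx
        by_cases hv0 : v = 0
        · subst hv0
          have : (⟨x, hxm⟩ : TG B) = 1 := by
            apply Subtype.ext
            ext y
            change x y = y
            rw [h, tv_apply]
            simp
          rw [this]
          exact Subgroup.one_mem _
        · refine Subgroup.mem_iSup_of_mem (pt hS v hv0 hv) (mem_Ta.mpr ?_)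
          obtain ⟨t, ht⟩ := Projectivization.exists_smul_eq_mk_rep F v hv0
          have ht0 : (t : F) ≠ 0 := t.ne_zero
          have hrep : (pt hS v hv0 hv).1.rep = (t : F) • v := ht.symm
          rw [hrep]
          have hN : (c * ((t : F)⁻¹) ^ q * (t : F)⁻¹) + (c * ((t : F)⁻¹) ^ q * (t : F)⁻¹) ^ q = 0 := by
            rw [mul_pow, mul_pow, pow_q_pow_q hF]
            linear_combination (((t : F)⁻¹) ^ q * (t : F)⁻¹) * hc
          refine ⟨_, hN, fun z => ?_⟩
          rw [tv_smul_v]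
          have e : c * ((t : F)⁻¹) ^ q * (t : F)⁻¹ * (t : F) ^ q * (t : F) = c := by
            rw [inv_pow]
            have : (t : F) ^ q ≠ 0 := pow_ne_zero _ ht0
            field_simp
          rw [e]
          exact h z
      | one => exact ⟨Subgroup.one_mem _, Subgroup.one_mem _⟩
      | mul x y _ _ h1 h3 =>
        obtain ⟨a1, a2⟩ := h1
        obtain ⟨b1, b2⟩ := h3
        exact ⟨Subgroup.mul_mem _ a1 b1, Subgroup.mul_mem _ a2 b2⟩
      | inv x _ h1 =>
        obtain ⟨a1, a2⟩ := h1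
        exact ⟨Subgroup.inv_mem _ a1, Subgroup.inv_mem _ a2⟩
    obtain ⟨_, h⟩ := key _ g.2
    exact h

omit hS in
/-- Elements of determinant one. -/
theorem mem_TG_iff [FiniteDimensional F V] (hS : B.IsSymm) (hB : B.Nondegenerate) (hcase : finrank F V ≠ 3 ∨ q ≠ 2) (g : V ≃ₗ[F] V) :
    g ∈ TG B ↔ (∀ a b, B (g a) (g b) = B a b) ∧ LinearEquiv.det g = 1 :=
  ⟨fun h => ⟨TG_iso hS h, TG_det h⟩, fun h => gen_main _ V B hS hB rfl hcase g h.1 h.2⟩

omit hS in
/-- The transvection group is perfect. -/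
theorem TG_perfect [FiniteDimensional F V] (hS : B.IsSymm) (hB : B.Nondegenerate) (hV : 3 ≤ finrank F V)
    (hcase : finrank F V ≠ 3 ∨ q ≠ 2) : commutator (TG B) = ⊤ := by
  rw [eq_top_iff]
  rintro g -
  have key : ∀ x ∈ TG B, ∃ hx : x ∈ TG B, (⟨x, hx⟩ : TG B) ∈ commutator (TG B) := by
    intro x hx
    induction hx using Subgroup.closure_induction with
    | mem x hx =>
      have hxm : x ∈ TG B := Subgroup.subset_closure hx
      refine ⟨hxm, ?_⟩
      obtain ⟨v, c, hv, hc, h⟩ := hx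
      by_cases hv0 : v = 0
      · subst hv0
        have : (⟨x, hxm⟩ : TG B) = 1 := by
          apply Subtype.ext
          ext y
          change x y = y
          rw [h, tv_apply]
          simp
        rw [this]
        exact Subgroup.one_mem _
      · obtain ⟨E₁, E₂, h₁, h₂, d₁, d₂, hE⟩ := exists_comm hS hB hV hv0 hv hc
        have hm₁ := (mem_TG_iff hS hB hcase E₁).mpr ⟨h₁, d₁⟩
        have hm₂ := (mem_TG_iff hS hB hcase E₂).mpr ⟨h₂, d₂⟩
        have : (⟨x, hxm⟩ : TG B) = ⁅(⟨E₁, hm₁⟩ : TG B), (⟨E₂, hm₂⟩ : TG B)⁆ := by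
          apply Subtype.ext
          change x = ⁅E₁, E₂⁆
          rw [hE]
          ext y
          rw [h, tvE_apply, tv_apply]
        rw [this]
        exact Subgroup.commutator_mem_commutator trivial trivial
    | one => exact ⟨Subgroup.one_mem _, Subgroup.one_mem _⟩
    | mul x y _ _ h1 h3 =>
      obtain ⟨a1, a2⟩ := h1
      obtain ⟨b1, b2⟩ := h3
      exact ⟨Subgroup.mul_mem _ a1 b1, Subgroup.mul_mem _ a2 b2⟩
    | inv x _ h1 =>
      obtain ⟨a1, a2⟩ := h1
      exact ⟨Subgroup.inv_mem _ a1, Subgroup.inv_mem _ a2⟩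
  obtain ⟨_, h⟩ := key _ g.2
  exact h

omit hS in
/-- Normal subgroups. -/
theorem TG_normal [FiniteDimensional F V] (hS : B.IsSymm) (hB : B.Nondegenerate)
    (hcase : 4 ≤ finrank F V ∨ (3 ≤ finrank F V ∧ 3 ≤ q)) (N : Subgroup (TG B)) (hN : N.Normal) :
    N ≤ Subgroup.center (TG B) ∨ N = ⊤ := by
  have hq := one_lt_q hF
  have hV3 : 3 ≤ finrank F V := by omega
  have hcase' : finrank F V ≠ 3 ∨ q ≠ 2 := by
    rcases hcase with h | ⟨-, h⟩
    · left
      omega
    · right
      omega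
  haveI := iso_preprimitive hS hB hcase
  by_cases hfix : MulAction.fixedPoints N (isoP hS) = Set.univ
  · left
    intro g hg
    have hs : ∀ c : V, c ≠ 0 → B c c = 0 → ∃ μ : F, (g.1 : V →ₗ[F] V) c = μ • c := by
      intro c hc hc'
      have h1 : pt hS c hc hc' ∈ MulAction.fixedPoints N (isoP hS) := by
        rw [hfix]
        trivial
      have h3 : g • pt hS c hc hc' = pt hS c hc hc' := h1 ⟨g, hg⟩
      rw [smul_pt hS g hc hc' (T_ne_zero g hc) (by rw [TG_iso hS g.2]; exact hc'), pt_eq_iff] at h3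
      obtain ⟨a, ha⟩ := h3
      exact ⟨a, ha.symm⟩
    obtain ⟨μ, hμ⟩ := scalar_of_fix hS hB (by omega) (g.1 : V →ₗ[F] V) hs
    rw [Subgroup.mem_center_iff]
    intro h
    apply Subtype.ext
    ext x
    change h.1 (g.1 x) = g.1 (h.1 x)
    have h1 : ∀ y, g.1 y = μ • y := hμ
    rw [h1, h1, map_smul]
  · right
    have h1 := (iwaU hS).commutator_le N hfix
    rw [TG_perfect hS hB hV3 hcase'] at h1
    exact eq_top_iff.mpr h1

omit hS in
/-- Simplicity modulo the centre. -/
theorem TG_quot_simple [FiniteDimensional F V] (hS : B.IsSymm) (hB : B.Nondegenerate)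
    (hcase : 4 ≤ finrank F V ∨ (3 ≤ finrank F V ∧ 3 ≤ q)) : IsSimpleGroup (TG B ⧸ Subgroup.center (TG B)) := by
  have hq := one_lt_q hF
  have hV3 : 3 ≤ finrank F V := by omega
  have hcase' : finrank F V ≠ 3 ∨ q ≠ 2 := by
    rcases hcase with h | ⟨-, h⟩
    · left
      omega
    · right
      omega
  refine isSimple_quotient_center ?_ (TG_normal hS hB hcase)
  intro hcen
  have h1 : commutator (TG B) = ⊥ := by
    rw [eq_bot_iff, commutator_def, Subgroup.commutator_le]
    intro a _ b _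
    rw [Subgroup.mem_bot, commutatorElement_eq_one_iff_mul_comm]
    have : a ∈ Subgroup.center (TG B) := by
      rw [hcen]
      trivial
    exact (Subgroup.mem_center_iff.mp this b).symm
  rw [TG_perfect hS hB hV3 hcase'] at h1
  -- a non-trivial transvection
  obtain ⟨v, hv0, hv⟩ := exists_isotropic hS hB (by omega)
  obtain ⟨e, hve, hev, -⟩ := exists_partner hS hB hv0 hv
  obtain ⟨ε, hε0, hε⟩ := exists_eps (hF := hF)
  have h2 : (⟨tvE B v ε hv, tvE_mem hv hε⟩ : TG B) ∈ (⊥ : Subgroup (TG B)) := by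
    rw [← h1]
    trivial
  have h3 : tvE B v ε hv = 1 := congrArg Subtype.val (Subgroup.mem_bot.mp h2)
  have h4 : tvE B v ε hv e = e := by rw [h3]; rfl
  rw [tvE_apply, hve, mul_one] at h4
  have h5 : ε • v = 0 := by simpa using h4
  exact (smul_ne_zero hε0 hv0) h5

end Cfsg.Agent.Lib.Classical.UT
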