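import Mathlib
import Cfsg.Agent.Lib.Classical.AutCount
import Cfsg.Agent.S0243
import Cfsg.Agent.S0249

/-!
Centres and orders for `PSL_n` and `PGL_n`.
-/

set_option autoImplicit false

namespace Cfsg.Agent.Lib.Classical.AutCount

open Matrix

variable {F : Type*} [Field F] {n : ℕ}

/-- A simple non-commutative group has trivial centre. -/
theorem center_eq_bot_of_noncomm {G : Type*} [Group G] (hs : IsSimpleGroup G) (a b : G) (hab : a * b ≠ b * a) :
    Subgroup.center G = ⊥ := by
  rcases hs.eq_bot_or_eq_top_of_normal (Subgroup.center G) inferInstance with h1 | h1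
  · exact h1
  · exfalso
    apply hab
    have : a ∈ Subgroup.center G := by rw [h1]; exact Subgroup.mem_top a
    exact (Subgroup.mem_center_iff.mp this b).symm

/-- `PSL_n(F)` is not commutative, `n ≥ 2`. -/
theorem psl_noncomm (hn : 2 ≤ n) : ∃ a b : Matrix.ProjectiveSpecialLinearGroup (Fin n) F, a * b ≠ b * a := by
  classical
  let i : Fin n := ⟨0, by omega⟩
  let j : Fin n := ⟨1, by omega⟩
  have hij : i ≠ j := by simp [i, j, Fin.ext_iff]
  let x : Matrix.SpecialLinearGroup (Fin n) F := ⟨Matrix.transvection i j 1, Matrix.det_transvection_of_ne i j hij 1⟩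
  let y : Matrix.SpecialLinearGroup (Fin n) F := ⟨Matrix.transvection j i 1, Matrix.det_transvection_of_ne j i hij.symm 1⟩
  let π := QuotientGroup.mk' (Subgroup.center (Matrix.SpecialLinearGroup (Fin n) F))
  refine ⟨π x, π y, ?_⟩
  intro h
  obtain ⟨z, hz⟩ : ∃ z, z = x * y * (y * x)⁻¹ := ⟨_, rfl⟩
  have h1 : π z = 1 := by
    rw [hz, map_mul, map_inv, map_mul, map_mul, h, mul_inv_cancel]
  have h1' : z ∈ Subgroup.center (Matrix.SpecialLinearGroup (Fin n) F) := (QuotientGroup.eq_one_iff z).mp h1
  rw [Matrix.SpecialLinearGroup.mem_center_iff] at h1'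
  obtain ⟨r, -, hr⟩ := h1'
  have h2 : (x : Matrix (Fin n) (Fin n) F) * (y : Matrix (Fin n) (Fin n) F) =
      r • ((y : Matrix (Fin n) (Fin n) F) * (x : Matrix (Fin n) (Fin n) F)) := by
    have h3 : x * y = z * (y * x) := by rw [hz]; group
    have h4 := congrArg (fun g : Matrix.SpecialLinearGroup (Fin n) F => (g : Matrix (Fin n) (Fin n) F)) h3
    simp only [Matrix.SpecialLinearGroup.coe_mul] at h4
    rw [h4, ← hr]
    ext a b
    simp [Matrix.scalar_apply, Matrix.mul_apply, Matrix.diagonal_apply, Finset.mul_sum]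
  have hxm : (x : Matrix (Fin n) (Fin n) F) = 1 + Matrix.single i j 1 := rfl
  have hym : (y : Matrix (Fin n) (Fin n) F) = 1 + Matrix.single j i 1 := rfl
  rw [hxm, hym] at h2
  have e01 := congrFun (congrFun h2 i) j
  have e00 := congrFun (congrFun h2 i) i
  simp [Matrix.mul_add, Matrix.add_mul, Matrix.single_mul_single_same, Matrix.one_apply, Matrix.single_apply, hij, hij.symm] at e01 e00
  exact one_ne_zero (α := F) (by linear_combination e00 - e01)

/-- `|PGL_n(q)| = gcd(n, q - 1) · |PSL_n(q)|`. -/
theorem card_PGL_eq [Fintype F] (hn : 2 ≤ n) :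
    Nat.card (Matrix.ProjGenLinGroup (Fin n) F) =
      Nat.gcd n (Fintype.card F - 1) * Nat.card (Matrix.ProjectiveSpecialLinearGroup (Fin n) F) := by
  classical
  have hq : 2 ≤ Fintype.card F := Fintype.one_lt_card
  have h1 : Nat.card (GL (Fin n) F) = _ := Matrix.card_GL_field (𝔽 := F) n
  have h2 := Subgroup.card_mul_index (Subgroup.center (GL (Fin n) F))
  have h3 : Nat.card (Subgroup.center (GL (Fin n) F)) = Fintype.card F - 1 := by
    rw [Matrix.GeneralLinearGroup.center_eq_range_scalar]
    have hinj : Function.Injective (Matrix.GeneralLinearGroup.scalar (Fin n) (R := F)) := by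
      intro u v huv
      have := congrArg (fun g : GL (Fin n) F => (g : Matrix (Fin n) (Fin n) F) ⟨0, by omega⟩ ⟨0, by omega⟩) huv
      simp at this
      exact Units.ext this
    rw [← Nat.card_congr (MonoidHom.ofInjective hinj).toEquiv, Nat.card_eq_fintype_card, Fintype.card_units]
  have h4 : (Subgroup.center (GL (Fin n) F)).index = Nat.card (Matrix.ProjGenLinGroup (Fin n) F) := rfl
  have h5 := Cfsg.Agent.S0243.result (F := F) rfl n hn
  rw [h3, h4, h1, ← h5] at h2
  have h6 : (Fintype.card F - 1) * Nat.card (Matrix.ProjGenLinGroup (Fin n) F) = (Fintype.card F - 1) *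
      (Nat.gcd n (Fintype.card F - 1) * Nat.card (Matrix.ProjectiveSpecialLinearGroup (Fin n) F)) := by
    rw [h2]
    ring
  exact Nat.eq_of_mul_eq_mul_left (by omega) h6

end Cfsg.Agent.Lib.Classical.AutCount
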