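/-
Symplectic spaces with an isometry squaring to -1 are classified by their dimension.
-/
import Mathlib
import Cfsg.Agent.Lib.Classical.OrthAb

set_option autoImplicit false
set_option linter.unusedSectionVars false

namespace Cfsg.Agent.Lib.Classical.Cplx

open Cfsg.Agent.Lib.Classical.Witt

universe u

variable {F : Type*} [Field F] [Fintype F]

/-- A vector with `B v (x v) = 1`. -/
lemma exists_value_one (h2 : (2 : F) ≠ 0) {V : Type u} [AddCommGroup V] [Module F V] [FiniteDimensional F V]
    (B : LinearMap.BilinForm F V) (hB : B.Nondegenerate) (hA : B.IsAlt) (x : V →ₗ[F] V)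
    (hx : ∀ u, x (x u) = -u) (hxB : ∀ u v, B (x u) (x v) = B u v) (hd : 2 ≤ Module.finrank F V) :
    ∃ v, B v (x v) = 1 := by
  haveI : Finite V := Module.finite_of_finite F
  have hanti : ∀ a b, B a b = - B b a := alt_antisymm B hA
  -- the symmetric bilinear form
  let g : LinearMap.BilinForm F V := B.compl₂ x
  have hg : ∀ a b, g a b = B a (x b) := fun _ _ => rfl
  have hgs : ∀ a b, g a b = g b a := by
    intro a b
    rw [hg, hg, hanti, ← hxB (x b) a, hx, map_neg, LinearMap.neg_apply]
    ring
  let Q : QuadraticForm F V := g.toQuadraticMap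
  have hQ : ∀ a, Q a = B a (x a) := fun _ => rfl
  have hpol : ∀ a b, QuadraticMap.polarBilin Q a b = 2 * B a (x b) := by
    intro a b
    change Q (a + b) - Q a - Q b = _
    rw [hQ, hQ, hQ]
    simp only [map_add, LinearMap.add_apply]
    have := hgs b a
    simp only [hg] at this
    rw [this]
    ring
  have hnd : (QuadraticMap.polarBilin Q).Nondegenerate := by
    have hL : (QuadraticMap.polarBilin Q).SeparatingLeft := by
      intro a ha
      apply hB.1
      intro b
      have h1 := ha (- x b)
      rw [hpol, map_neg, hx, neg_neg] at h1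
      exact (mul_eq_zero.mp h1).resolve_left h2
    refine ⟨hL, ?_⟩
    intro a ha
    apply hL
    intro b
    rw [pol_comm]
    exact ha b
  obtain ⟨v, hv⟩ := Cfsg.Agent.Lib.Classical.Orth.exists_Q_eq h2 hnd hd (1 : F)
  exact ⟨v, hv⟩

/-- The classification. -/
theorem cplx_classify (h2 : (2 : F) ≠ 0) (n : ℕ) : ∀ (V V' : Type u) [AddCommGroup V] [Module F V]
    [FiniteDimensional F V] [AddCommGroup V'] [Module F V'] [FiniteDimensional F V']
    (B : LinearMap.BilinForm F V) (B' : LinearMap.BilinForm F V') (_ : B.Nondegenerate) (_ : B'.Nondegenerate)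
    (_ : B.IsAlt) (_ : B'.IsAlt) (x : V →ₗ[F] V) (x' : V' →ₗ[F] V')
    (_ : ∀ u, x (x u) = -u) (_ : ∀ u, x' (x' u) = -u)
    (_ : ∀ u v, B (x u) (x v) = B u v) (_ : ∀ u v, B' (x' u) (x' v) = B' u v)
    (_ : Module.finrank F V = 2 * n) (_ : Module.finrank F V' = 2 * n),
    ∃ θ : V ≃ₗ[F] V', (∀ u v, B' (θ u) (θ v) = B u v) ∧ ∀ u, θ (x u) = x' (θ u) := by
  classical
  induction n with
  | zero =>
    intro V V' _ _ _ _ _ _ B B' hB hB' hA hA' x x' hx hx' hxB hxB' hV hV'
    have h1 : Subsingleton V := Module.finrank_zero_iff.mp (by simpa using hV)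
    have h3 : Subsingleton V' := Module.finrank_zero_iff.mp (by simpa using hV')
    refine ⟨(LinearEquiv.ofFinrankEq V V' (by rw [hV, hV'])), ?_, ?_⟩
    · intro u v
      rw [Subsingleton.elim u 0]
      simp
    · intro u
      exact Subsingleton.elim _ _
  | succ n ih =>
    intro V V' _ _ _ _ _ _ B B' hB hB' hA hA' x x' hx hx' hxB hxB' hV hV'
    obtain ⟨v, hv⟩ := exists_value_one h2 B hB hA x hx hxB (by omega)
    obtain ⟨v', hv'⟩ := exists_value_one h2 B' hB' hA' x' hx' hxB' (by omega)
    have hanti : ∀ a b, B a b = - B b a := alt_antisymm B hA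
    have hanti' : ∀ a b, B' a b = - B' b a := alt_antisymm B' hA'
    have hvv : B v v = 0 := hA v
    have hxx : B (x v) (x v) = 0 := hA _
    have hxv : B (x v) v = -1 := by rw [hanti, hv]
    have hvv' : B' v' v' = 0 := hA' v'
    have hxx' : B' (x' v') (x' v') = 0 := hA' _
    have hxv' : B' (x' v') v' = -1 := by rw [hanti', hv']
    -- the complements
    let L : V →ₗ[F] F × F := LinearMap.prod (B.flip v) (B.flip (x v))
    let L' : V' →ₗ[F] F × F := LinearMap.prod (B'.flip v') (B'.flip (x' v'))
    let Y : Submodule F V := LinearMap.ker L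
    let Y' : Submodule F V' := LinearMap.ker L'
    have memY : ∀ u, u ∈ Y ↔ B u v = 0 ∧ B u (x v) = 0 := fun u => by
      change L u = 0 ↔ _
      simp [L, Prod.ext_iff]
    have memY' : ∀ u, u ∈ Y' ↔ B' u v' = 0 ∧ B' u (x' v') = 0 := fun u => by
      change L' u = 0 ↔ _
      simp [L', Prod.ext_iff]
    have hLs : Function.Surjective L := by
      rintro ⟨a, b⟩
      refine ⟨b • v - a • x v, Prod.ext ?_ ?_⟩
      · change B (b • v - a • x v) v = a
        simp only [map_sub, map_smul, LinearMap.sub_apply, LinearMap.smul_apply, smul_eq_mul, hvv, hxv]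
        ring
      · change B (b • v - a • x v) (x v) = b
        simp only [map_sub, map_smul, LinearMap.sub_apply, LinearMap.smul_apply, smul_eq_mul, hv, hxx]
        ring
    have hLs' : Function.Surjective L' := by
      rintro ⟨a, b⟩
      refine ⟨b • v' - a • x' v', Prod.ext ?_ ?_⟩
      · change B' (b • v' - a • x' v') v' = a
        simp only [map_sub, map_smul, LinearMap.sub_apply, LinearMap.smul_apply, smul_eq_mul, hvv', hxv']
        ring
      · change B' (b • v' - a • x' v') (x' v') = b
        simp only [map_sub, map_smul, LinearMap.sub_apply, LinearMap.smul_apply, smul_eq_mul, hv', hxx']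
        ring
    have hYd : Module.finrank F Y = 2 * n := by
      have h1 := LinearMap.finrank_range_add_finrank_ker L
      rw [LinearMap.range_eq_top.mpr hLs, finrank_top, Module.finrank_prod, Module.finrank_self] at h1
      change 1 + 1 + Module.finrank F Y = _ at h1
      omega
    have hYd' : Module.finrank F Y' = 2 * n := by
      have h1 := LinearMap.finrank_range_add_finrank_ker L'
      rw [LinearMap.range_eq_top.mpr hLs', finrank_top, Module.finrank_prod, Module.finrank_self] at h1
      change 1 + 1 + Module.finrank F Y' = _ at h1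
      omega
    have hπ : ∀ u, u - B u (x v) • v + B u v • x v ∈ Y := by
      intro u
      rw [memY]
      constructor
      · simp only [map_add, map_sub, map_smul, LinearMap.add_apply, LinearMap.sub_apply, LinearMap.smul_apply,
          smul_eq_mul, hvv, hxv]
        ring
      · simp only [map_add, map_sub, map_smul, LinearMap.add_apply, LinearMap.sub_apply, LinearMap.smul_apply,
          smul_eq_mul, hv, hxx]
        ring
    -- projection
    let π : V →ₗ[F] Y := LinearMap.codRestrict Y
      (LinearMap.id - (B.flip (x v)).smulRight v + (B.flip v).smulRight (x v)) (fun u => by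
        simpa using hπ u)
    have hπc : ∀ u, (π u : V) = u - B u (x v) • v + B u v • x v := fun u => by
      simp [π]
    have hdec : ∀ u, u = B u (x v) • v - B u v • x v + (π u : V) := by
      intro u
      rw [hπc]
      abel
    have hzero : ∀ y : Y, B y v = 0 ∧ B y (x v) = 0 := fun y => (memY y).mp y.2
    have hzero' : ∀ y : Y', B' y v' = 0 ∧ B' y (x' v') = 0 := fun y => (memY' y).mp y.2
    have hform : ∀ (a b c d : F) (p r : Y), B (a • v - b • x v + (p : V)) (c • v - d • x v + (r : V)) =
        b * c - a * d + B p r := by
      intro a b c d p r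
      have h1 : B v r = 0 := by rw [hanti, (hzero r).1, neg_zero]
      have h3 : B (x v) r = 0 := by rw [hanti, (hzero r).2, neg_zero]
      simp only [map_add, map_sub, map_smul, LinearMap.add_apply, LinearMap.sub_apply, LinearMap.smul_apply,
        smul_eq_mul, hvv, hxv, hv, hxx, (hzero p).1, (hzero p).2, h1, h3]
      ring
    have hform' : ∀ (a b c d : F) (p r : Y'), B' (a • v' - b • x' v' + (p : V')) (c • v' - d • x' v' + (r : V')) =
        b * c - a * d + B' p r := by
      intro a b c d p r
      have h1 : B' v' r = 0 := by rw [hanti', (hzero' r).1, neg_zero]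
      have h3 : B' (x' v') r = 0 := by rw [hanti', (hzero' r).2, neg_zero]
      simp only [map_add, map_sub, map_smul, LinearMap.add_apply, LinearMap.sub_apply, LinearMap.smul_apply,
        smul_eq_mul, hvv', hxv', hv', hxx', (hzero' p).1, (hzero' p).2, h1, h3]
      ring
    -- restriction of the data
    have hstab : ∀ y ∈ Y, x y ∈ Y := by
      intro y hy
      obtain ⟨h1, h3⟩ := (memY y).mp hy
      rw [memY]
      constructor
      · have h4 := hxB y (x v)
        rw [hx, map_neg, h3, neg_eq_zero] at h4
        exact h4
      · rw [hxB, h1]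
    have hstab' : ∀ y ∈ Y', x' y ∈ Y' := by
      intro y hy
      obtain ⟨h1, h3⟩ := (memY' y).mp hy
      rw [memY']
      constructor
      · have h4 := hxB' y (x' v')
        rw [hx', map_neg, h3, neg_eq_zero] at h4
        exact h4
      · rw [hxB', h1]
    have hBY : (B.restrict Y).Nondegenerate := by
      have hL : (B.restrict Y).SeparatingLeft := by
        intro a ha
        apply Subtype.ext
        apply hB.1
        intro u
        rw [hdec u, map_add, map_sub, map_smul, map_smul, (hzero a).1, (hzero a).2]
        simp only [smul_zero, sub_self, zero_add]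
        exact ha (π u)
      refine ⟨hL, ?_⟩
      intro a ha
      apply hL
      intro b
      have h1 := ha b
      change B b a = 0 at h1
      change B a b = 0
      rw [hanti, h1, neg_zero]
    have hπ' : ∀ u, u - B' u (x' v') • v' + B' u v' • x' v' ∈ Y' := by
      intro u
      rw [memY']
      constructor
      · simp only [map_add, map_sub, map_smul, LinearMap.add_apply, LinearMap.sub_apply, LinearMap.smul_apply,
          smul_eq_mul, hvv', hxv']
        ring
      · simp only [map_add, map_sub, map_smul, LinearMap.add_apply, LinearMap.sub_apply, LinearMap.smul_apply,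
          smul_eq_mul, hv', hxx']
        ring
    have hBY' : (B'.restrict Y').Nondegenerate := by
      have hL : (B'.restrict Y').SeparatingLeft := by
        intro a ha
        apply Subtype.ext
        apply hB'.1
        intro u
        have hd : u = B' u (x' v') • v' - B' u v' • x' v' + (u - B' u (x' v') • v' + B' u v' • x' v') := by abel
        rw [hd, map_add, map_sub, map_smul, map_smul, (hzero' a).1, (hzero' a).2]
        simp only [smul_zero, sub_self, zero_add]
        exact ha ⟨_, hπ' u⟩
      refine ⟨hL, ?_⟩
      intro a ha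
      apply hL
      intro b
      have h1 := ha b
      change B' b a = 0 at h1
      change B' a b = 0
      rw [hanti', h1, neg_zero]
    obtain ⟨θY, hθ1, hθ2⟩ := ih Y Y' (B.restrict Y) (B'.restrict Y') hBY hBY'
      (fun a => hA a) (fun a => hA' a) (x.restrict hstab) (x'.restrict hstab')
      (fun u => Subtype.ext (hx u)) (fun u => Subtype.ext (hx' u))
      (fun a b => hxB a b) (fun a b => hxB' a b) hYd hYd'
    have hθ1' : ∀ p r : Y, B' (θY p) (θY r) = B p r := fun p r => hθ1 p r
    have hθ2' : ∀ p : Y, ((θY (x.restrict hstab p) : Y') : V') = x' (θY p) := fun p => congrArg Subtype.val (hθ2 p)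
    let θ : V →ₗ[F] V' := (B.flip (x v)).smulRight v' - (B.flip v).smulRight (x' v') +
      Y'.subtype ∘ₗ (θY : Y →ₗ[F] Y') ∘ₗ π
    have hθc : ∀ u, θ u = B u (x v) • v' - B u v • x' v' + ((θY (π u) : Y') : V') := fun u => by
      simp [θ]
    have hiso : ∀ u z, B' (θ u) (θ z) = B u z := by
      intro u z
      rw [hθc, hθc, hform', hθ1']
      conv_rhs => rw [hdec u, hdec z]
      rw [hform]
    have hinj : Function.Injective θ := by
      rw [← LinearMap.ker_eq_bot, LinearMap.ker_eq_bot']
      intro u hu
      apply hB.1
      intro z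
      rw [← hiso, hu]
      simp
    refine ⟨LinearMap.linearEquivOfInjective θ hinj (by rw [hV, hV']), hiso, ?_⟩
    intro u
    change θ (x u) = x' (θ u)
    have h1 : B (x u) v = - B u (x v) := by
      have h4 := hxB u (x v)
      rw [hx, map_neg] at h4
      linear_combination -h4
    have h3 : π (x u) = x.restrict hstab (π u) := by
      apply Subtype.ext
      rw [LinearMap.restrict_coe_apply, hπc, hπc, map_add, map_sub, map_smul, map_smul, hx, hxB, h1]
      simp only [smul_neg, neg_smul]
      abel
    rw [hθc, hθc, hxB, h1, h3, hθ2', map_add, map_sub, map_smul, map_smul, hx']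
    simp only [smul_neg, neg_smul]
    abel

end Cfsg.Agent.Lib.Classical.Cplx
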