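/-
Matrices fixing all alternating forms are scalar.
-/
import Mathlib
import Cfsg.Agent.Lib.Classical.LinAlg

set_option autoImplicit false
set_option linter.unusedSectionVars false

namespace Cfsg.Agent.Lib.Classical.Exc

open Matrix

variable {F : Type*} [Field F] {ι : Type*} [Fintype ι] [DecidableEq ι]

/-- The elementary alternating matrix. -/
def wedge (F : Type*) [Field F] {ι : Type*} [DecidableEq ι] (i j : ι) : Matrix ι ι F :=
  vecMulVec (Pi.single i 1) (Pi.single j 1) - vecMulVec (Pi.single j 1) (Pi.single i 1)

/-- Entries of `A (eᵢ∧eⱼ) Aᵀ`. -/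
lemma entry_wedge (A : Matrix ι ι F) (i j k l : ι) :
    (A * wedge F i j * A.transpose) k l = A k i * A l j - A k j * A l i := by
  rw [wedge, Matrix.mul_sub, Matrix.sub_mul, mul_vecMulVec', mul_vecMulVec', vecMulVec_mul', vecMulVec_mul']
  simp [vecMulVec_apply, Matrix.mulVec_single_one, Matrix.vecMul_transpose]

/-- The wedge entries. -/
lemma wedge_entry (i j k l : ι) :
    wedge F i j k l =
      (Pi.single i (1 : F) : ι → F) k * (Pi.single j (1 : F) : ι → F) l -
      (Pi.single j (1 : F) : ι → F) k * (Pi.single i (1 : F) : ι → F) l := by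
  simp [wedge, vecMulVec_apply]

lemma wedge_diag (i j k : ι) : wedge F i j k k = 0 := by
  rw [wedge_entry, mul_comm, sub_self]

lemma wedge_anti (i j k l : ι) : wedge F i j l k = - wedge F i j k l := by
  rw [wedge_entry, wedge_entry]
  ring

/-- A matrix fixing all wedges is scalar. -/
theorem scalar_of_wedge_fix (hι : 3 ≤ Fintype.card ι) (A : Matrix ι ι F)
    (h : ∀ i j, i ≠ j → ∀ k l, A k i * A l j - A k j * A l i =
      (Pi.single i (1 : F) : ι → F) k * (Pi.single j (1 : F) : ι → F) l -
      (Pi.single j (1 : F) : ι → F) k * (Pi.single i (1 : F) : ι → F) l) :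
    ∃ c : F, A = c • 1 ∧ c * c = 1 := by
  classical
  have hthird : ∀ a b : ι, ∃ c, c ≠ a ∧ c ≠ b := by
    intro a b
    by_contra hcon
    push Not at hcon
    have hcov : (Finset.univ : Finset ι) ⊆ {a, b} := by
      intro c _
      by_cases hca : c = a
      · simp [hca]
      · simp [hcon c hca]
    have := Finset.card_le_card hcov
    have h2 := Finset.card_le_two (a := a) (b := b)
    rw [Finset.card_univ] at this
    omega
  have hdet : ∀ k l, k ≠ l → A k k * A l l - A k l * A l k = 1 := by
    intro k l hkl
    have := h k l hkl k l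
    simpa [Pi.single_apply, hkl, hkl.symm] using this
  have hoff : ∀ k m, k ≠ m → A k m = 0 := by
    intro k m hkm
    by_contra hne
    obtain ⟨l, hlk, hlm⟩ := hthird k m
    have hrow : ∀ j, A k m * A l j = A k j * A l m := by
      intro j
      by_cases hjm : j = m
      · rw [hjm]
      · have := h m j (Ne.symm hjm) k l
        simp only [Pi.single_apply, if_neg hkm, if_neg hlm, zero_mul, mul_zero, sub_zero] at this
        have h0 : (if k = j then (1 : F) else 0) * 0 = 0 := mul_zero _
        rw [sub_eq_zero] at this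
        exact this
    have h1 := hdet k l (Ne.symm hlk)
    have h3 : A k m * (A k k * A l l - A k l * A l k) = 0 := by
      have e1 := hrow l
      have e2 := hrow k
      calc A k m * (A k k * A l l - A k l * A l k)
          = A k k * (A k m * A l l) - A k l * (A k m * A l k) := by ring
        _ = A k k * (A k l * A l m) - A k l * (A k k * A l m) := by rw [e1, e2]
        _ = 0 := by ring
    rw [h1, mul_one] at h3
    exact hne h3
  have hdiag : ∀ k l, k ≠ l → A k k * A l l = 1 := by
    intro k l hkl
    have := hdet k l hkl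
    rwa [hoff k l hkl, zero_mul, sub_zero] at this
  have heq : ∀ l m, A l l = A m m := by
    intro l m
    by_cases hlm : l = m
    · rw [hlm]
    obtain ⟨k, hkl, hkm⟩ := hthird l m
    have h1 := hdiag k l hkl
    have h3 := hdiag k m hkm
    have h4 : A k k ≠ 0 := left_ne_zero_of_mul_eq_one h1
    exact mul_left_cancel₀ h4 (h1.trans h3.symm)
  obtain ⟨i₀⟩ : Nonempty ι := by
    apply Fintype.card_pos_iff.mp
    omega
  obtain ⟨j₀, hj, -⟩ := hthird i₀ i₀
  refine ⟨A i₀ i₀, ?_, ?_⟩
  · ext k l
    by_cases hkl : k = l
    · subst hkl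
      simp [heq k i₀]
    · simp [hoff k l hkl, Matrix.one_apply, hkl]
  · have := hdiag i₀ j₀ (Ne.symm hj)
    rwa [heq j₀ i₀] at this

/-- The number of square roots of one. -/
lemma card_sqrt_one_le [Fintype F] : Nat.card {x : F // x * x = 1} ≤ 2 := by
  classical
  have hsub : ({x : F | x * x = 1}) ⊆ ({1, -1} : Finset F) := by
    intro x hx
    have h1 : x * x = 1 := hx
    have h2 : (x - 1) * (x + 1) = 0 := by linear_combination h1
    rcases mul_eq_zero.mp h2 with h3 | h3
    · simp [sub_eq_zero.mp h3]
    · simp [eq_neg_of_add_eq_zero_left h3]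
  have h1 : Nat.card {x : F // x * x = 1} = ({x : F | x * x = 1}).ncard := by
    rw [← Nat.card_coe_set_eq]
    rfl
  rw [h1]
  refine (Set.ncard_le_ncard hsub (Finset.finite_toSet _)).trans ?_
  rw [Set.ncard_coe_finset]
  exact Finset.card_le_two

lemma card_sqrt_one_even [Fintype F] (h2 : (2 : F) = 0) : Nat.card {x : F // x * x = 1} ≤ 1 := by
  classical
  haveI : Subsingleton {x : F // x * x = 1} := by
    constructor
    rintro ⟨x, hx⟩ ⟨y, hy⟩
    apply Subtype.ext
    have h3 : (x - y) * (x - y) = 0 := by
      have : (x - y) * (x - y) = x * x + y * y - 2 * (x * y) := by ring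
      rw [this, hx, hy, h2]
      have : (1 : F) + 1 = 2 := by norm_num
      rw [this, h2]
      ring
    exact sub_eq_zero.mp (mul_self_eq_zero.mp h3)
  exact Finite.card_le_one_iff_subsingleton.mpr inferInstance

end Cfsg.Agent.Lib.Classical.Exc
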