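/-
The Hodge star on alternating `4 × 4` matrices.
-/
import Mathlib

set_option autoImplicit false
set_option linter.unusedSectionVars false

namespace Cfsg.Agent.Lib.Classical.Exc

open Matrix

variable {R : Type*} [CommRing R]

/-- The alternating matrix with given entries above the diagonal. -/
def altX (p01 p02 p03 p12 p13 p23 : R) : Matrix (Fin 4) (Fin 4) R :=
  !![0, p01, p02, p03; -p01, 0, p12, p13; -p02, -p12, 0, p23; -p03, -p13, -p23, 0]

/-- The Hodge star. -/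
def hodge (X : Matrix (Fin 4) (Fin 4) R) : Matrix (Fin 4) (Fin 4) R :=
  altX (X 2 3) (-X 1 3) (X 1 2) (X 0 3) (-X 0 2) (X 0 1)

/-- Alternating matrices. -/
def IsAlt (X : Matrix (Fin 4) (Fin 4) R) : Prop := (∀ i, X i i = 0) ∧ ∀ i j, X j i = - X i j

lemma isAlt_altX (p01 p02 p03 p12 p13 p23 : R) : IsAlt (altX p01 p02 p03 p12 p13 p23) := by
  constructor
  · intro i
    fin_cases i <;> simp [altX]
  · intro i j
    fin_cases i <;> fin_cases j <;> simp [altX]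

lemma altX_of_isAlt {X : Matrix (Fin 4) (Fin 4) R} (h : IsAlt X) :
    altX (X 0 1) (X 0 2) (X 0 3) (X 1 2) (X 1 3) (X 2 3) = X := by
  ext i j : 1
  fin_cases i <;> fin_cases j <;>
    simp [altX, h.1, h.2 1 0, h.2 2 0, h.2 3 0, h.2 2 1, h.2 3 1, h.2 3 2]

lemma isAlt_conj (A : Matrix (Fin 4) (Fin 4) R) {X : Matrix (Fin 4) (Fin 4) R} (h : IsAlt X) :
    IsAlt (A * X * Aᵀ) := by
  rw [← altX_of_isAlt h]
  generalize X 0 1 = p01
  generalize X 0 2 = p02
  generalize X 0 3 = p03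
  generalize X 1 2 = p12
  generalize X 1 3 = p13
  generalize X 2 3 = p23
  constructor
  · intro i
    simp only [Matrix.mul_apply, Fin.sum_univ_four, Matrix.transpose_apply, altX]
    simp
    ring
  · intro i j
    simp only [Matrix.mul_apply, Fin.sum_univ_four, Matrix.transpose_apply, altX]
    simp
    ring

/-- The Pfaffian. -/
def pf (X : Matrix (Fin 4) (Fin 4) R) : R := X 0 1 * X 2 3 - X 0 2 * X 1 3 + X 0 3 * X 1 2

lemma det_four (A : Matrix (Fin 4) (Fin 4) R) : A.det =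
    A 0 0 * (A 1 1 * (A 2 2 * A 3 3 - A 2 3 * A 3 2) - A 1 2 * (A 2 1 * A 3 3 - A 2 3 * A 3 1) +
        A 1 3 * (A 2 1 * A 3 2 - A 2 2 * A 3 1)) -
    A 0 1 * (A 1 0 * (A 2 2 * A 3 3 - A 2 3 * A 3 2) - A 1 2 * (A 2 0 * A 3 3 - A 2 3 * A 3 0) +
        A 1 3 * (A 2 0 * A 3 2 - A 2 2 * A 3 0)) +
    A 0 2 * (A 1 0 * (A 2 1 * A 3 3 - A 2 3 * A 3 1) - A 1 1 * (A 2 0 * A 3 3 - A 2 3 * A 3 0) +
        A 1 3 * (A 2 0 * A 3 1 - A 2 1 * A 3 0)) -
    A 0 3 * (A 1 0 * (A 2 1 * A 3 2 - A 2 2 * A 3 1) - A 1 1 * (A 2 0 * A 3 2 - A 2 2 * A 3 0) +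
        A 1 2 * (A 2 0 * A 3 1 - A 2 1 * A 3 0)) := by
  simp only [Matrix.det_succ_row_zero, Fin.sum_univ_succ, Matrix.submatrix_apply]
  simp [Matrix.det_fin_three, Fin.succAbove, Fin.sum_univ_succ]
  ring

lemma pf_conj (A : Matrix (Fin 4) (Fin 4) R) (p01 p02 p03 p12 p13 p23 : R) :
    pf (A * altX p01 p02 p03 p12 p13 p23 * Aᵀ) = A.det * pf (altX p01 p02 p03 p12 p13 p23) := by
  rw [det_four]
  simp only [pf, Matrix.mul_apply, Fin.sum_univ_four, Matrix.transpose_apply, altX]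
  simp
  ring

set_option maxHeartbeats 4000000 in
/-- The key identity for the Hodge star. -/
lemma hodge_key (A : Matrix (Fin 4) (Fin 4) R) (p01 p02 p03 p12 p13 p23 : R) :
    Aᵀ * hodge (A * altX p01 p02 p03 p12 p13 p23 * Aᵀ) * A = A.det • hodge (altX p01 p02 p03 p12 p13 p23) := by
  rw [det_four]
  ext i j : 1
  fin_cases i <;> fin_cases j <;>
    simp [hodge, altX, Matrix.mul_apply, Fin.sum_univ_four] <;> ring

end Cfsg.Agent.Lib.Classical.Exc
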