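/-
Hermitian `2 × 2` matrices over the quadratic algebra and the exceptional isomorphism
`PΩ₄⁻(q) ≅ PSL₂(q²)`.
-/
import Mathlib
import Cfsg.Agent.Lib.Classical.ExcSL2
import Cfsg.Agent.Lib.Classical.ExcAlt
import Cfsg.Agent.Lib.Classical.BinAlg
import Cfsg.Agent.Lib.Classical.OrderMinus
import Cfsg.Agent.Lib.Classical.SL2Sylow
import Cfsg.Agent.Lib.Classical.OrthIdx2

set_option autoImplicit false
set_option linter.unusedSectionVars false

namespace Cfsg.Agent.Lib.Classical.Exc

open Matrix Cfsg.Agent.Lib.Classical Cfsg.Agent.Lib.Classical.Orth Cfsg.Agent.Lib.Classical.Abs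
open Cfsg.Agent.Lib.Classical.Bin Cfsg.Agent.Lib.Classical.Bin.BinAlg

variable {F : Type*} [Field F] {a b : F}

/-- Scalars in the quadratic algebra. -/
def iL (c : F) : BinAlg F a b := ⟨c, 0⟩

@[simp] lemma iL_re (c : F) : (iL c : BinAlg F a b).re = c := rfl
@[simp] lemma iL_im (c : F) : (iL c : BinAlg F a b).im = 0 := rfl

@[simp] lemma sub_re' (z w : BinAlg F a b) : (z - w).re = z.re - w.re := by
  change z.re + -w.re = _
  ring

@[simp] lemma sub_im' (z w : BinAlg F a b) : (z - w).im = z.im - w.im := by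
  change z.im + -w.im = _
  ring

lemma iL_injective : Function.Injective (iL : F → BinAlg F a b) := fun _ _ h => congrArg BinAlg.re h

/-- Conjugation as a ring homomorphism. -/
def conjR : BinAlg F a b →+* BinAlg F a b where
  toFun := conj
  map_one' := by ext <;> simp
  map_mul' := conj_mul
  map_zero' := by ext <;> simp
  map_add' z w := by ext <;> simp <;> ring

@[simp] lemma conjR_apply (z : BinAlg F a b) : conjR z = conj z := rfl

/-- The quadratic algebra of an anisotropic form is a field. -/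
@[reducible] noncomputable def fieldBin (hab : ∀ z₁ z₂ : F, z₁ ^ 2 + a * z₁ * z₂ + b * z₂ ^ 2 = 0 → z₁ = 0 ∧ z₂ = 0) :
    Field (BinAlg F a b) :=
  { instCommRingBin with
    inv := fun z => (normB z)⁻¹ • conj z
    exists_pair_ne := ⟨0, 1, by
      intro h
      have := congrArg BinAlg.re h
      simp at this⟩
    mul_inv_cancel := by
      intro z hz
      have hn : normB z ≠ 0 := fun h => hz (normB_eq_zero hab h)
      have h2 := mul_conj z
      ext
      · have := congrArg BinAlg.re h2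
        simp only [mul_re, smul_re, smul_im, one_re, mul_one] at this ⊢
        field_simp
        linear_combination this
      · have := congrArg BinAlg.im h2
        simp only [mul_im, smul_re, smul_im, one_im, mul_zero] at this ⊢
        field_simp
        linear_combination this
    inv_zero := by
      ext <;> simp [normB, conj]
    nnqsmul := _
    qsmul := _ }

/-- The algebra as a pair. -/
def binEquiv : BinAlg F a b ≃ F × F where
  toFun z := (z.re, z.im)
  invFun p := ⟨p.1, p.2⟩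
  left_inv _ := rfl
  right_inv _ := rfl

instance instFiniteBin [Finite F] : Finite (BinAlg F a b) := Finite.of_equiv _ binEquiv.symm

/-- Fintype structure on the algebra. -/
noncomputable def fintypeBin [Fintype F] : Fintype (BinAlg F a b) := Fintype.ofEquiv _ binEquiv.symm

lemma card_bin [Fintype F] : Nat.card (BinAlg F a b) = Fintype.card F ^ 2 := by
  rw [Nat.card_congr binEquiv, Nat.card_eq_fintype_card, Fintype.card_prod]
  ring

/-- The conjugate transpose. -/
def stM {n : Type*} [Fintype n] (A : Matrix n n (BinAlg F a b)) : Matrix n n (BinAlg F a b) :=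
  (A.map conjR)ᵀ

lemma stM_apply {n : Type*} [Fintype n] (A : Matrix n n (BinAlg F a b)) (i j : n) :
    stM A i j = conj (A j i) := rfl

lemma stM_mul {n : Type*} [Fintype n] [DecidableEq n] (A B : Matrix n n (BinAlg F a b)) :
    stM (A * B) = stM B * stM A := by
  unfold stM
  rw [← Matrix.transpose_mul, Matrix.map_mul]

lemma stM_one {n : Type*} [Fintype n] [DecidableEq n] : stM (1 : Matrix n n (BinAlg F a b)) = 1 := by
  ext i j : 1
  rw [stM_apply]
  by_cases h : i = j
  · subst h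
    simp only [Matrix.one_apply_eq]
    ext <;> simp
  · have h' : j ≠ i := Ne.symm h
    simp only [Matrix.one_apply_ne h, Matrix.one_apply_ne h']
    ext <;> simp

lemma det_stM {n : Type*} [Fintype n] [DecidableEq n] (A : Matrix n n (BinAlg F a b)) :
    (stM A).det = conj A.det := by
  unfold stM
  rw [Matrix.det_transpose]
  exact (RingHom.map_det conjR A).symm

local notation "V₄" => ((Fin 1 ⊕ Fin 1) ⊕ Fin 2 → F)

/-- The Hermitian matrix of a vector. -/
def Mv (v : (Fin 1 ⊕ Fin 1) ⊕ Fin 2 → F) : Matrix (Fin 2) (Fin 2) (BinAlg F a b) :=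
  !![iL (v (.inl (.inl 0))), ⟨v (.inr 0), v (.inr 1)⟩;
     conj ⟨v (.inr 0), v (.inr 1)⟩, -iL (v (.inl (.inr 0)))]

lemma det_Mv (v : (Fin 1 ⊕ Fin 1) ⊕ Fin 2 → F) :
    (Mv v : Matrix (Fin 2) (Fin 2) (BinAlg F a b)).det = - iL (Qminus 1 F a b v) := by
  rw [Qminus_apply, Cfsg.quadFormMinus]
  unfold Mv
  rw [Matrix.det_fin_two_of]
  ext
  · simp
    ring
  · simp
    ring

/-- Coordinates of a Hermitian matrix. -/
def co (X : Matrix (Fin 2) (Fin 2) (BinAlg F a b)) : (Fin 1 ⊕ Fin 1) ⊕ Fin 2 → F :=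
  Sum.elim (Sum.elim (fun _ => (X 0 0).re) (fun _ => -(X 1 1).re)) ![(X 0 1).re, (X 0 1).im]

lemma co_Mv (v : (Fin 1 ⊕ Fin 1) ⊕ Fin 2 → F) : co (Mv v : Matrix (Fin 2) (Fin 2) (BinAlg F a b)) = v := by
  funext i
  rcases i with (i | i) | i
  · fin_cases i
    simp [co, Mv]
  · fin_cases i
    simp [co, Mv]
  · fin_cases i <;> simp [co, Mv]

lemma Mv_co (X : Matrix (Fin 2) (Fin 2) (BinAlg F a b)) (h00 : (X 0 0).im = 0) (h11 : (X 1 1).im = 0)
    (h10 : X 1 0 = conj (X 0 1)) : Mv (co X) = X := by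
  ext i j : 1
  fin_cases i <;> fin_cases j
  · ext <;> simp [co, Mv, h00]
  · ext <;> simp [co, Mv]
  · ext <;> simp [co, Mv, h10]
  · ext <;> simp [co, Mv, h11]

lemma Mv_injective : Function.Injective (Mv : _ → Matrix (Fin 2) (Fin 2) (BinAlg F a b)) := by
  intro u v h
  rw [← co_Mv (a := a) (b := b) u, h, co_Mv]

/-- The key computation: the diagonal of `A M A^*` is in the base field. -/
lemma herm_diag (p r : BinAlg F a b) (x y : F) (w : BinAlg F a b) :
    (p * iL x * conj p + r * conj w * conj p + p * w * conj r + r * (- iL y) * conj r).im = 0 := by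
  simp
  ring

lemma stM_Mv (v : (Fin 1 ⊕ Fin 1) ⊕ Fin 2 → F) : stM (Mv v : Matrix (Fin 2) (Fin 2) (BinAlg F a b)) = Mv v := by
  ext i j : 1
  fin_cases i <;> fin_cases j <;> simp [stM, Mv] <;> ext <;> simp

lemma stM_stM {n : Type*} [Fintype n] (A : Matrix n n (BinAlg F a b)) : stM (stM A) = A := by
  ext i j : 1
  rw [stM_apply, stM_apply, conj_conj]

/-- The action on vectors. -/
def rhoH (A : Matrix (Fin 2) (Fin 2) (BinAlg F a b)) (v : (Fin 1 ⊕ Fin 1) ⊕ Fin 2 → F) :
    (Fin 1 ⊕ Fin 1) ⊕ Fin 2 → F := co (A * Mv v * stM A)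

lemma Mv_rhoH (A : Matrix (Fin 2) (Fin 2) (BinAlg F a b)) (v : (Fin 1 ⊕ Fin 1) ⊕ Fin 2 → F) :
    Mv (rhoH A v) = A * Mv v * stM A := by
  apply Mv_co
  · have := herm_diag (A 0 0) (A 0 1) (v (.inl (.inl 0))) (v (.inl (.inr 0))) ⟨v (.inr 0), v (.inr 1)⟩
    convert this using 2
    simp [Matrix.mul_apply, Fin.sum_univ_two, stM_apply, Mv]
    ring
  · have := herm_diag (A 1 0) (A 1 1) (v (.inl (.inl 0))) (v (.inl (.inr 0))) ⟨v (.inr 0), v (.inr 1)⟩
    convert this using 2
    simp [Matrix.mul_apply, Fin.sum_univ_two, stM_apply, Mv]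
    ring
  · have h1 : stM (A * Mv v * stM A) = A * Mv v * stM A := by
      rw [stM_mul, stM_stM, stM_mul, stM_Mv, Matrix.mul_assoc]
    have h2 := congrFun (congrFun h1 1) 0
    rw [stM_apply] at h2
    exact h2.symm

lemma rhoH_mul (A B : Matrix (Fin 2) (Fin 2) (BinAlg F a b)) (v : (Fin 1 ⊕ Fin 1) ⊕ Fin 2 → F) :
    rhoH (A * B) v = rhoH A (rhoH B v) := by
  apply Mv_injective (a := a) (b := b)
  rw [Mv_rhoH, Mv_rhoH, Mv_rhoH, stM_mul]
  simp only [Matrix.mul_assoc]

lemma rhoH_one (v : (Fin 1 ⊕ Fin 1) ⊕ Fin 2 → F) :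
    rhoH (1 : Matrix (Fin 2) (Fin 2) (BinAlg F a b)) v = v := by
  apply Mv_injective (a := a) (b := b)
  rw [Mv_rhoH, stM_one]
  simp

lemma Mv_add (u v : (Fin 1 ⊕ Fin 1) ⊕ Fin 2 → F) :
    (Mv (u + v) : Matrix (Fin 2) (Fin 2) (BinAlg F a b)) = Mv u + Mv v := by
  ext i j : 1
  fin_cases i <;> fin_cases j <;> ext <;> simp [Mv, iL] <;> ring

lemma Mv_smul (c : F) (v : (Fin 1 ⊕ Fin 1) ⊕ Fin 2 → F) :
    (Mv (c • v) : Matrix (Fin 2) (Fin 2) (BinAlg F a b)) = (iL c : BinAlg F a b) • Mv v := by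
  ext i j : 1
  fin_cases i <;> fin_cases j <;> ext <;> simp [Mv, iL] <;> ring

/-- The action as a linear map. -/
def rhoHL (A : Matrix (Fin 2) (Fin 2) (BinAlg F a b)) :
    ((Fin 1 ⊕ Fin 1) ⊕ Fin 2 → F) →ₗ[F] ((Fin 1 ⊕ Fin 1) ⊕ Fin 2 → F) where
  toFun := rhoH A
  map_add' u v := by
    apply Mv_injective (a := a) (b := b)
    rw [Mv_add, Mv_rhoH, Mv_rhoH, Mv_rhoH, Mv_add]
    rw [Matrix.mul_add, Matrix.add_mul]
  map_smul' c v := by
    apply Mv_injective (a := a) (b := b)
    rw [RingHom.id_apply, Mv_smul, Mv_rhoH, Mv_rhoH, Mv_smul]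
    rw [Matrix.mul_smul, Matrix.smul_mul]

lemma rhoH_Q (A : Matrix.SpecialLinearGroup (Fin 2) (BinAlg F a b)) (v : (Fin 1 ⊕ Fin 1) ⊕ Fin 2 → F) :
    Qminus 1 F a b (rhoH A.1 v) = Qminus 1 F a b v := by
  have h1 := det_Mv (a := a) (b := b) (rhoH A.1 v)
  rw [Mv_rhoH, Matrix.det_mul, Matrix.det_mul, det_stM, A.2, det_Mv] at h1
  have h2 : conj (1 : BinAlg F a b) = 1 := by
    ext <;> simp
  rw [h2, one_mul, mul_one, neg_inj] at h1
  exact (iL_injective h1).symm

/-- The homomorphism. -/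
noncomputable def phiH : Matrix.SpecialLinearGroup (Fin 2) (BinAlg F a b) →* OG (Qminus 1 F a b) where
  toFun A := ⟨{ toLinearMap := rhoHL A.1
                invFun := rhoH (A⁻¹).1
                left_inv := fun w => by
                  change rhoH (A⁻¹).1 (rhoH A.1 w) = w
                  rw [← rhoH_mul, ← Matrix.SpecialLinearGroup.coe_mul, inv_mul_cancel,
                    Matrix.SpecialLinearGroup.coe_one, rhoH_one]
                right_inv := fun w => by
                  change rhoH A.1 (rhoH (A⁻¹).1 w) = w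
                  rw [← rhoH_mul, ← Matrix.SpecialLinearGroup.coe_mul, mul_inv_cancel,
                    Matrix.SpecialLinearGroup.coe_one, rhoH_one] }, fun u _ => rhoH_Q A u⟩
  map_one' := by
    apply OG_ext
    intro w
    exact rhoH_one w
  map_mul' A B := by
    apply OG_ext
    intro w
    exact rhoH_mul A.1 B.1 w

lemma phiH_apply (A : Matrix.SpecialLinearGroup (Fin 2) (BinAlg F a b)) (w : (Fin 1 ⊕ Fin 1) ⊕ Fin 2 → F) :
    (phiH A).1 w = rhoH A.1 w := rfl

/-- Elements of the kernel are scalar with square one. -/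
lemma ker_scalarH {A : Matrix.SpecialLinearGroup (Fin 2) (BinAlg F a b)} (hA : A ∈ (phiH (a := a) (b := b)).ker) :
    ∃ c : BinAlg F a b, A.1 = c • 1 ∧ c * c = 1 := by
  rw [MonoidHom.mem_ker] at hA
  have hfix : ∀ v, A.1 * Mv v * stM A.1 = Mv v := by
    intro v
    rw [← Mv_rhoH, ← phiH_apply, hA]
    rfl
  let v₁ : (Fin 1 ⊕ Fin 1) ⊕ Fin 2 → F := Sum.elim (Sum.elim (fun _ => 1) (fun _ => -1)) (fun _ => 0)
  have hv₁ : (Mv v₁ : Matrix (Fin 2) (Fin 2) (BinAlg F a b)) = 1 := by
    ext i j : 1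
    fin_cases i <;> fin_cases j <;> simp [Mv, v₁, iL, Matrix.one_apply] <;> ext <;> simp
  have h1 : A.1 * stM A.1 = 1 := by
    have := hfix v₁
    rwa [hv₁, Matrix.mul_one] at this
  have h1' : stM A.1 * A.1 = 1 := mul_eq_one_comm.mp h1
  have hcomm : ∀ v, A.1 * Mv v = Mv v * A.1 := by
    intro v
    calc A.1 * Mv v = A.1 * Mv v * (stM A.1 * A.1) := by rw [h1', Matrix.mul_one]
      _ = (A.1 * Mv v * stM A.1) * A.1 := by simp only [Matrix.mul_assoc]
      _ = _ := by rw [hfix]
  let v₂ : (Fin 1 ⊕ Fin 1) ⊕ Fin 2 → F := Sum.elim (Sum.elim (fun _ => 1) (fun _ => 0)) (fun _ => 0)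
  let v₃ : (Fin 1 ⊕ Fin 1) ⊕ Fin 2 → F := Sum.elim (Sum.elim (fun _ => 0) (fun _ => 0)) ![1, 0]
  have hv₂ : (Mv v₂ : Matrix (Fin 2) (Fin 2) (BinAlg F a b)) = !![1, 0; 0, 0] := by
    ext i j : 1
    fin_cases i <;> fin_cases j <;> simp [Mv, v₂, iL] <;> ext <;> simp
  have hv₃ : (Mv v₃ : Matrix (Fin 2) (Fin 2) (BinAlg F a b)) = !![0, 1; 1, 0] := by
    ext i j : 1
    fin_cases i <;> fin_cases j <;> simp [Mv, v₃, iL] <;> ext <;> simp
  have h2 := hcomm v₂
  have h3 := hcomm v₃
  rw [hv₂] at h2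
  rw [hv₃] at h3
  have h01 : A.1 0 1 = 0 := by
    have := congrFun (congrFun h2 0) 1
    simpa [Matrix.mul_apply, Fin.sum_univ_two] using this.symm
  have h10 : A.1 1 0 = 0 := by
    have := congrFun (congrFun h2 1) 0
    simpa [Matrix.mul_apply, Fin.sum_univ_two] using this
  have h00 : A.1 0 0 = A.1 1 1 := by
    have := congrFun (congrFun h3 0) 1
    simpa [Matrix.mul_apply, Fin.sum_univ_two] using this
  refine ⟨A.1 0 0, ?_, ?_⟩
  · ext i j : 1
    fin_cases i <;> fin_cases j <;> simp [Matrix.one_apply, h01, h10, h00]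
  · have hd := A.2
    rw [Matrix.det_fin_two, h01, h10, ← h00] at hd
    linear_combination hd

lemma ker_le_H : (phiH (a := a) (b := b)).ker ≤ Subgroup.center (Matrix.SpecialLinearGroup (Fin 2) (BinAlg F a b)) := by
  intro A hA
  obtain ⟨c, hc, -⟩ := ker_scalarH hA
  rw [Subgroup.mem_center_iff]
  intro g
  apply Subtype.ext
  change g.1 * A.1 = A.1 * g.1
  rw [hc]
  simp

lemma card_ker_H [Finite F] : Nat.card (phiH (a := a) (b := b)).ker ≤ Nat.card {x : BinAlg F a b // x * x = 1} := by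
  classical
  let f : (phiH (a := a) (b := b)).ker → {x : BinAlg F a b // x * x = 1} := fun A =>
    ⟨(ker_scalarH A.2).choose, (ker_scalarH A.2).choose_spec.2⟩
  apply Nat.card_le_card_of_injective f
  intro A B h
  apply Subtype.ext
  apply Subtype.ext
  rw [(ker_scalarH A.2).choose_spec.1, (ker_scalarH B.2).choose_spec.1]
  have h4 : (ker_scalarH A.2).choose = (ker_scalarH B.2).choose := congrArg Subtype.val h
  rw [h4]

/-- The exceptional isomorphism over the quadratic algebra. -/
theorem pomegaMinus_iso [Fintype F] (hab : ∀ z₁ z₂ : F, z₁ ^ 2 + a * z₁ * z₂ + b * z₂ ^ 2 = 0 → z₁ = 0 ∧ z₂ = 0) :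
    Nonempty (Cfsg.POmega F (⇑(Qminus 1 F a b)) ≃*
      Matrix.ProjectiveSpecialLinearGroup (Fin 2) (BinAlg F a b)) := by
  classical
  letI fL : Field (BinAlg F a b) := fieldBin hab
  letI tL : Fintype (BinAlg F a b) := fintypeBin
  set q := Fintype.card F with hq
  have hq2 : 2 ≤ q := Fintype.one_lt_card
  have hcL : Fintype.card (BinAlg F a b) = q ^ 2 := by
    rw [← Nat.card_eq_fintype_card, card_bin]
  have hL4 : 4 ≤ Fintype.card (BinAlg F a b) := by
    rw [hcL]
    nlinarith
  have hperf : commutator (Matrix.SpecialLinearGroup (Fin 2) (BinAlg F a b)) = ⊤ := sl2_perfect hL4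
  have hQ := Qminus_nondeg hab 1
  have hfr : Module.finrank F ((Fin 1 ⊕ Fin 1) ⊕ Fin 2 → F) = 4 := by simp
  have hSL : Nat.card (Matrix.SpecialLinearGroup (Fin 2) (BinAlg F a b)) = q ^ 2 * ((q ^ 2 - 1) * (q ^ 2 + 1)) := by
    have := card_SL2 (F := BinAlg F a b)
    rw [hcL] at this
    exact this
  have hO : Nat.card (OG (Qminus 1 F a b)) = 2 * (q ^ 2 * ((q ^ 2 - 1) * (q ^ 2 + 1))) := by
    change Nat.card (isoG (fun u _ : (Fin 1 ⊕ Fin 1) ⊕ Fin 2 → F => Qminus 1 F a b u)) = _
    rw [Qminus_order hab 1, ← hq]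
    simp only [Finset.prod_range_succ, Finset.prod_range_zero, one_mul]
    ring_nf
  have hposS : 0 < q ^ 2 * ((q ^ 2 - 1) * (q ^ 2 + 1)) := by
    have h1 : 1 < q ^ 2 := by nlinarith
    have : 0 < q ^ 2 - 1 := by omega
    positivity
  refine pomega_iso (Qminus 1 F a b) phiH (QuotientGroup.mk' _) (QuotientGroup.mk'_surjective _)
    (QuotientGroup.ker_mk' _) ?_ ?_ ker_le_H sl2_central
  · intro g
    have hg : g ∈ commutator (Matrix.SpecialLinearGroup (Fin 2) (BinAlg F a b)) := by
      rw [hperf]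
      trivial
    have hle : commutator (Matrix.SpecialLinearGroup (Fin 2) (BinAlg F a b)) ≤
        (commutator (OG (Qminus 1 F a b))).comap phiH := by
      rw [commutator_def, Subgroup.commutator_le]
      intro a _ b _
      rw [Subgroup.mem_comap, map_commutatorElement]
      exact Subgroup.commutator_mem_commutator trivial trivial
    exact hle hg
  · by_cases h2 : (2 : F) = 0
    · -- even characteristic: `φ` is injective with image of index two
      have h2L : (2 : BinAlg F a b) = 0 := by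
        rw [← one_add_one_eq_two]
        ext
        · change (1 : F) + 1 = 0
          rw [one_add_one_eq_two]
          exact h2
        · change (0 : F) + 0 = 0
          simp
      have hk : Nat.card (phiH (a := a) (b := b)).ker ≤ 1 := (card_ker_H).trans (card_sqrt_one_even h2L)
      have hk1 : Nat.card (phiH (a := a) (b := b)).ker = 1 := le_antisymm hk Nat.card_pos
      rw [hk1, mul_one]
      have hr := Subgroup.card_mul_index (phiH (a := a) (b := b)).ker
      rw [hk1, one_mul, Subgroup.index_ker, hSL] at hr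
      have hidx : (phiH (a := a) (b := b)).range.index = 2 := by
        have h3 := Subgroup.card_mul_index (phiH (a := a) (b := b)).range
        rw [hr, hO] at h3
        have : (q ^ 2 * ((q ^ 2 - 1) * (q ^ 2 + 1))) * (phiH (a := a) (b := b)).range.index =
            (q ^ 2 * ((q ^ 2 - 1) * (q ^ 2 + 1))) * 2 := by
          rw [h3]
          ring
        exact Nat.eq_of_mul_eq_mul_left hposS this
      have hle := commutator_le_of_index_two hidx
      rw [hSL, ← hr]
      exact Nat.card_le_card_of_injective _ (Subgroup.inclusion_injective hle)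
    · have h1 := Subgroup.card_mul_index (commutator (OG (Qminus 1 F a b)))
      rw [index_commutator h2 hQ (by omega), hO] at h1
      have h3 : Nat.card (phiH (a := a) (b := b)).ker ≤ 2 := (card_ker_H).trans card_sqrt_one_le
      rw [hSL]
      have h4 : Nat.card (commutator (OG (Qminus 1 F a b))) * 2 = q ^ 2 * ((q ^ 2 - 1) * (q ^ 2 + 1)) := by
        omega
      rw [← h4]
      exact Nat.mul_le_mul_left _ h3

end Cfsg.Agent.Lib.Classical.Exc
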