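/-
The exceptional isomorphism `PΩ₆⁻(q) ≅ PSU₄(q)`: a form of the Klein correspondence.
-/
import Mathlib
import Cfsg.Agent.Lib.Classical.ExcHodge
import Cfsg.Agent.Lib.Classical.ExcMinus

set_option autoImplicit false
set_option linter.unusedSectionVars false

namespace Cfsg.Agent.Lib.Classical.Exc

open Matrix Cfsg.Agent.Lib.Classical Cfsg.Agent.Lib.Classical.Orth Cfsg.Agent.Lib.Classical.Abs
open Cfsg.Agent.Lib.Classical.Bin Cfsg.Agent.Lib.Classical.Bin.BinAlg

variable {F : Type*} [Field F] {a b : F}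

@[simp] lemma conj_neg' (z : BinAlg F a b) : conj (-z) = - conj z := map_neg conjR z
@[simp] lemma conj_zero' : conj (0 : BinAlg F a b) = 0 := map_zero conjR
@[simp] lemma conj_one' : conj (1 : BinAlg F a b) = 1 := map_one conjR
@[simp] lemma conj_add' (z w : BinAlg F a b) : conj (z + w) = conj z + conj w := map_add conjR z w
@[simp] lemma conj_sub' (z w : BinAlg F a b) : conj (z - w) = conj z - conj w := map_sub conjR z w
@[simp] lemma conj_mul' (z w : BinAlg F a b) : conj (z * w) = conj z * conj w := map_mul conjR z w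
@[simp] lemma conj_iL (c : F) : conj (iL c : BinAlg F a b) = iL c := by
  ext <;> simp

/-- Elements fixed by conjugation are in the base field. -/
lemma fix_im [Finite F] (hab : ∀ z₁ z₂ : F, z₁ ^ 2 + a * z₁ * z₂ + b * z₂ ^ 2 = 0 → z₁ = 0 ∧ z₂ = 0)
    {z : BinAlg F a b} (h : conj z = z) : z.im = 0 := by
  by_contra hz
  have h1 : -z.im = z.im := congrArg BinAlg.im h
  have h3 : z.re + a * z.im = z.re := congrArg BinAlg.re h
  have ha : a = 0 := by
    have : a * z.im = 0 := by linear_combination h3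
    exact (mul_eq_zero.mp this).resolve_right hz
  have h2 : (2 : F) = 0 := by
    have : 2 * z.im = 0 := by linear_combination -h1
    exact (mul_eq_zero.mp this).resolve_right hz
  obtain ⟨t, ht⟩ := exists_sq_of_two_eq_zero h2 b
  have := (hab t 1 (by rw [ha, ← ht]; linear_combination (t * t) * h2)).2
  exact one_ne_zero this

lemma iL_re_of_fix [Finite F] (hab : ∀ z₁ z₂ : F, z₁ ^ 2 + a * z₁ * z₂ + b * z₂ ^ 2 = 0 → z₁ = 0 ∧ z₂ = 0)
    {z : BinAlg F a b} (h : conj z = z) : iL z.re = z := by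
  ext
  · simp
  · simp [fix_im hab h]

/-- The element `θ - conj θ`. -/
def eps (a b : F) : BinAlg F a b := ⟨-a, 2⟩

lemma conj_eps : conj (eps a b) = - eps a b := by
  ext <;> simp [eps] <;> ring

lemma eps_ne [Finite F] (hab : ∀ z₁ z₂ : F, z₁ ^ 2 + a * z₁ * z₂ + b * z₂ ^ 2 = 0 → z₁ = 0 ∧ z₂ = 0) :
    eps a b ≠ 0 := by
  intro h
  have h1 : a = 0 := by
    have := congrArg BinAlg.re h
    simpa [eps] using this
  have h2 : (2 : F) = 0 := congrArg BinAlg.im h
  obtain ⟨t, ht⟩ := exists_sq_of_two_eq_zero h2 b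
  have := (hab t 1 (by rw [h1, ← ht]; linear_combination (t * t) * h2)).2
  exact one_ne_zero this

/-- The swap matrix. -/
def GG (R : Type*) [CommRing R] : Matrix (Fin 4) (Fin 4) R :=
  !![0, 0, 0, 1; 0, 0, 1, 0; 0, 1, 0, 0; 1, 0, 0, 0]

lemma GG_mul_GG (R : Type*) [CommRing R] : GG R * GG R = 1 := by
  ext i j : 1
  fin_cases i <;> fin_cases j <;> simp [GG, Matrix.mul_apply, Fin.sum_univ_four]

lemma GG_transpose (R : Type*) [CommRing R] : (GG R)ᵀ = GG R := by
  ext i j : 1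
  fin_cases i <;> fin_cases j <;> simp [GG]

lemma map_GG : (GG (BinAlg F a b)).map conjR = GG (BinAlg F a b) := by
  ext i j : 1
  fin_cases i <;> fin_cases j <;> simp [GG]

lemma stM_GG : stM (GG (BinAlg F a b)) = GG (BinAlg F a b) := by
  unfold stM
  rw [map_GG, GG_transpose]

/-- The semilinear involution on alternating matrices. -/
def tauX (X : Matrix (Fin 4) (Fin 4) (BinAlg F a b)) : Matrix (Fin 4) (Fin 4) (BinAlg F a b) :=
  (GG (BinAlg F a b) * hodge X * GG (BinAlg F a b)).map conjR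

lemma tauX_altX (p01 p02 p03 p12 p13 p23 : BinAlg F a b) :
    tauX (altX p01 p02 p03 p12 p13 p23) =
      altX (-conj p01) (conj p02) (-conj p12) (-conj p03) (conj p13) (-conj p23) := by
  ext i j : 1
  fin_cases i <;> fin_cases j <;>
    simp [tauX, hodge, altX, GG, Matrix.mul_apply, Fin.sum_univ_four]

lemma map_stM {n : Type*} [Fintype n] (B : Matrix n n (BinAlg F a b)) : (stM B).map conjR = Bᵀ := by
  ext i j : 1
  simp [stM_apply, conj_conj]

lemma map_map_conj {n : Type*} [Fintype n] (B : Matrix n n (BinAlg F a b)) : (B.map conjR).map conjR = B := by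
  ext i j : 1
  simp [conj_conj]

/-- The involution commutes with the action of unitary matrices. -/
lemma tau_conj {B : Matrix (Fin 4) (Fin 4) (BinAlg F a b)} (hU : stM B * GG _ * B = GG _) (hd : B.det = 1)
    {X : Matrix (Fin 4) (Fin 4) (BinAlg F a b)} (hX : IsAlt X) :
    tauX (B * X * Bᵀ) = B * tauX X * Bᵀ := by
  have hk : Bᵀ * hodge (B * X * Bᵀ) * B = hodge X := by
    have := hodge_key B (X 0 1) (X 0 2) (X 0 3) (X 1 2) (X 1 3) (X 2 3)
    rw [altX_of_isAlt hX, hd, one_smul] at this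
    exact this
  set C : Matrix (Fin 4) (Fin 4) (BinAlg F a b) := GG _ * stM B * GG _ with hC
  have hC1 : C * B = 1 := by
    rw [hC, Matrix.mul_assoc, Matrix.mul_assoc, ← Matrix.mul_assoc (stM B), hU, GG_mul_GG]
  have hC2 : B * C = 1 := mul_eq_one_comm.mp hC1
  have hCt : Cᵀ = GG _ * B.map conjR * GG _ := by
    rw [hC, Matrix.transpose_mul, Matrix.transpose_mul, GG_transpose, stM, Matrix.transpose_transpose,
      Matrix.mul_assoc]
  have hD2 : Cᵀ * Bᵀ = 1 := by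
    rw [← Matrix.transpose_mul, hC2, Matrix.transpose_one]
  have hY : hodge (B * X * Bᵀ) = Cᵀ * hodge X * C := by
    rw [← hk]
    calc hodge (B * X * Bᵀ) = (Cᵀ * Bᵀ) * hodge (B * X * Bᵀ) * (B * C) := by
          rw [hD2, hC2, Matrix.one_mul, Matrix.mul_one]
      _ = _ := by simp only [Matrix.mul_assoc]
  have hG : GG (BinAlg F a b) * hodge (B * X * Bᵀ) * GG _ =
      B.map conjR * (GG _ * hodge X * GG _) * stM B := by
    rw [hY, hCt, hC]
    calc GG (BinAlg F a b) * (GG _ * B.map conjR * GG _ * hodge X * (GG _ * stM B * GG _)) * GG _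
        = (GG _ * GG _) * B.map conjR * (GG _ * hodge X * GG _) * stM B * (GG _ * GG _) := by
          simp only [Matrix.mul_assoc]
      _ = _ := by
          rw [GG_mul_GG, Matrix.one_mul, Matrix.mul_one]
  unfold tauX
  rw [hG, Matrix.map_mul, Matrix.map_mul, map_map_conj, map_stM]

variable (e e' : BinAlg F a b)

/-- The alternating matrix of a vector. -/
def Mv6 (v : (Fin 2 ⊕ Fin 2) ⊕ Fin 2 → F) : Matrix (Fin 4) (Fin 4) (BinAlg F a b) :=
  altX (e * iL (v (.inl (.inl 1)))) (iL (v (.inl (.inl 0)))) ⟨v (.inr 0), v (.inr 1)⟩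
    (-conj ⟨v (.inr 0), v (.inr 1)⟩) (iL (v (.inl (.inr 0)))) (-(e' * iL (v (.inl (.inr 1)))))

/-- The coordinates of an alternating matrix. -/
def co6 (X : Matrix (Fin 4) (Fin 4) (BinAlg F a b)) : (Fin 2 ⊕ Fin 2) ⊕ Fin 2 → F :=
  Sum.elim (Sum.elim ![(X 0 2).re, (e' * X 0 1).re] ![(X 1 3).re, -(e * X 2 3).re]) ![(X 0 3).re, (X 0 3).im]

variable {e e'}

lemma mul_iL_re (z : BinAlg F a b) (c : F) : (z * iL c).re = z.re * c := by
  simp

lemma co6_Mv6 (he : e * e' = 1) (v : (Fin 2 ⊕ Fin 2) ⊕ Fin 2 → F) : co6 e e' (Mv6 e e' v) = v := by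
  have h1 : ∀ c : F, (e' * (e * iL c)).re = c := by
    intro c
    rw [← mul_assoc, mul_comm e', he, one_mul]
    rfl
  have h2 : ∀ c : F, -(e * -(e' * iL c)).re = c := by
    intro c
    rw [mul_neg, ← mul_assoc, he, one_mul, neg_re, neg_neg]
    rfl
  funext i
  rcases i with (i | i) | i
  · fin_cases i
    · simp [co6, Mv6, altX]
    · change (e' * (e * iL (v (.inl (.inl 1))))).re = v (.inl (.inl 1))
      exact h1 _
  · fin_cases i
    · simp [co6, Mv6, altX]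
    · change -(e * -(e' * iL (v (.inl (.inr 1))))).re = v (.inl (.inr 1))
      exact h2 _
  · fin_cases i <;> simp [co6, Mv6, altX]

lemma Mv6_injective (he : e * e' = 1) : Function.Injective (Mv6 e e' : _ → Matrix (Fin 4) (Fin 4) (BinAlg F a b)) := by
  intro u v h
  rw [← co6_Mv6 he u, h, co6_Mv6 he]

lemma conj_inv (he : e * e' = 1) (hc : conj e = -e) : conj e' = -e' := by
  have h1 : conj e * conj e' = 1 := by
    rw [← conj_mul', he, conj_one']
  rw [hc] at h1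
  linear_combination (-e') * h1 - conj e' * he

lemma Mv6_co6 [Finite F] (hab : ∀ z₁ z₂ : F, z₁ ^ 2 + a * z₁ * z₂ + b * z₂ ^ 2 = 0 → z₁ = 0 ∧ z₂ = 0)
    (he : e * e' = 1) (hc : conj e = -e) {X : Matrix (Fin 4) (Fin 4) (BinAlg F a b)} (hX : IsAlt X)
    (hτ : tauX X = X) : Mv6 e e' (co6 e e' X) = X := by
  have hc' := conj_inv he hc
  rw [← altX_of_isAlt hX] at hτ ⊢
  generalize X 0 1 = p01 at hτ ⊢
  generalize X 0 2 = p02 at hτ ⊢
  generalize X 0 3 = p03 at hτ ⊢
  generalize X 1 2 = p12 at hτ ⊢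
  generalize X 1 3 = p13 at hτ ⊢
  generalize X 2 3 = p23 at hτ ⊢
  rw [tauX_altX] at hτ
  have h01 : -conj p01 = p01 := by
    simpa [altX] using congrFun (congrFun hτ 0) 1
  have h02 : conj p02 = p02 := by
    simpa [altX] using congrFun (congrFun hτ 0) 2
  have h03 : -conj p12 = p03 := by
    simpa [altX] using congrFun (congrFun hτ 0) 3
  have h12 : -conj p03 = p12 := by
    simpa [altX] using congrFun (congrFun hτ 1) 2
  have h13 : conj p13 = p13 := by
    simpa [altX] using congrFun (congrFun hτ 1) 3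
  have h23 : -conj p23 = p23 := by
    simpa [altX] using congrFun (congrFun hτ 2) 3
  have h01' : conj p01 = -p01 := neg_eq_iff_eq_neg.mp h01
  have h23' : conj p23 = -p23 := neg_eq_iff_eq_neg.mp h23
  have e1 : e * iL (e' * p01).re = p01 := by
    rw [iL_re_of_fix hab (by rw [conj_mul', hc', h01']; ring), ← mul_assoc, he, one_mul]
  have e2 : iL p02.re = p02 := iL_re_of_fix hab h02
  have e5 : iL p13.re = p13 := iL_re_of_fix hab h13
  have e6 : -(e' * iL (-(e * p23).re)) = p23 := by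
    have h5 : iL (e * p23).re = e * p23 := iL_re_of_fix hab (by rw [conj_mul', hc, h23']; ring)
    have h6 : (iL (-(e * p23).re) : BinAlg F a b) = - iL (e * p23).re := by
      ext <;> simp
    rw [h6, h5]
    linear_combination p23 * he
  unfold Mv6 co6
  simp only [Sum.elim_inl, Sum.elim_inr, Matrix.cons_val_zero, Matrix.cons_val_one, Matrix.head_cons]
  have e3 : (⟨(altX p01 p02 p03 p12 p13 p23 0 3).re, (altX p01 p02 p03 p12 p13 p23 0 3).im⟩ : BinAlg F a b) = p03 := by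
    ext <;> simp [altX]
  rw [e3]
  have e01 : altX p01 p02 p03 p12 p13 p23 0 1 = p01 := by simp [altX]
  have e02 : altX p01 p02 p03 p12 p13 p23 0 2 = p02 := by simp [altX]
  have e13 : altX p01 p02 p03 p12 p13 p23 1 3 = p13 := by simp [altX]
  have e23 : altX p01 p02 p03 p12 p13 p23 2 3 = p23 := by simp [altX]
  rw [e01, e02, e13, e23, e1, e2, e5, e6, h12]

lemma tau_Mv6 (he : e * e' = 1) (hc : conj e = -e) (v : (Fin 2 ⊕ Fin 2) ⊕ Fin 2 → F) :
    tauX (Mv6 e e' v) = Mv6 e e' v := by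
  have hc' := conj_inv he hc
  unfold Mv6
  rw [tauX_altX]
  simp [hc, hc', conj_conj]

lemma pf_Mv6 (he : e * e' = 1) (v : (Fin 2 ⊕ Fin 2) ⊕ Fin 2 → F) :
    pf (Mv6 e e' v) = - iL (Qminus 2 F a b v) := by
  rw [Qminus_apply, Cfsg.quadFormMinus, Fin.sum_univ_two]
  have h1 : ∀ x y : F, (e * iL x) * (e' * iL y) = iL (x * y) := by
    intro x y
    have h2 : (iL (x * y) : BinAlg F a b) = iL x * iL y := by
      ext <;> simp
    rw [h2]
    linear_combination (iL x * iL y) * he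
  simp only [pf, Mv6, altX]
  simp only [of_apply, cons_val', cons_val_zero, cons_val_one, cons_val]
  simp
  rw [h1]
  ext
  · simp
    ring
  · simp
    ring

lemma Mv6_add (u v : (Fin 2 ⊕ Fin 2) ⊕ Fin 2 → F) :
    Mv6 e e' (u + v) = Mv6 e e' u + Mv6 e e' v := by
  ext i j : 1
  fin_cases i <;> fin_cases j <;> simp [Mv6, altX] <;> ext <;> simp <;> ring

lemma Mv6_smul (c : F) (v : (Fin 2 ⊕ Fin 2) ⊕ Fin 2 → F) :
    Mv6 e e' (c • v) = (iL c : BinAlg F a b) • Mv6 e e' v := by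
  ext i j : 1
  fin_cases i <;> fin_cases j <;> simp [Mv6, altX] <;> ext <;> simp <;> ring

/-- The action on vectors. -/
def rhoB (e e' : BinAlg F a b) (B : Matrix (Fin 4) (Fin 4) (BinAlg F a b)) (v : (Fin 2 ⊕ Fin 2) ⊕ Fin 2 → F) :
    (Fin 2 ⊕ Fin 2) ⊕ Fin 2 → F := co6 e e' (B * Mv6 e e' v * Bᵀ)

section
variable [Finite F] (hab : ∀ z₁ z₂ : F, z₁ ^ 2 + a * z₁ * z₂ + b * z₂ ^ 2 = 0 → z₁ = 0 ∧ z₂ = 0)
  (he : e * e' = 1) (hc : conj e = -e)
include hab he hc

lemma Mv6_rhoB {B : Matrix (Fin 4) (Fin 4) (BinAlg F a b)} (hU : stM B * GG _ * B = GG _) (hd : B.det = 1)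
    (v : (Fin 2 ⊕ Fin 2) ⊕ Fin 2 → F) : Mv6 e e' (rhoB e e' B v) = B * Mv6 e e' v * Bᵀ := by
  have hX : IsAlt (Mv6 e e' v) := isAlt_altX _ _ _ _ _ _
  refine Mv6_co6 hab he hc (isAlt_conj B hX) ?_
  rw [tau_conj hU hd hX, tau_Mv6 he hc]

lemma rhoB_mul {B C : Matrix (Fin 4) (Fin 4) (BinAlg F a b)} (hU : stM C * GG _ * C = GG _) (hd : C.det = 1)
    (v : (Fin 2 ⊕ Fin 2) ⊕ Fin 2 → F) : rhoB e e' (B * C) v = rhoB e e' B (rhoB e e' C v) := by
  unfold rhoB
  rw [show co6 e e' (C * Mv6 e e' v * Cᵀ) = rhoB e e' C v from rfl, Mv6_rhoB hab he hc hU hd, Matrix.transpose_mul]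
  simp only [Matrix.mul_assoc]

omit hab hc in
lemma rhoB_one (v : (Fin 2 ⊕ Fin 2) ⊕ Fin 2 → F) : rhoB e e' 1 v = v := by
  unfold rhoB
  rw [Matrix.one_mul, Matrix.transpose_one, Matrix.mul_one, co6_Mv6 he]

lemma rhoB_Q {B : Matrix (Fin 4) (Fin 4) (BinAlg F a b)} (hU : stM B * GG _ * B = GG _) (hd : B.det = 1)
    (v : (Fin 2 ⊕ Fin 2) ⊕ Fin 2 → F) : Qminus 2 F a b (rhoB e e' B v) = Qminus 2 F a b v := by
  have h1 := pf_Mv6 he (rhoB e e' B v)
  rw [Mv6_rhoB hab he hc hU hd] at h1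
  have h2 : pf (B * Mv6 e e' v * Bᵀ) = pf (Mv6 e e' v) := by
    unfold Mv6
    rw [pf_conj, hd, one_mul]
  rw [h2, pf_Mv6 he, neg_inj] at h1
  exact (iL_injective h1).symm

/-- The action as a linear map. -/
def rhoBL {B : Matrix (Fin 4) (Fin 4) (BinAlg F a b)} (hU : stM B * GG _ * B = GG _) (hd : B.det = 1) :
    ((Fin 2 ⊕ Fin 2) ⊕ Fin 2 → F) →ₗ[F] ((Fin 2 ⊕ Fin 2) ⊕ Fin 2 → F) where
  toFun := rhoB e e' B
  map_add' u v := by
    apply Mv6_injective he
    rw [Mv6_add, Mv6_rhoB hab he hc hU hd, Mv6_rhoB hab he hc hU hd, Mv6_rhoB hab he hc hU hd, Mv6_add,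
      Matrix.mul_add, Matrix.add_mul]
  map_smul' c v := by
    apply Mv6_injective he
    rw [RingHom.id_apply, Mv6_smul, Mv6_rhoB hab he hc hU hd, Mv6_rhoB hab he hc hU hd, Mv6_smul,
      Matrix.mul_smul, Matrix.smul_mul]

variable {H : Type*} [Group H] (β : H →* Matrix (Fin 4) (Fin 4) (BinAlg F a b))
  (hU : ∀ g, stM (β g) * GG _ * β g = GG _) (hd : ∀ g, (β g).det = 1)

/-- The homomorphism to the orthogonal group. -/
noncomputable def phi6 : H →* OG (Qminus 2 F a b) where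
  toFun g := ⟨{ toLinearMap := rhoBL hab he hc (hU g) (hd g)
                invFun := rhoB e e' (β g⁻¹)
                left_inv := fun w => by
                  change rhoB e e' (β g⁻¹) (rhoB e e' (β g) w) = w
                  rw [← rhoB_mul hab he hc (hU g) (hd g), ← map_mul, inv_mul_cancel, map_one, rhoB_one he]
                right_inv := fun w => by
                  change rhoB e e' (β g) (rhoB e e' (β g⁻¹) w) = w
                  rw [← rhoB_mul hab he hc (hU g⁻¹) (hd g⁻¹), ← map_mul, mul_inv_cancel, map_one, rhoB_one he] },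
    fun u _ => rhoB_Q hab he hc (hU g) (hd g) u⟩
  map_one' := by
    apply OG_ext
    intro w
    change rhoB e e' (β 1) w = w
    rw [map_one, rhoB_one he]
  map_mul' g k := by
    apply OG_ext
    intro w
    change rhoB e e' (β (g * k)) w = rhoB e e' (β g) (rhoB e e' (β k) w)
    rw [map_mul, rhoB_mul hab he hc (hU k) (hd k)]

lemma phi6_apply (g : H) (w : (Fin 2 ⊕ Fin 2) ⊕ Fin 2 → F) :
    (phi6 hab he hc β hU hd g).1 w = rhoB e e' (β g) w := rfl

lemma phi6_fix {g : H} (hg : g ∈ (phi6 hab he hc β hU hd).ker) (v : (Fin 2 ⊕ Fin 2) ⊕ Fin 2 → F) :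
    β g * Mv6 e e' v * (β g)ᵀ = Mv6 e e' v := by
  rw [MonoidHom.mem_ker] at hg
  rw [← Mv6_rhoB hab he hc (hU g) (hd g), ← phi6_apply hab he hc β hU hd, hg]
  rfl

end

lemma altX_smul {R : Type*} [CommRing R] (c p01 p02 p03 p12 p13 p23 : R) :
    c • altX p01 p02 p03 p12 p13 p23 = altX (c * p01) (c * p02) (c * p03) (c * p12) (c * p13) (c * p23) := by
  ext i j : 1
  fin_cases i <;> fin_cases j <;> simp [altX]

lemma altX_add {R : Type*} [CommRing R] (p01 p02 p03 p12 p13 p23 q01 q02 q03 q12 q13 q23 : R) :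
    altX p01 p02 p03 p12 p13 p23 + altX q01 q02 q03 q12 q13 q23 =
      altX (p01 + q01) (p02 + q02) (p03 + q03) (p12 + q12) (p13 + q13) (p23 + q23) := by
  ext i j : 1
  fin_cases i <;> fin_cases j <;> simp [altX] <;> ring

/-- All alternating matrices are fixed when the real form is. -/
lemma fix_all {e' : BinAlg F a b} (he : eps a b * e' = 1) {B : Matrix (Fin 4) (Fin 4) (BinAlg F a b)}
    (h : ∀ v, B * Mv6 (eps a b) e' v * Bᵀ = Mv6 (eps a b) e' v) (p01 p02 p03 p12 p13 p23 : BinAlg F a b) :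
    B * altX p01 p02 p03 p12 p13 p23 * Bᵀ = altX p01 p02 p03 p12 p13 p23 := by
  have hadd : ∀ {X Y : Matrix (Fin 4) (Fin 4) (BinAlg F a b)}, B * X * Bᵀ = X → B * Y * Bᵀ = Y → B * (X + Y) * Bᵀ = X + Y := by
    intro X Y hX hY
    rw [Matrix.mul_add, Matrix.add_mul, hX, hY]
  have hsmul : ∀ (c : BinAlg F a b) {X : Matrix (Fin 4) (Fin 4) (BinAlg F a b)}, B * X * Bᵀ = X → B * (c • X) * Bᵀ = c • X := by
    intro c X hX
    rw [Matrix.mul_smul, Matrix.smul_mul, hX]
  have hM : ∀ x0 x1 y0 y1 w0 w1 : F, B * altX (eps a b * iL x1) (iL x0) ⟨w0, w1⟩ (-conj ⟨w0, w1⟩) (iL y0) (-(e' * iL y1)) * Bᵀ =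
      altX (eps a b * iL x1) (iL x0) ⟨w0, w1⟩ (-conj ⟨w0, w1⟩) (iL y0) (-(e' * iL y1)) := by
    intro x0 x1 y0 y1 w0 w1
    exact h (Sum.elim (Sum.elim ![x0, x1] ![y0, y1]) ![w0, w1])
  have iL0 : (iL 0 : BinAlg F a b) = 0 := rfl
  have iL1 : (iL 1 : BinAlg F a b) = 1 := rfl
  have m00 : (⟨0, 0⟩ : BinAlg F a b) = 0 := rfl
  have m10 : (⟨1, 0⟩ : BinAlg F a b) = 1 := rfl
  have he' : e' * eps a b = 1 := by rw [mul_comm]; exact he
  have hE01 : B * altX 1 0 0 0 0 0 * Bᵀ = altX 1 0 0 0 0 0 := by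
    have h1 := hsmul e' (hM 0 1 0 0 0 0)
    simp only [iL0, iL1, m00, conj_zero', neg_zero, mul_zero, mul_one, altX_smul, he'] at h1
    exact h1
  have hE02 : B * altX 0 1 0 0 0 0 * Bᵀ = altX 0 1 0 0 0 0 := by
    have h1 := hM 1 0 0 0 0 0
    simp only [iL0, iL1, m00, conj_zero', neg_zero, mul_zero, mul_one] at h1
    exact h1
  have hE13 : B * altX 0 0 0 0 1 0 * Bᵀ = altX 0 0 0 0 1 0 := by
    have h1 := hM 0 0 1 0 0 0
    simp only [iL0, iL1, m00, conj_zero', neg_zero, mul_zero, mul_one] at h1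
    exact h1
  have hE23 : B * altX 0 0 0 0 0 1 * Bᵀ = altX 0 0 0 0 0 1 := by
    have h1 := hsmul (-eps a b) (hM 0 0 0 1 0 0)
    simp only [iL0, iL1, m00, conj_zero', neg_zero, mul_zero, mul_one, altX_smul, neg_mul_neg, he] at h1
    exact h1
  have hW1 : B * altX 0 0 1 (-1) 0 0 * Bᵀ = altX 0 0 1 (-1) 0 0 := by
    have h1 := hM 0 0 0 0 1 0
    simp only [iL0, m10, conj_one', neg_zero, mul_zero] at h1
    exact h1
  have hW2 : B * altX 0 0 ⟨0, 1⟩ (-conj ⟨0, 1⟩) 0 0 * Bᵀ = altX 0 0 ⟨0, 1⟩ (-conj ⟨0, 1⟩) 0 0 := by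
    have h1 := hM 0 0 0 0 0 1
    simp only [iL0, neg_zero, mul_zero] at h1
    exact h1
  have hE12 : B * altX 0 0 0 1 0 0 * Bᵀ = altX 0 0 0 1 0 0 := by
    have h1 := hsmul (-e') (hadd (hsmul ⟨0, 1⟩ hW1) (hsmul (-1) hW2))
    simp only [altX_smul, altX_add] at h1
    have h2 : altX (-e' * ((⟨0, 1⟩ : BinAlg F a b) * 0 + -1 * 0)) (-e' * ((⟨0, 1⟩ : BinAlg F a b) * 0 + -1 * 0))
        (-e' * ((⟨0, 1⟩ : BinAlg F a b) * 1 + -1 * ⟨0, 1⟩)) (-e' * ((⟨0, 1⟩ : BinAlg F a b) * -1 + -1 * -conj ⟨0, 1⟩))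
        (-e' * ((⟨0, 1⟩ : BinAlg F a b) * 0 + -1 * 0)) (-e' * ((⟨0, 1⟩ : BinAlg F a b) * 0 + -1 * 0)) =
        altX 0 0 0 1 0 0 := by
      have h3 : (⟨0, 1⟩ : BinAlg F a b) - conj ⟨0, 1⟩ = eps a b := by
        ext
        · simp [eps]
        · simp [eps]
          norm_num
      have h4 : -e' * ((⟨0, 1⟩ : BinAlg F a b) * -1 + -1 * -conj ⟨0, 1⟩) = 1 := by
        linear_combination he' + e' * h3
      rw [h4]
      simp
    rwa [h2] at h1
  have hE03 : B * altX 0 0 1 0 0 0 * Bᵀ = altX 0 0 1 0 0 0 := by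
    have h1 := hadd hW1 hE12
    simp only [altX_add, add_zero, neg_add_cancel] at h1
    exact h1
  have hall := hadd (hadd (hadd (hadd (hadd (hsmul p01 hE01) (hsmul p02 hE02)) (hsmul p03 hE03)) (hsmul p12 hE12))
    (hsmul p13 hE13)) (hsmul p23 hE23)
  simp only [altX_smul, altX_add, mul_one, mul_zero, add_zero, zero_add] at hall
  exact hall

end Cfsg.Agent.Lib.Classical.Exc
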