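/-
The exceptional isomorphism `PΩ₆⁻(q) ≅ PSU₄(q)`: assembly.
-/
import Mathlib
import Cfsg.Agent.Lib.Classical.ExcMinus2
import Cfsg.Agent.Lib.Classical.OrthDickson
import Cfsg.Agent.Lib.Classical.UTSimple2
import Cfsg.Agent.Lib.Classical.UnitaryDet
import Cfsg.Agent.S0278
import Cfsg.Agent.Lib.Classical.RingCongr3

set_option autoImplicit false
set_option linter.unusedSectionVars false

namespace Cfsg.Agent.Lib.Classical.Exc

open Matrix Cfsg.Agent.Lib.Classical Cfsg.Agent.Lib.Classical.Orth Cfsg.Agent.Lib.Classical.Abs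
open Cfsg.Agent.Lib.Classical.Bin Cfsg.Agent.Lib.Classical.Bin.BinAlg
open scoped commutatorElement

/-- Perfectness transfers along isomorphisms. -/
lemma perfect_of_equiv {G H : Type*} [Group G] [Group H] (e : G ≃* H) (h : commutator H = ⊤) :
    commutator G = ⊤ := by
  rw [eq_top_iff]
  intro g _
  have hg : e g ∈ commutator H := by
    rw [h]
    trivial
  have hle : commutator H ≤ (commutator G).comap e.symm.toMonoidHom := by
    rw [commutator_def, Subgroup.commutator_le]
    intro a _ b _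
    rw [Subgroup.mem_comap, map_commutatorElement]
    exact Subgroup.commutator_mem_commutator trivial trivial
  have := hle hg
  simpa using this

/-- `SU_n(q)` is perfect for `n ≥ 4`. -/
theorem su_perfect {K : Type*} [Field K] [Fintype K] {q : ℕ} (hF : Fintype.card K = q ^ 2) (n : ℕ) (hn : 4 ≤ n) :
    commutator (Cfsg.SU n K q) = ⊤ := by
  have hfr : Module.finrank K (Fin n → K) = n := by simp
  have hcase' : Module.finrank K (Fin n → K) ≠ 3 ∨ q ≠ 2 := by
    left
    omega
  have hS := hermB_symm hF n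
  have hB := hermB_nondeg hF n
  have hperf := UT.TG_perfect hS hB (by omega) hcase'
  let f : Cfsg.SU n K q →* UT.TG (hermB hF n) :=
    { toFun := fun g => ⟨UT.fromSU n K q g, (UT.mem_TG_iff hS hB hcase' _).mpr ⟨UT.fromSU_iso hF g, UT.fromSU_det g⟩⟩
      map_one' := Subtype.ext (map_one _)
      map_mul' := fun a b => Subtype.ext (map_mul _ a b) }
  have hf : Function.Bijective f := by
    constructor
    · intro a b hab
      exact UT.fromSU_injective (congrArg Subtype.val hab)
    · rintro ⟨t, ht⟩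
      obtain ⟨A, hA⟩ := UT.exists_fromSU hF t (UT.TG_iso hS ht) (UT.TG_det ht)
      exact ⟨A, Subtype.ext hA⟩
  exact perfect_of_equiv (MulEquiv.ofBijective f hf) hperf

variable {F : Type*} [Field F] {a b : F}

/-- Conjugation is the Frobenius map. -/
lemma conj_eq_pow [Fintype F] (hab : ∀ z₁ z₂ : F, z₁ ^ 2 + a * z₁ * z₂ + b * z₂ ^ 2 = 0 → z₁ = 0 ∧ z₂ = 0)
    {q : ℕ} (hq : Fintype.card F = q) (z : BinAlg F a b) : z ^ q = conj z := by
  letI fL : Field (BinAlg F a b) := fieldBin hab
  letI tL : Fintype (BinAlg F a b) := fintypeBin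
  have hcL : Fintype.card (BinAlg F a b) = q ^ 2 := by
    rw [← Nat.card_eq_fintype_card, card_bin, hq]
  let iH : F →+* BinAlg F a b :=
    { toFun := iL
      map_one' := rfl
      map_zero' := rfl
      map_mul' := fun x y => by ext <;> simp
      map_add' := fun x y => by ext <;> simp }
  have hσι : ∀ c : F, (iL c : BinAlg F a b) ^ q = iL c := by
    intro c
    have h1 : iH c ^ q = iH (c ^ q) := (map_pow iH c q).symm
    rw [← hq, FiniteField.pow_card] at h1
    rw [← hq]
    exact h1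
  let θ : BinAlg F a b := ⟨0, 1⟩
  have hz : ∀ z : BinAlg F a b, z = iL z.re + iL z.im * θ := by
    intro z
    ext <;> simp [θ]
  have hθ2 : θ * θ = iL a * θ - iL b := by
    ext <;> simp [θ]
  let σ := conjQ hcL
  have hσ : ∀ x, σ x = x ^ q := fun x => rfl
  have hσz : ∀ z : BinAlg F a b, σ z = iL z.re + iL z.im * σ θ := by
    intro z
    conv_lhs => rw [hz z]
    rw [map_add, map_mul, hσ, hσ, hσι, hσι]
  have hroot : (σ θ - θ) * (σ θ + θ - iL a) = 0 := by
    have h1 : σ θ * σ θ = iL a * σ θ - iL b := by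
      have := congrArg σ hθ2
      rw [map_mul, map_sub, map_mul, hσ (iL a), hσ (iL b), hσι, hσι] at this
      exact this
    linear_combination h1 - hθ2
  have hne : σ θ ≠ θ := by
    intro h
    apply conjQ_ne_id hcL
    ext1 x
    change σ x = x
    rw [hσz, h, ← hz]
  have h3 : σ θ = iL a - θ := by
    rcases mul_eq_zero.mp hroot with h | h
    · exact absurd (sub_eq_zero.mp h) hne
    · linear_combination h
  rw [← hσ, hσz, h3]
  ext <;> simp [θ] <;> ring

/-- The change of basis to a hyperbolic basis. -/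
def PP (c l : BinAlg F a b) : Matrix (Fin 4) (Fin 4) (BinAlg F a b) :=
  !![1, 0, 0, l; 0, 1, l, 0; 0, c, c * (l - 1), 0; c, 0, 0, c * (l - 1)]

lemma stM_PP {c l : BinAlg F a b} (hc : conj c * c = -1) (hl : l + conj l = 1) :
    stM (PP c l) * PP c l = GG _ := by
  ext i j : 1
  fin_cases i <;> fin_cases j <;>
    simp [stM_apply, PP, GG, Matrix.mul_apply, Fin.sum_univ_four] <;>
    first
      | linear_combination hc
      | linear_combination (l - 1) * hc
      | linear_combination (conj l - 1) * hc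
      | linear_combination (conj l - 1) * (l - 1) * hc + hl
      | skip

lemma stM_su [Fintype F] (hab : ∀ z₁ z₂ : F, z₁ ^ 2 + a * z₁ * z₂ + b * z₂ ^ 2 = 0 → z₁ = 0 ∧ z₂ = 0)
    {q : ℕ} (hq : Fintype.card F = q) (A : Matrix (Fin 4) (Fin 4) (BinAlg F a b))
    (hA : ∀ u v, @Cfsg.hermForm 4 (BinAlg F a b) (fieldBin hab) q (A *ᵥ u) (A *ᵥ v) =
      @Cfsg.hermForm 4 (BinAlg F a b) (fieldBin hab) q u v) : stM A * A = 1 := by
  letI fL : Field (BinAlg F a b) := fieldBin hab
  letI tL : Fintype (BinAlg F a b) := fintypeBin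
  have hcL : Fintype.card (BinAlg F a b) = q ^ 2 := by
    rw [← Nat.card_eq_fintype_card, card_bin, hq]
  have h1 := transpose_mul_conj hcL A hA
  have h2 : (conjQ hcL).mapMatrix A = A.map conjR := by
    ext i j : 1
    simp only [RingHom.mapMatrix_apply, Matrix.map_apply, conjQ_apply]
    rw [conj_eq_pow hab hq]
    rfl
  rw [h2] at h1
  have h3 := congrArg Matrix.transpose h1
  rw [Matrix.transpose_mul, Matrix.transpose_transpose, Matrix.transpose_one] at h3
  exact h3

lemma exists_cl [Fintype F] (hab : ∀ z₁ z₂ : F, z₁ ^ 2 + a * z₁ * z₂ + b * z₂ ^ 2 = 0 → z₁ = 0 ∧ z₂ = 0)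
    {q : ℕ} (hq : Fintype.card F = q) : ∃ c l : BinAlg F a b, conj c * c = -1 ∧ l + conj l = 1 := by
  letI fL : Field (BinAlg F a b) := fieldBin hab
  letI tL : Fintype (BinAlg F a b) := fintypeBin
  have hcL : Fintype.card (BinAlg F a b) = q ^ 2 := by
    rw [← Nat.card_eq_fintype_card, card_bin, hq]
  obtain ⟨c, hc⟩ := UT.exists_norm (hF := hcL) (ν := -1) (by
    have := map_neg (conjQ hcL) 1
    rw [map_one] at this
    exact this)
  obtain ⟨l, hl⟩ := UT.exists_trace_one (hF := hcL)
  refine ⟨c, l, ?_, ?_⟩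
  · rw [← conj_eq_pow hab hq]
    exact hc
  · rw [← conj_eq_pow hab hq]
    exact hl

/-- The exceptional isomorphism over the quadratic algebra. -/
theorem pomegaMinus6_iso [Fintype F] (hab : ∀ z₁ z₂ : F, z₁ ^ 2 + a * z₁ * z₂ + b * z₂ ^ 2 = 0 → z₁ = 0 ∧ z₂ = 0)
    {q : ℕ} (hq : Fintype.card F = q) :
    Nonempty (Cfsg.POmega F (⇑(Qminus 2 F a b)) ≃* @Cfsg.PSU 4 (BinAlg F a b) (fieldBin hab) q) := by
  classical
  letI fL : Field (BinAlg F a b) := fieldBin hab
  letI tL : Fintype (BinAlg F a b) := fintypeBin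
  have hcL : Fintype.card (BinAlg F a b) = q ^ 2 := by
    rw [← Nat.card_eq_fintype_card, card_bin, hq]
  have hperf : commutator (Cfsg.SU 4 (BinAlg F a b) q) = ⊤ := su_perfect hcL 4 le_rfl
  obtain ⟨c, l, hc, hl⟩ := exists_cl hab hq
  set P := PP c l with hP
  have hPP : stM P * P = GG _ := stM_PP hc hl
  let Pi : Matrix (Fin 4) (Fin 4) (BinAlg F a b) := GG _ * stM P
  have hPi1 : Pi * P = 1 := by
    change GG _ * stM P * P = 1
    rw [Matrix.mul_assoc, hPP, GG_mul_GG]
  have hPi2 : P * Pi = 1 := mul_eq_one_comm.mp hPi1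
  have hSU : ∀ A : Cfsg.SU 4 (BinAlg F a b) q, stM A.1.1 * A.1.1 = 1 := fun A => stM_su hab hq A.1.1 A.2
  let β : Cfsg.SU 4 (BinAlg F a b) q →* Matrix (Fin 4) (Fin 4) (BinAlg F a b) :=
    { toFun := fun A => Pi * A.1.1 * P
      map_one' := by
        change Pi * 1 * P = 1
        rw [Matrix.mul_one, hPi1]
      map_mul' := fun A C => by
        change Pi * (A.1.1 * C.1.1) * P = Pi * A.1.1 * P * (Pi * C.1.1 * P)
        calc Pi * (A.1.1 * C.1.1) * P = Pi * A.1.1 * 1 * C.1.1 * P := by
              simp only [Matrix.mul_assoc, Matrix.one_mul]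
          _ = Pi * A.1.1 * (P * Pi) * C.1.1 * P := by rw [hPi2]
          _ = _ := by simp only [Matrix.mul_assoc] }
  have hβ : ∀ A, β A = Pi * A.1.1 * P := fun _ => rfl
  have hstPi : stM Pi = P * GG _ := by
    change stM (GG _ * stM P) = _
    rw [stM_mul, stM_stM, stM_GG]
  have hU : ∀ g, stM (β g) * GG _ * β g = GG _ := by
    intro g
    rw [hβ, stM_mul, stM_mul, hstPi]
    calc stM P * (stM g.1.1 * (P * GG _)) * GG _ * (Pi * g.1.1 * P)
        = stM P * stM g.1.1 * P * (GG _ * GG _) * Pi * g.1.1 * P := by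
          simp only [Matrix.mul_assoc]
      _ = stM P * (stM g.1.1 * ((P * Pi) * g.1.1)) * P := by
          rw [GG_mul_GG]
          simp only [Matrix.mul_assoc, Matrix.mul_one]
      _ = _ := by
          rw [hPi2, Matrix.one_mul, hSU, Matrix.mul_one, hPP]
  have hd : ∀ g, (β g).det = 1 := by
    intro g
    rw [hβ, Matrix.det_mul, Matrix.det_mul, g.1.2, mul_one, ← Matrix.det_mul, hPi1, Matrix.det_one]
  obtain ⟨e', he⟩ : ∃ e', eps a b * e' = 1 := ⟨(eps a b)⁻¹, mul_inv_cancel₀ (eps_ne hab)⟩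
  let φ := phi6 hab he conj_eps β hU hd
  have hker : ∀ g ∈ φ.ker, ∃ c : BinAlg F a b, g.1.1 = c • 1 ∧ c * c = 1 := by
    intro g hg
    have hfix := fix_all he (B := β g) (phi6_fix hab he conj_eps β hU hd hg)
    have hwedge : ∀ X : Matrix (Fin 4) (Fin 4) (BinAlg F a b), IsAlt X → β g * X * (β g)ᵀ = X := by
      intro X hX
      rw [← altX_of_isAlt hX]
      exact hfix _ _ _ _ _ _
    obtain ⟨c, hc1, hc2⟩ : ∃ c : BinAlg F a b, β g = c • 1 ∧ c * c = 1 := by
      apply scalar_of_wedge_fix (by simp) (β g)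
      intro i j hij k l
      have := hwedge (wedge _ i j) ⟨fun a => wedge_diag i j a, fun a b => wedge_anti i j a b⟩
      have h5 := congrFun (congrFun this k) l
      rw [entry_wedge, wedge_entry] at h5
      exact h5
    refine ⟨c, ?_, hc2⟩
    have h1 : g.1.1 = P * β g * Pi := by
      rw [hβ]
      calc g.1.1 = (P * Pi) * g.1.1 * (P * Pi) := by
            rw [hPi2, Matrix.one_mul, Matrix.mul_one]
        _ = _ := by simp only [Matrix.mul_assoc]
    rw [h1, hc1, Matrix.mul_smul, Matrix.smul_mul, Matrix.mul_one, hPi2]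
  have hQ := Qminus_nondeg hab 2
  have hfr : Module.finrank F ((Fin 2 ⊕ Fin 2) ⊕ Fin 2 → F) = 6 := by simp
  have hq1 : 1 < q := by
    rw [← hq]
    exact Fintype.one_lt_card
  have hcardSU : Nat.card (Cfsg.SU 4 (BinAlg F a b) q) = q ^ 6 * ((q ^ 2 - 1) * (q ^ 3 + 1) * (q ^ 4 - 1)) := by
    have h1 := Cfsg.Agent.S0278.result hcL 4 (by norm_num)
    simp [Finset.prod_range_succ, Nat.even_iff] at h1
    rw [← Nat.card_eq_fintype_card] at h1
    have h2 : (q + 1) * Nat.card (Cfsg.SU 4 (BinAlg F a b) q) = (q + 1) * (q ^ 6 * ((q ^ 2 - 1) * (q ^ 3 + 1) * (q ^ 4 - 1))) := by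
      rw [h1]
      ring
    exact Nat.eq_of_mul_eq_mul_left (by omega) h2
  have hO : Nat.card (OG (Qminus 2 F a b)) = 2 * (q ^ 6 * ((q ^ 2 - 1) * (q ^ 3 + 1) * (q ^ 4 - 1))) := by
    change Nat.card (isoG (fun u _ : (Fin 2 ⊕ Fin 2) ⊕ Fin 2 → F => Qminus 2 F a b u)) = _
    rw [Qminus_order hab 2, hq]
    simp only [Finset.prod_range_succ, Finset.prod_range_zero, one_mul]
    ring_nf
  have hkerle : Nat.card φ.ker ≤ Nat.card {x : BinAlg F a b // x * x = 1} := by
    let f : φ.ker → {x : BinAlg F a b // x * x = 1} := fun A =>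
      ⟨(hker A.1 A.2).choose, (hker A.1 A.2).choose_spec.2⟩
    apply Nat.card_le_card_of_injective f
    intro A B h
    apply Subtype.ext
    apply Subtype.ext
    apply Subtype.ext
    rw [(hker A.1 A.2).choose_spec.1, (hker B.1 B.2).choose_spec.1]
    have h4 : (hker A.1 A.2).choose = (hker B.1 B.2).choose := congrArg Subtype.val h
    rw [h4]
  refine pomega_iso (Qminus 2 F a b) φ (QuotientGroup.mk' _) (QuotientGroup.mk'_surjective _)
    (QuotientGroup.ker_mk' _) ?_ ?_ ?_ (central_of_perfect hperf)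
  · intro g
    have hg : g ∈ commutator (Cfsg.SU 4 (BinAlg F a b) q) := by
      rw [hperf]
      trivial
    have hle : commutator (Cfsg.SU 4 (BinAlg F a b) q) ≤ (commutator (OG (Qminus 2 F a b))).comap φ := by
      rw [commutator_def, Subgroup.commutator_le]
      intro a _ b _
      rw [Subgroup.mem_comap, map_commutatorElement]
      exact Subgroup.commutator_mem_commutator trivial trivial
    exact hle hg
  · rw [hcardSU]
    by_cases h2 : (2 : F) = 0
    · have h2L : (2 : BinAlg F a b) = 0 := by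
        rw [← one_add_one_eq_two]
        ext
        · change (1 : F) + 1 = 0
          rw [one_add_one_eq_two]
          exact h2
        · change (0 : F) + 0 = 0
          simp
      have hk : Nat.card φ.ker ≤ 1 := hkerle.trans (card_sqrt_one_even h2L)
      have h1 := Subgroup.card_mul_index (commutator (OG (Qminus 2 F a b)))
      rw [index_commutator_even h2 hQ (by omega) (Or.inr (by omega)), hO] at h1
      have h3 : Nat.card (commutator (OG (Qminus 2 F a b))) = q ^ 6 * ((q ^ 2 - 1) * (q ^ 3 + 1) * (q ^ 4 - 1)) := by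
        omega
      rw [h3]
      exact (Nat.mul_le_mul_left _ hk).trans (by rw [mul_one])
    · have h1 := Subgroup.card_mul_index (commutator (OG (Qminus 2 F a b)))
      rw [index_commutator h2 hQ (by omega), hO] at h1
      have h3 : Nat.card φ.ker ≤ 2 := hkerle.trans card_sqrt_one_le
      have h4 : Nat.card (commutator (OG (Qminus 2 F a b))) * 2 = q ^ 6 * ((q ^ 2 - 1) * (q ^ 3 + 1) * (q ^ 4 - 1)) := by
        omega
      rw [← h4]
      exact Nat.mul_le_mul_left _ h3
  · intro g hg
    obtain ⟨c, hc1, -⟩ := hker g hg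
    rw [Subgroup.mem_center_iff]
    intro h
    apply Subtype.ext
    apply Subtype.ext
    change h.1.1 * g.1.1 = g.1.1 * h.1.1
    rw [hc1]
    simp

end Cfsg.Agent.Lib.Classical.Exc
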