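/-
Symplectic frames.
-/
import Mathlib
import Cfsg.Agent.Lib.Classical.Frames
import Cfsg.Agent.Lib.Classical.IsoBridge

set_option autoImplicit false
set_option linter.unusedSectionVars false

namespace Cfsg.Agent.Lib.Classical.Frames

open Module Abs TI

variable {F : Type*} [Field F] [Fintype F] (m : ℕ)

/-- `Sp` as the abstract isometry group. -/
noncomputable def spE (m : ℕ) (F : Type*) [Field F] :
    Matrix.symplecticGroup (Fin m) F ≃* isoG (Cfsg.sympForm m F) :=
  (spEquivGL m F).trans (glIsoEquiv (Cfsg.sympForm m F))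

lemma spE_apply (m : ℕ) (F : Type*) [Field F] (A : Matrix.symplecticGroup (Fin m) F) (v : Fin m ⊕ Fin m → F) :
    (spE m F A).1 v = Matrix.mulVec (A.1) v := by
  exact glIsoEquiv_apply (Cfsg.sympForm m F) (spEquivGL m F A) v

lemma symp_RR : OrthRel F (RR (Cfsg.sympForm m F)) := symp_rel m

lemma symp_h0l (v : Fin m ⊕ Fin m → F) : Cfsg.sympForm m F 0 v = 0 := by
  simp [Cfsg.sympForm]

lemma symp_h0r (v : Fin m ⊕ Fin m → F) : Cfsg.sympForm m F v 0 = 0 := by
  simp [Cfsg.sympForm]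

lemma symp_core (X₀ : Submodule F (Fin m ⊕ Fin m → F)) (x y : Fin m ⊕ Fin m → F) (hx : x ∉ X₀) (hy : y ∉ X₀)
    (hyp : ∀ (a b : Fin m ⊕ Fin m → F), a ∈ X₀ → b ∈ X₀ → ∀ s t : F,
        Cfsg.sympForm m F (a + s • x) (b + t • x) = Cfsg.sympForm m F (a + s • y) (b + t • y)) :
    ∃ g : (Fin m ⊕ Fin m → F) ≃ₗ[F] (Fin m ⊕ Fin m → F), (∀ u v, Cfsg.sympForm m F (g u) (g v) = Cfsg.sympForm m F u v) ∧
      (∀ z ∈ X₀, g z = z) ∧ g x = y :=
  Witt.core_alt (sympBilin m F) sympBilin_nondegenerate sympBilin_isAlt X₀ x y hx hy hyp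

/-- Extensions of symplectic frames. -/
lemma card_Ext_symp {j : ℕ} (s : Fr F (RR (Cfsg.sympForm m F)) (fun _ => Set.univ) j) :
    Nat.card (Ext F (RR (Cfsg.sympForm m F)) (fun _ => Set.univ) s) =
      Fintype.card F ^ (2 * m - j) - Fintype.card F ^ j := by
  classical
  set U := Submodule.span F (Set.range s.1) with hU
  have hB : (sympBilin m F).Nondegenerate := sympBilin_nondegenerate
  have hA : (sympBilin m F).IsAlt := sympBilin_isAlt
  have hti := span_RR (Cfsg.sympForm m F) (symp_RR m) (symp_h0l m) (symp_h0r m) s.2.2.1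
  let P := (sympBilin m F).orthogonal U
  have hP : ∀ v, v ∈ P ↔ ∀ i, Cfsg.sympForm m F (s.1 i) v = 0 := by
    intro v
    rw [LinearMap.BilinForm.mem_orthogonal_iff]
    constructor
    · intro h i
      exact h _ (Submodule.subset_span ⟨i, rfl⟩)
    · intro h u hu
      change Cfsg.sympForm m F u v = 0
      induction hu using Submodule.span_induction with
      | mem x hx =>
        obtain ⟨i, rfl⟩ := hx
        exact h i
      | zero => exact symp_h0l m v
      | add x y _ _ hx hy => rw [sympForm_add_left, hx, hy, add_zero]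
      | smul c x _ hx => rw [sympForm_smul_left, hx, mul_zero]
  have hle : U ≤ P := by
    intro u hu
    rw [LinearMap.BilinForm.mem_orthogonal_iff]
    intro x hx
    exact hti x hx u hu
  have e : Ext F (RR (Cfsg.sympForm m F)) (fun _ => Set.univ) s ≃
      {y : Fin m ⊕ Fin m → F // y ∈ (P : Set (Fin m ⊕ Fin m → F)) ∧ y ∉ (U : Set (Fin m ⊕ Fin m → F))} :=
    { toFun := fun x => ⟨x.1, (hP _).mpr x.2.2.1, x.2.2.2.1⟩
      invFun := fun y => ⟨y.1, sympForm_self _, (hP _).mp y.2.1, y.2.2, trivial⟩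
      left_inv := fun _ => rfl
      right_inv := fun _ => rfl }
  rw [Nat.card_congr e, card_sub_of_subset hle, card_submodule, card_submodule, hU,
    finrank_span_eq_card s.2.1]
  have h2 : finrank F P = 2 * m - j := by
    rw [LinearMap.BilinForm.finrank_orthogonal hB, hU, finrank_span_eq_card s.2.1]
    simp
    omega
  rw [h2]
  simp

/-- The order of `Sp`. -/
def PP (q r : ℕ) : ℕ := q ^ (r ^ 2) * ∏ i ∈ Finset.range r, (q ^ (2 * (i + 1)) - 1)

lemma PP_succ (q r : ℕ) : PP q (r + 1) = q ^ (2 * r + 1) * (q ^ (2 * r + 2) - 1) * PP q r := by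
  unfold PP
  rw [Finset.prod_range_succ]
  have : (r + 1) ^ 2 = 2 * r + 1 + r ^ 2 := by ring
  rw [this, pow_add]
  have e : 2 * (r + 1) = 2 * r + 2 := by ring
  rw [e]
  ring

lemma tri_succ (k : ℕ) : (k + 1) * (k + 1 + 1) / 2 = k * (k + 1) / 2 + (k + 1) := by
  have : (k + 1) * (k + 1 + 1) = k * (k + 1) + 2 * (k + 1) := by ring
  rw [this, Nat.add_mul_div_left _ _ (by norm_num)]

lemma arith (q : ℕ) (hq : 2 ≤ q) (k r : ℕ) :
    (∏ j ∈ Finset.range k, (q ^ (2 * (k + r) - j) - q ^ j)) * q ^ (k * (k + 1) / 2 + 2 * k * r) * PP q r = PP q (k + r) := by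
  induction k generalizing r with
  | zero => simp
  | succ k ih =>
    have h1 := ih (r + 1)
    have e0 : k + (r + 1) = k + 1 + r := by ring
    rw [e0] at h1
    rw [← h1, PP_succ, Finset.prod_range_succ]
    have e1 : q ^ (2 * (k + 1 + r) - k) - q ^ k = q ^ k * (q ^ (2 * r + 2) - 1) := by
      have : 2 * (k + 1 + r) - k = k + (2 * r + 2) := by omega
      rw [this, pow_add, Nat.mul_sub, mul_one]
    rw [e1, tri_succ]
    have e2 : q ^ (k * (k + 1) / 2 + (k + 1) + 2 * (k + 1) * r) * q ^ k = q ^ (k * (k + 1) / 2 + 2 * k * (r + 1)) * q ^ (2 * r + 1) := by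
      rw [← pow_add, ← pow_add]
      congr 1
      ring
    calc _ = (∏ j ∈ Finset.range k, (q ^ (2 * (k + 1 + r) - j) - q ^ j)) * (q ^ (k * (k + 1) / 2 + (k + 1) + 2 * (k + 1) * r) * q ^ k) * (q ^ (2 * r + 2) - 1) * PP q r := by ring
      _ = _ := by rw [e2]; ring

end Cfsg.Agent.Lib.Classical.Frames
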