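/-
The subgroup generated by a set, from an explicit list closed under right multiplication.
-/
import Mathlib

set_option autoImplicit false
set_option linter.unusedSectionVars false

namespace Cfsg.Agent.Lib.Classical.ListGroup

variable {G : Type*} [Group G]

/-- A list closed under right multiplication by `g` is closed under right multiplication by `g⁻¹`. -/
lemma inv_closed (L : List G) (g : G) (hg : ∀ a ∈ L, a * g ∈ L) : ∀ a ∈ L, a * g⁻¹ ∈ L := by
  classical
  haveI : Fintype {a // a ∈ L} := List.Subtype.fintype L
  let f : {a // a ∈ L} → {a // a ∈ L} := fun a => ⟨a.1 * g, hg a.1 a.2⟩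
  have hinj : Function.Injective f := by
    intro a b h
    apply Subtype.ext
    have := congrArg Subtype.val h
    exact mul_right_cancel this
  have hsurj : Function.Surjective f := Finite.injective_iff_surjective.mp hinj
  intro a ha
  obtain ⟨b, hb⟩ := hsurj ⟨a, ha⟩
  have h := congrArg Subtype.val hb
  change b.1 * g = a at h
  rw [← h, mul_inv_cancel_right]
  exact b.2

/-- Everything in the closure lies in a list containing `1` and closed under the generators. -/
theorem closure_le_list (S : Set G) (L : List G) (h1 : 1 ∈ L) (hL : ∀ a ∈ L, ∀ g ∈ S, a * g ∈ L) :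
    ∀ g ∈ Subgroup.closure S, g ∈ L := by
  have key : ∀ g ∈ Subgroup.closure S, ∀ a ∈ L, a * g ∈ L := by
    intro g hg
    induction hg using Subgroup.closure_induction with
    | mem x hx =>
      intro a ha
      exact hL a ha x hx
    | one =>
      intro a ha
      simpa using ha
    | mul x y _ _ hx hy =>
      intro a ha
      rw [← mul_assoc]
      exact hy _ (hx a ha)
    | inv x _ hx =>
      exact inv_closed L x hx
  intro g hg
  have := key g hg 1 h1
  simpa using this

/-- The cardinality of the closure from an explicit list. -/
theorem card_closure (S : Set G) (L : List G) (h1 : 1 ∈ L) (hL : ∀ a ∈ L, ∀ g ∈ S, a * g ∈ L)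
    (hsub : ∀ a ∈ L, a ∈ Subgroup.closure S) (hnd : L.Nodup) :
    Nat.card (Subgroup.closure S) = L.length := by
  classical
  have hcc : Nat.card (Subgroup.closure S) = Nat.card {a // a ∈ L} := by
    apply Nat.card_congr
    exact Equiv.subtypeEquivRight (fun a => ⟨closure_le_list S L h1 hL a, hsub a⟩)
  haveI : Fintype {a // a ∈ L} := List.Subtype.fintype L
  rw [hcc, Nat.card_eq_fintype_card, Fintype.card_of_subtype L.toFinset (by simp),
    List.toFinset_card_of_nodup hnd]

/-- Evaluation of a word in two generators. -/
def evalW2 (x y : G) (w : List Bool) : G := w.foldl (fun a b => a * (if b then y else x)) 1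

lemma evalW2_mem (x y : G) (w : List Bool) :
    evalW2 x y w ∈ Subgroup.closure ({x, y} : Set G) := by
  have hx : x ∈ Subgroup.closure ({x, y} : Set G) := Subgroup.subset_closure (by simp)
  have hy : y ∈ Subgroup.closure ({x, y} : Set G) := Subgroup.subset_closure (by simp)
  unfold evalW2
  have : ∀ (w : List Bool) (a : G), a ∈ Subgroup.closure ({x, y} : Set G) →
      w.foldl (fun a b => a * (if b then y else x)) a ∈ Subgroup.closure ({x, y} : Set G) := by
    intro w
    induction w with
    | nil => intro a ha; simpa using ha
    | cons b w ih =>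
      intro a ha
      rw [List.foldl_cons]
      apply ih
      apply mul_mem ha
      split_ifs
      · exact hy
      · exact hx
  exact this w 1 (one_mem _)

/-- The cardinality of the closure of two elements from a list of words. -/
theorem card_closure_words (x y : G) (ws : List (List Bool)) (h1 : 1 ∈ ws.map (evalW2 x y))
    (hL : ∀ a ∈ ws.map (evalW2 x y), a * x ∈ ws.map (evalW2 x y) ∧ a * y ∈ ws.map (evalW2 x y))
    (hnd : (ws.map (evalW2 x y)).Nodup) :
    Nat.card (Subgroup.closure ({x, y} : Set G)) = ws.length := by
  rw [card_closure _ (ws.map (evalW2 x y)) h1, List.length_map]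
  · intro a ha g hg
    rcases hg with rfl | rfl
    · exact (hL a ha).1
    · exact (hL a ha).2
  · intro a ha
    obtain ⟨w, _, rfl⟩ := List.mem_map.mp ha
    exact evalW2_mem x y w
  · exact hnd

/-- The underlying set of the closure is the list. -/
theorem mem_closure_words_iff (x y : G) (ws : List (List Bool)) (h1 : 1 ∈ ws.map (evalW2 x y))
    (hL : ∀ a ∈ ws.map (evalW2 x y), a * x ∈ ws.map (evalW2 x y) ∧ a * y ∈ ws.map (evalW2 x y)) (g : G) :
    g ∈ Subgroup.closure ({x, y} : Set G) ↔ g ∈ ws.map (evalW2 x y) := by
  constructor
  · apply closure_le_list _ _ h1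
    intro a ha g hg
    rcases hg with rfl | rfl
    · exact (hL a ha).1
    · exact (hL a ha).2
  · intro ha
    obtain ⟨w, _, rfl⟩ := List.mem_map.mp ha
    exact evalW2_mem x y w

end Cfsg.Agent.Lib.Classical.ListGroup
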