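/-
Homomorphisms from graph subgroups given by explicit lists of words.
-/
import Mathlib
import Cfsg.Agent.Lib.Classical.ListGroup

set_option autoImplicit false
set_option linter.unusedSectionVars false

namespace Cfsg.Agent.Lib.Classical.ListGroup

variable {A B : Type*} [Group A] [Group B]

/-- A closed list of pairs whose first coordinates are distinct and exhaust `A` is the graph of a homomorphism. -/
theorem exists_hom_of_words [Finite A] (x y : A × B) (ws : List (List Bool))
    (h1 : 1 ∈ ws.map (evalW2 x y))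
    (hL : ∀ a ∈ ws.map (evalW2 x y), a * x ∈ ws.map (evalW2 x y) ∧ a * y ∈ ws.map (evalW2 x y))
    (hnd : ((ws.map (evalW2 x y)).map Prod.fst).Nodup) (hcard : Nat.card A = ws.length) :
    ∃ φ : A →* B, (∀ g ∈ ws.map (evalW2 x y), φ g.1 = g.2) ∧
      ∀ a : A, (a, φ a) ∈ ws.map (evalW2 x y) := by
  classical
  let Γ : Subgroup (A × B) := Subgroup.closure ({x, y} : Set (A × B))
  have hmem : ∀ g, g ∈ Γ ↔ g ∈ ws.map (evalW2 x y) := mem_closure_words_iff x y ws h1 hL
  have hcardΓ : Nat.card Γ = ws.length :=
    card_closure_words x y ws h1 hL (List.Nodup.of_map _ hnd)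
  let p1 : Γ →* A := (MonoidHom.fst A B).comp Γ.subtype
  have hinj : Function.Injective p1 := by
    intro g g' h
    apply Subtype.ext
    have h1 : (g : A × B).1 = (g' : A × B).1 := h
    exact List.inj_on_of_nodup_map hnd ((hmem _).mp g.2) ((hmem _).mp g'.2) h1
  have hbij : Function.Bijective p1 :=
    hinj.bijective_of_nat_card_le (by rw [hcard, hcardΓ])
  let e := MulEquiv.ofBijective p1 hbij
  let φ : A →* B := ((MonoidHom.snd A B).comp Γ.subtype).comp e.symm.toMonoidHom
  have hφ : ∀ g (hg : g ∈ Γ), φ g.1 = g.2 := by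
    intro g hg
    have h2 : e.symm g.1 = ⟨g, hg⟩ := by
      apply e.injective
      rw [MulEquiv.apply_symm_apply]
      rfl
    change (e.symm g.1 : Γ).1.2 = g.2
    rw [h2]
  refine ⟨φ, fun g hg => hφ g ((hmem g).mpr hg), ?_⟩
  intro a
  have h3 : (e.symm a : Γ).1 = (a, φ a) := by
    apply Prod.ext
    · have : e (e.symm a) = a := e.apply_symm_apply a
      exact this
    · rfl
  rw [← h3]
  exact (hmem _).mp (e.symm a).2

end Cfsg.Agent.Lib.Classical.ListGroup
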