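/-
In characteristic two, the isometry group of `x² + Q₀(w)` on `F ⊕ W` is the isometry group of the polar form of `Q₀`.
-/
import Mathlib
import Cfsg.Agent.Lib.Classical.IsoAbs

set_option autoImplicit false
set_option linter.unusedSectionVars false

namespace Cfsg.Agent.Lib.Classical.Abs

variable {F W : Type*} [Field F] [Finite F] [CharP F 2] [AddCommGroup W] [Module F W] [FiniteDimensional F W]
variable (Q₀ : W → F) (f : LinearMap.BilinForm F W)

/-- The quadratic form on `F × W`. -/
def QX (v : F × W) : F := v.1 ^ 2 + Q₀ v.2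

section
variable {Q₀ f}
variable (hQ : ∀ u v, Q₀ (u + v) = Q₀ u + Q₀ v + f u v) (hQs : ∀ (c : F) u, Q₀ (c • u) = c ^ 2 * Q₀ u)
  (hnd : ∀ z, (∀ w, f z w = 0) → z = 0)
include hQ hQs hnd

lemma char2_add (x : F) : x + x = 0 := CharTwo.add_self_eq_zero x

omit hQ hQs hnd [Finite F] [FiniteDimensional F W] [CharP F 2] in
lemma QX_apply (x : F) (w : W) : QX Q₀ (x, w) = x ^ 2 + Q₀ w := rfl

omit hQs hnd [Finite F] [FiniteDimensional F W] in
/-- The polar form of `QX`. -/
lemma QX_pol (a b : F × W) : QX Q₀ (a + b) = QX Q₀ a + QX Q₀ b + f a.2 b.2 := by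
  rcases a with ⟨x, u⟩
  rcases b with ⟨y, v⟩
  simp only [QX, Prod.mk_add_mk, hQ, add_sq]
  have : 2 * x * y = 0 := by
    have h2 : (2 : F) = 0 := by exact_mod_cast CharP.cast_eq_zero F 2
    rw [h2]
    ring
  rw [this]
  ring

omit hQs hnd [Finite F] [FiniteDimensional F W] in
lemma pol_pres (g : isoG (fun u _ : F × W => QX Q₀ u)) (a b : F × W) :
    f (g.1 a).2 (g.1 b).2 = f a.2 b.2 := by
  have hg : ∀ v, QX Q₀ (g.1 v) = QX Q₀ v := fun v => g.2 v 0
  have h1 := QX_pol hQ a b
  have h2 := QX_pol hQ (g.1 a) (g.1 b)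
  rw [← map_add, hg, hg, hg, h1] at h2
  exact (add_left_cancel h2).symm

/-- An isometry fixes the radical vector. -/
lemma fix_rad (g : isoG (fun u _ : F × W => QX Q₀ u)) : g.1 (1, 0) = (1, 0) := by
  have hg : ∀ v, QX Q₀ (g.1 v) = QX Q₀ v := fun v => g.2 v 0
  obtain ⟨a, z, haz⟩ : ∃ a z, g.1 (1, 0) = (a, z) := ⟨_, _, rfl⟩
  have hz : z = 0 := by
    apply hnd
    intro w
    obtain ⟨b, hb⟩ : ∃ b, g.1 b = (0, w) := ⟨g.1.symm (0, w), by simp⟩
    have h1 := pol_pres hQ g (1, 0) b
    rw [haz, hb] at h1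
    simpa using h1
  subst hz
  have ha : a = 1 := by
    have h1 := hg (1, 0)
    rw [haz] at h1
    simp only [QX] at h1
    have h0 : Q₀ 0 = 0 := by
      have := hQs 0 0
      simpa using this
    simp only [h0, add_zero, one_pow] at h1
    have h2 : (a - 1) ^ 2 = 0 := by
      have h22 : (2 : F) = 0 := by exact_mod_cast CharP.cast_eq_zero F 2
      have : (a - 1) ^ 2 = a ^ 2 - 1 - 2 * (a - 1) := by ring
      rw [this, h1, h22]
      ring
    have := pow_eq_zero_iff (two_ne_zero) |>.mp h2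
    exact sub_eq_zero.mp this
  rw [haz, ha]

lemma g_apply (g : isoG (fun u _ : F × W => QX Q₀ u)) (x : F) (w : W) :
    g.1 (x, w) = (x + (g.1 (0, w)).1, (g.1 (0, w)).2) := by
  have h : ((x, w) : F × W) = x • ((1, 0) : F × W) + (0, w) := by
    ext <;> simp
  rw [h, map_add, map_smul, fix_rad hQ hQs hnd g]
  ext <;> simp

/-- The induced linear map on `W`. -/
def barLin (g : isoG (fun u _ : F × W => QX Q₀ u)) : W →ₗ[F] W :=
  (LinearMap.snd F F W).comp (g.1.toLinearMap.comp (LinearMap.inr F F W))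

omit hQ hQs hnd [Finite F] [FiniteDimensional F W] [CharP F 2] in
@[simp] lemma barLin_apply (g : isoG (fun u _ : F × W => QX Q₀ u)) (w : W) :
    barLin g w = (g.1 (0, w)).2 := rfl

omit hQs hnd [Finite F] [FiniteDimensional F W] in
lemma barLin_pres (g : isoG (fun u _ : F × W => QX Q₀ u)) (u v : W) :
    f (barLin g u) (barLin g v) = f u v :=
  pol_pres hQ g (0, u) (0, v)

omit hQs [Finite F] [FiniteDimensional F W] in
lemma barLin_inj (g : isoG (fun u _ : F × W => QX Q₀ u)) : Function.Injective (barLin g) := by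
  rw [injective_iff_map_eq_zero]
  intro w hw
  apply hnd
  intro v
  rw [← barLin_pres hQ g, hw]
  simp

/-- The homomorphism to the isometries of the polar form. -/
noncomputable def barHom : isoG (fun u _ : F × W => QX Q₀ u) →* isoG (fun u v : W => f u v) where
  toFun g := ⟨LinearEquiv.ofInjectiveEndo (barLin g) (barLin_inj hQ hnd g), fun u v => by
    simpa using barLin_pres hQ g u v⟩
  map_one' := by
    apply Subtype.ext
    apply LinearEquiv.ext
    intro w
    simp
  map_mul' g h := by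
    apply Subtype.ext
    apply LinearEquiv.ext
    intro w
    change (g.1 (h.1 (0, w))).2 = (g.1 (0, (h.1 (0, w)).2)).2
    rw [show h.1 (0, w) = ((h.1 (0, w)).1, (h.1 (0, w)).2) from rfl, g_apply hQ hQs hnd g _ (h.1 (0, w)).2]

lemma barHom_injective : Function.Injective (barHom (f := f) hQ hQs hnd) := by
  rw [injective_iff_map_eq_one]
  intro g hg
  have hbar : ∀ w, (g.1 (0, w)).2 = w := by
    intro w
    have := congrArg (fun k : isoG (fun u v : W => f u v) => k.1 w) hg
    exact this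
  have hfst : ∀ w, (g.1 (0, w)).1 = 0 := by
    intro w
    have h1 : QX Q₀ (g.1 (0, w)) = QX Q₀ (0, w) := g.2 _ 0
    rw [QX, QX, hbar] at h1
    have h2 : (g.1 (0, w)).1 ^ 2 = 0 := by simpa using h1
    exact pow_eq_zero_iff (two_ne_zero) |>.mp h2
  apply Subtype.ext
  apply LinearEquiv.ext
  rintro ⟨x, w⟩
  rw [g_apply hQ hQs hnd g, hfst, hbar, add_zero]
  rfl

lemma barHom_surjective : Function.Surjective (barHom (f := f) hQ hQs hnd) := by
  intro h
  have h22 : (2 : F) = 0 := by exact_mod_cast CharP.cast_eq_zero F 2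
  let r : F ≃+* F := (frobeniusEquiv F 2).symm
  have hr : ∀ t, r t ^ 2 = t := fun t => frobenius_apply_frobeniusEquiv_symm F 2 t
  have hr2 : ∀ c t : F, r (c ^ 2 * t) = c * r t := by
    intro c t
    rw [map_mul, map_pow, hr]
  let lam : W →ₗ[F] F :=
    { toFun := fun w => r (Q₀ w + Q₀ (h.1 w))
      map_add' := by
        intro u v
        rw [← map_add]
        congr 1
        rw [map_add, hQ, hQ]
        have := h.2 u v
        change f (h.1 u) (h.1 v) = f u v at this
        rw [this]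
        linear_combination (f u v) * h22
      map_smul' := by
        intro c u
        simp only [RingHom.id_apply, smul_eq_mul]
        rw [map_smul, hQs, hQs, ← hr2]
        congr 1
        ring }
  let G0 : (F × W) →ₗ[F] (F × W) :=
    (LinearMap.fst F F W + lam.comp (LinearMap.snd F F W)).prod (h.1.toLinearMap.comp (LinearMap.snd F F W))
  have hG0 : ∀ x w, G0 (x, w) = (x + lam w, h.1 w) := fun _ _ => rfl
  have hinj : Function.Injective G0 := by
    rw [injective_iff_map_eq_zero]
    rintro ⟨x, w⟩ hxw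
    rw [hG0] at hxw
    have h1 : h.1 w = 0 := congrArg Prod.snd hxw
    have h2 : w = 0 := by simpa using h1
    subst h2
    have h3 : x + lam 0 = 0 := congrArg Prod.fst hxw
    simp at h3
    rw [h3]
    rfl
  let G : (F × W) ≃ₗ[F] (F × W) := LinearEquiv.ofInjectiveEndo G0 hinj
  have hG : G ∈ isoG (fun u _ : F × W => QX Q₀ u) := by
    rintro ⟨x, w⟩ _
    change QX Q₀ (G0 (x, w)) = QX Q₀ (x, w)
    rw [hG0, QX_apply, QX_apply, add_sq]
    have : lam w ^ 2 = Q₀ w + Q₀ (h.1 w) := hr _
    rw [this, mul_assoc, h22]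
    have h4 : Q₀ (h.1 w) + Q₀ (h.1 w) = 0 := CharTwo.add_self_eq_zero _
    linear_combination h4
  refine ⟨⟨G, hG⟩, ?_⟩
  apply Subtype.ext
  apply LinearEquiv.ext
  intro w
  rfl

/-- The isomorphism. -/
noncomputable def barEquiv : isoG (fun u _ : F × W => QX Q₀ u) ≃* isoG (fun u v : W => f u v) :=
  MulEquiv.ofBijective (barHom hQ hQs hnd) ⟨barHom_injective hQ hQs hnd, barHom_surjective hQ hQs hnd⟩

end

end Cfsg.Agent.Lib.Classical.Abs
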