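/-
Involutions of Ω in odd characteristic: products of reflections in orthonormal vectors are not conjugate.
-/
import Mathlib
import Cfsg.Agent.Lib.Classical.OrthOrder

set_option autoImplicit false
set_option linter.unusedSectionVars false

namespace Cfsg.Agent.Lib.Classical.Orth

open Cfsg.Agent.Lib.Classical.Witt Cfsg.Agent.Lib.Classical.Abs

local notation "P" => QuadraticMap.polarBilin

section abstract

variable {F V : Type*} [Field F] [AddCommGroup V] [Module F V] {Q : QuadraticForm F V} [FiniteDimensional F V]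

local notation "orth" => LinearMap.BilinForm.orthogonal (P Q)

/-- Orthonormal sequences. -/
structure ONF (Q : QuadraticForm F V) (a : ℕ → V) (L : ℕ) : Prop where
  one : ∀ i < L, Q (a i) = 1
  ort : ∀ i < L, ∀ j < L, i ≠ j → P Q (a i) (a j) = 0

lemma ONF.pol {a : ℕ → V} {L : ℕ} (h : ONF Q a L) {i j : ℕ} (hi : i < L) (hj : j < L) :
    P Q (a i) (a j) = if i = j then 2 else 0 := by
  by_cases hij : i = j
  · subst hij
    rw [pol_self, h.one i hi]
    simp
  · rw [h.ort i hi j hj hij, if_neg hij]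

lemma ONF.mono {a : ℕ → V} {L r : ℕ} (h : ONF Q a L) (hr : r ≤ L) : ONF Q a r :=
  ⟨fun i hi => h.one i (by omega), fun i hi j hj => h.ort i (by omega) j (by omega)⟩

/-- The span of the first vectors. -/
def spanA (a : ℕ → V) (L : ℕ) : Submodule F V := Submodule.span F (Set.range (fun i : Fin L => a i))

lemma ONF.expand (h2 : (2 : F) ≠ 0) {a : ℕ → V} {L : ℕ} (h : ONF Q a L) {x : V} (hx : x ∈ spanA (F := F) a L) :
    x = ∑ i : Fin L, (2⁻¹ * P Q (a i) x) • a i := by
  classical
  induction hx using Submodule.span_induction with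
  | mem y hy =>
    obtain ⟨j, rfl⟩ := hy
    rw [Finset.sum_eq_single j]
    · simp only [h.pol j.2 j.2, if_true]
      rw [inv_mul_cancel₀ h2, one_smul]
    · intro b _ hb
      rw [h.pol b.2 j.2, if_neg (fun hc => hb (Fin.ext hc)), mul_zero, zero_smul]
    · simp
  | zero => simp
  | add y z _ _ hy hz =>
    conv_lhs => rw [hy, hz]
    rw [← Finset.sum_add_distrib]
    refine Finset.sum_congr rfl fun i _ => ?_
    rw [map_add, mul_add, add_smul]
  | smul c y _ hy =>
    conv_lhs => rw [hy]
    rw [Finset.smul_sum]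
    refine Finset.sum_congr rfl fun i _ => ?_
    rw [map_smul, smul_eq_mul, smul_smul]
    congr 1
    ring

lemma ONF.inf_orth (h2 : (2 : F) ≠ 0) {a : ℕ → V} {L : ℕ} (h : ONF Q a L) :
    spanA (F := F) a L ⊓ orth (spanA a L) = ⊥ := by
  rw [eq_bot_iff]
  rintro x ⟨hx, hx'⟩
  rw [Submodule.mem_bot, h.expand h2 hx]
  refine Finset.sum_eq_zero fun i _ => ?_
  have : P Q (a i) x = 0 := (mem_orth.mp hx') _ (Submodule.subset_span ⟨i, rfl⟩)
  rw [this, mul_zero, zero_smul]

lemma ONF.linInd (h2 : (2 : F) ≠ 0) {a : ℕ → V} {L : ℕ} (h : ONF Q a L) :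
    LinearIndependent F (fun i : Fin L => a i) := by
  classical
  rw [Fintype.linearIndependent_iff]
  intro g hg j
  have h1 := congrArg (P Q (a j)) hg
  rw [map_sum, map_zero, Finset.sum_eq_single j] at h1
  · rw [map_smul, h.pol j.2 j.2, if_pos rfl, smul_eq_mul] at h1
    exact (mul_eq_zero.mp h1).resolve_right h2
  · intro b _ hb
    rw [map_smul, h.pol j.2 b.2, if_neg (fun hc => hb (Fin.ext hc.symm)), smul_zero]
  · simp

lemma ONF.finrank_span (h2 : (2 : F) ≠ 0) {a : ℕ → V} {L : ℕ} (h : ONF Q a L) :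
    Module.finrank F (spanA (F := F) a L) = L := by
  have := finrank_span_eq_card (h.linInd h2)
  rw [Fintype.card_fin] at this
  exact this

section ex

variable [Fintype F] [Finite V]

/-- Orthonormal sequences exist (odd characteristic). -/
theorem exists_onf (h2 : (2 : F) ≠ 0) (hQ : (P Q).Nondegenerate) (L : ℕ) (hL : L + 1 ≤ Module.finrank F V) :
    ∃ a : ℕ → V, ONF Q a L := by
  classical
  induction L with
  | zero => exact ⟨fun _ => 0, ⟨fun i hi => absurd hi (by omega), fun i hi => absurd hi (by omega)⟩⟩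
  | succ L ih =>
    obtain ⟨a, ha⟩ := ih (by omega)
    obtain ⟨w, hw, hw1⟩ := exists_orth_Q_eq h2 hQ (spanA (F := F) a L) (ha.inf_orth h2)
      (by rw [ha.finrank_span h2]; omega) (1 : F)
    refine ⟨Function.update a L w, ?_, ?_⟩
    · intro i hi
      by_cases hiL : i = L
      · subst hiL
        rw [Function.update_self, hw1]
      · rw [Function.update_of_ne hiL]
        exact ha.one i (by omega)
    · intro i hi j hj hij
      by_cases hiL : i = L
      · subst hiL
        have hjL : j ≠ i := Ne.symm hij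
        rw [Function.update_self, Function.update_of_ne hjL, pol_comm]
        exact (mem_orth.mp hw) _ (Submodule.subset_span ⟨⟨j, by omega⟩, rfl⟩)
      · rw [Function.update_of_ne hiL]
        by_cases hjL : j = L
        · subst hjL
          rw [Function.update_self, pol_comm, pol_comm]
          exact (mem_orth.mp hw) _ (Submodule.subset_span ⟨⟨i, by omega⟩, rfl⟩)
        · rw [Function.update_of_ne hjL]
          exact ha.ort i (by omega) j (by omega) hij

end ex

/-- Reflection of an arbitrary vector (one if singular). -/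
noncomputable def rf (Q : QuadraticForm F V) (v : V) : OG Q :=
  @dite _ (Q v ≠ 0) (Classical.dec _) (fun hv => refl Q v hv) (fun _ => 1)

lemma rf_eq {v : V} (hv : Q v ≠ 0) : rf Q v = refl Q v hv := by
  unfold rf
  exact dif_pos hv

lemma rf_apply {v : V} (hv : Q v = 1) (x : V) : (rf Q v).1 x = x - P Q v x • v := by
  have hv' : Q v ≠ 0 := by rw [hv]; exact one_ne_zero
  rw [rf_eq hv', refl_apply, hv]
  simp

/-- Products of the first reflections. -/
noncomputable def rr (Q : QuadraticForm F V) (a : ℕ → V) : ℕ → OG Q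
  | 0 => 1
  | r + 1 => rf Q (a r) * rr Q a r

lemma ONF.rr_apply {a : ℕ → V} {L : ℕ} (h : ONF Q a L) : ∀ r ≤ L, ∀ x : V,
    (rr Q a r).1 x = x - ∑ i : Fin r, P Q (a i) x • a i := by
  classical
  intro r
  induction r with
  | zero =>
    intro _ x
    simp [rr, one_apply']
  | succ r ih =>
    intro hr x
    have ih' := ih (by omega) x
    change (rf Q (a r)).1 ((rr Q a r).1 x) = _
    rw [ih', rf_apply (h.one r (by omega)), Fin.sum_univ_castSucc]
    have h1 : P Q (a r) (x - ∑ i : Fin r, P Q (a i) x • a i) = P Q (a r) x := by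
      rw [map_sub, map_sum, Finset.sum_eq_zero, sub_zero]
      intro i _
      rw [map_smul, h.ort r (by omega) i (by have := i.2; omega) (by have := i.2; omega), smul_zero]
    rw [h1]
    simp only [Fin.val_castSucc, Fin.val_last]
    abel

/-- The fixed space. -/
def FixS (g : OG Q) : Submodule F V := LinearMap.ker ((g.1 : V →ₗ[F] V) - LinearMap.id)

lemma mem_FixS {g : OG Q} {x : V} : x ∈ FixS g ↔ g.1 x = x := by
  simp [FixS, sub_eq_zero]

lemma finrank_FixS_conj (g t : OG Q) : Module.finrank F (FixS (g * t * g⁻¹)) = Module.finrank F (FixS t) := by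
  have : FixS (g * t * g⁻¹) = (FixS t).map (g.1 : V →ₗ[F] V) := by
    ext x
    rw [mem_FixS, Submodule.mem_map]
    constructor
    · intro h
      refine ⟨g⁻¹.1 x, ?_, inv_apply_self g x⟩
      rw [mem_FixS]
      have h1 : g.1 (t.1 (g⁻¹.1 x)) = x := h
      rw [← inv_apply_self' g (t.1 (g⁻¹.1 x)), h1]
    · rintro ⟨y, hy, rfl⟩
      rw [mem_FixS] at hy
      change g.1 (t.1 (g⁻¹.1 (g.1 y))) = g.1 y
      rw [inv_apply_self', hy]
  rw [this]
  exact LinearEquiv.finrank_map_eq g.1 _

lemma ONF.FixS_rr (h2 : (2 : F) ≠ 0) {a : ℕ → V} {L r : ℕ} (h : ONF Q a L) (hr : r ≤ L) :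
    FixS (rr Q a r) = orth (spanA a r) := by
  classical
  have hon : ONF Q a r := h.mono hr
  ext x
  rw [mem_FixS, h.rr_apply r hr, sub_eq_self, mem_orth]
  constructor
  · intro hs u hu
    obtain hexp := hon.expand h2 hu
    have hzero : ∀ j : Fin r, P Q (a j) x = 0 := by
      intro j
      have h1 := congrArg (P Q (a j)) hs
      rw [map_sum, map_zero, Finset.sum_eq_single j] at h1
      · rw [map_smul, hon.pol j.2 j.2, if_pos rfl, smul_eq_mul] at h1
        exact (mul_eq_zero.mp h1).resolve_right h2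
      · intro b _ hb
        rw [map_smul, hon.pol j.2 b.2, if_neg (fun hc => hb (Fin.ext hc.symm)), smul_zero]
      · simp
    rw [hexp, map_sum, LinearMap.sum_apply]
    refine Finset.sum_eq_zero fun i _ => ?_
    rw [map_smul, LinearMap.smul_apply, hzero i, smul_zero]
  · intro hs
    refine Finset.sum_eq_zero fun i _ => ?_
    rw [hs _ (Submodule.subset_span ⟨i, rfl⟩), zero_smul]

lemma ONF.finrank_fix (h2 : (2 : F) ≠ 0) (hQ : (P Q).Nondegenerate) {a : ℕ → V} {L r : ℕ}
    (h : ONF Q a L) (hr : r ≤ L) :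
    Module.finrank F (FixS (rr Q a r)) = Module.finrank F V - r := by
  rw [h.FixS_rr h2 hr, LinearMap.BilinForm.finrank_orthogonal hQ, (h.mono hr).finrank_span h2]

lemma ONF.rr_sq (h2 : (2 : F) ≠ 0) {a : ℕ → V} {L r : ℕ} (h : ONF Q a L) (hr : r ≤ L) :
    rr Q a r * rr Q a r = 1 := by
  classical
  have hon : ONF Q a r := h.mono hr
  apply OG_ext
  intro x
  rw [mul_apply', h.rr_apply r hr, h.rr_apply r hr, one_apply']
  have h1 : ∀ j : Fin r, P Q (a j) (x - ∑ i : Fin r, P Q (a i) x • a i) = - P Q (a j) x := by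
    intro j
    rw [map_sub, map_sum, Finset.sum_eq_single j]
    · rw [map_smul, hon.pol j.2 j.2, if_pos rfl, smul_eq_mul]
      ring
    · intro b _ hb
      rw [map_smul, hon.pol j.2 b.2, if_neg (fun hc => hb (Fin.ext hc.symm)), smul_zero]
    · simp
  simp only [h1, neg_smul, Finset.sum_neg_distrib]
  abel

lemma ONF.rr_ne_one (h2 : (2 : F) ≠ 0) {a : ℕ → V} {L r : ℕ} (h : ONF Q a L) (hr : r ≤ L) (hr0 : 0 < r) :
    rr Q a r ≠ 1 := by
  classical
  have hon : ONF Q a r := h.mono hr
  intro hc
  have h1 := congrArg (fun g : OG Q => g.1 (a 0)) hc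
  simp only [one_apply'] at h1
  rw [h.rr_apply r hr, sub_eq_self, Finset.sum_eq_single (⟨0, hr0⟩ : Fin r)] at h1
  · rw [hon.pol hr0 hr0, if_pos rfl, smul_eq_zero] at h1
    rcases h1 with h1 | h1
    · exact h2 h1
    · have := hon.one 0 hr0
      simp only at h1
      rw [h1] at this
      simp at this
  · intro b _ hb
    rw [hon.pol b.2 hr0, if_neg (fun hc => hb (Fin.ext hc)), zero_smul]
  · simp

section comm

variable [Fintype F] [Finite V]

lemma ONF.rr_mem (h2 : (2 : F) ≠ 0) {a : ℕ → V} {L : ℕ} (h : ONF Q a L) : ∀ k, 2 * k ≤ L →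
    rr Q a (2 * k) ∈ commutator (OG Q) := by
  intro k
  induction k with
  | zero =>
    intro _
    exact Subgroup.one_mem _
  | succ k ih =>
    intro hk
    have h1 : rr Q a (2 * (k + 1)) = (rf Q (a (2 * k + 1)) * rf Q (a (2 * k))) * rr Q a (2 * k) := by
      have : 2 * (k + 1) = 2 * k + 1 + 1 := by ring
      rw [this]
      simp only [rr]
      group
    rw [h1]
    refine Subgroup.mul_mem _ ?_ (ih (by omega))
    have hu : Q (a (2 * k + 1)) = 1 := h.one _ (by omega)
    have hw : Q (a (2 * k)) = 1 := h.one _ (by omega)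
    have hu0 : Q (a (2 * k + 1)) ≠ 0 := by rw [hu]; exact one_ne_zero
    have hw0 : Q (a (2 * k)) ≠ 0 := by rw [hw]; exact one_ne_zero
    rw [rf_eq hu0, rf_eq hw0, ← ofAb_eq_one_iff]
    have h3 : ofAb (refl Q _ hu0) = ofAb (refl Q _ hw0) := ofAb_refl_of_eq h2 hu0 hw0 (t := 1) (by rw [hu, hw]; ring)
    change Abelianization.of _ = 1
    rw [map_mul]
    change ofAb (refl Q _ hu0) * ofAb (refl Q _ hw0) = 1
    rw [h3]
    change Abelianization.of _ * Abelianization.of _ = 1
    rw [← map_mul, refl_mul_self, map_one]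

/-- `m` pairwise non-conjugate involutions in Ω. -/
theorem omega_inv (h2 : (2 : F) ≠ 0) (hQ : (P Q).Nondegenerate) (m : ℕ) (hn : 2 * m + 1 ≤ Module.finrank F V) :
    ∃ t : Fin m → commutator (OG Q), (∀ i, orderOf (t i) = 2) ∧ ∀ i j, IsConj (t i) (t j) → i = j := by
  classical
  obtain ⟨a, ha⟩ := exists_onf h2 hQ (2 * m) hn
  haveI : Fact (Nat.Prime 2) := ⟨Nat.prime_two⟩
  have hle : ∀ i : Fin m, 2 * ((i : ℕ) + 1) ≤ 2 * m := fun i => by have := i.2; omega
  refine ⟨fun i => ⟨rr Q a (2 * ((i : ℕ) + 1)), ha.rr_mem h2 _ (hle i)⟩, ?_, ?_⟩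
  · intro i
    apply orderOf_eq_prime
    · rw [pow_two]
      apply Subtype.ext
      exact ha.rr_sq h2 (hle i)
    · intro hc
      exact ha.rr_ne_one h2 (hle i) (by omega) (congrArg Subtype.val hc)
  · intro i j hij
    have h1 := MonoidHom.map_isConj (commutator (OG Q)).subtype hij
    obtain ⟨c, hc⟩ := isConj_iff.mp h1
    have h3 := finrank_FixS_conj c (rr Q a (2 * ((i : ℕ) + 1)))
    change Module.finrank F (FixS (c * rr Q a _ * c⁻¹)) = _ at h3
    simp only [Subgroup.subtype_apply] at hc
    rw [hc, ha.finrank_fix h2 hQ (hle i), ha.finrank_fix h2 hQ (hle j)] at h3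
    have := hle i
    have := hle j
    apply Fin.ext
    omega

end comm

end abstract

section concrete

variable {ι : Type} [Fintype ι] [DecidableEq ι] {F : Type*} [Field F] [Fintype F]

/-- The projective group is Ω itself in odd dimension. -/
theorem pomega_equiv (Q : QuadraticForm F (ι → F)) (h2 : (2 : F) ≠ 0) (hQ : (P Q).Nondegenerate)
    (hodd : Odd (Fintype.card ι)) (hn : 4 ≤ Fintype.card ι) : Nonempty (Cfsg.POmega F (⇑Q) ≃* commutator (OG Q)) := by
  classical
  have hfr : 4 ≤ Module.finrank F (ι → F) := by simpa using hn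
  have hc : Subgroup.center (commutator (OG Q)) = ⊥ := by
    rw [eq_bot_iff]
    intro g hg
    rw [Subgroup.mem_bot]
    have h1 := center_odd h2 hQ hfr g.1 (fun h hh => by
      have := Subgroup.mem_center_iff.mp hg ⟨h, hh⟩
      exact congrArg Subtype.val this.symm)
    rcases h1 with h1 | h1
    · exact Subtype.ext h1
    · exfalso
      apply negOG_not_mem_of_odd Q h2 hQ hodd
      have : g.1 = negOG Q := OG_ext fun x => by rw [h1, negOG_apply]
      rw [← this]
      exact g.2
  have hc' : Subgroup.center (Cfsg.Omega F (⇑Q)) = ⊥ := by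
    rw [eq_bot_iff]
    intro g hg
    rw [Subgroup.mem_bot]
    have h3 : omegaEquiv Q g ∈ Subgroup.center (commutator (OG Q)) := by
      rw [Subgroup.mem_center_iff] at hg ⊢
      intro h
      obtain ⟨y, rfl⟩ := (omegaEquiv Q).surjective h
      rw [← map_mul, ← map_mul, hg y]
    rw [hc, Subgroup.mem_bot] at h3
    exact (map_eq_one_iff _ (omegaEquiv Q).injective).mp h3
  exact ⟨((QuotientGroup.quotientMulEquivOfEq hc').trans QuotientGroup.quotientBot).trans (omegaEquiv Q)⟩

end concrete

end Cfsg.Agent.Lib.Classical.Orth
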