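import Mathlib
import Cfsg.Agent.Lib.Classical.OrthAb
import Cfsg.Agent.Lib.Known3.Spinor

/-!
# Reflections with norm in a fixed square class generate a subgroup of index two
-/

set_option autoImplicit false
set_option linter.unusedSectionVars false

open Module

namespace Cfsg.Agent.Lib.Classical.OrthRc

open Cfsg.Agent.Lib.Classical.Witt Cfsg.Agent.Lib.Classical.Abs Cfsg.Agent.Lib.Classical
open Cfsg.Agent.Lib.Classical.Orth

local notation "P" => QuadraticMap.polarBilin

variable {F V : Type*} [Field F] [AddCommGroup V] [Module F V] {Q : QuadraticForm F V}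

/-- The subgroup generated by the reflections whose norm is in the class of `c`. -/
def Rc (Q : QuadraticForm F V) (c : F) : Subgroup (OG Q) :=
  Subgroup.closure {g | ∃ (v : V) (hv : Q v ≠ 0) (t : F), t ≠ 0 ∧ Q v = c * t ^ 2 ∧ g = refl Q v hv}

lemma refl_mem_Rc {c : F} {v : V} (hv : Q v ≠ 0) {t : F} (ht : t ≠ 0) (h : Q v = c * t ^ 2) :
    refl Q v hv ∈ Rc Q c :=
  Subgroup.subset_closure ⟨v, hv, t, ht, h, rfl⟩

instance Rc_normal (c : F) : (Rc Q c).Normal := by
  refine ⟨fun x hx g => ?_⟩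
  induction hx using Subgroup.closure_induction with
  | mem x hx =>
    obtain ⟨v, hv, t, ht, hvt, rfl⟩ := hx
    have hgv : Q (g.1 v) ≠ 0 := by rwa [OG_pres]
    rw [refl_conj g hv hgv]
    exact refl_mem_Rc hgv ht (by rw [OG_pres, hvt])
  | one => simp [Subgroup.one_mem]
  | mul x y _ _ h1 h2 =>
    have : g * (x * y) * g⁻¹ = (g * x * g⁻¹) * (g * y * g⁻¹) := by group
    rw [this]
    exact Subgroup.mul_mem _ h1 h2
  | inv x _ h =>
    have : g * x⁻¹ * g⁻¹ = (g * x * g⁻¹)⁻¹ := by group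
    rw [this]
    exact Subgroup.inv_mem _ h

/-- The product of three reflections with vectors in a plane. -/
lemma refl_three {μ α β : F} {w w' : V} (hμ : μ ≠ 0) (hw : Q w = μ) (hw' : Q w' = μ)
    (hwn : Q w ≠ 0) (hwn' : Q w' ≠ 0) {x d : V} (hxd : x = α • w + β • w')
    (hdd : d = (α * μ + β * (P Q w w')) • w' - (β * μ) • w) (hx : Q x ≠ 0) (hd : Q d ≠ 0) :
    refl Q x hx * (refl Q w hwn * refl Q w' hwn') = refl Q d hd := by
  set B := P Q w w' with hB
  have hB' : P Q w' w = B := pol_comm Q _ _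
  have hQx : Q x = α ^ 2 * μ + α * β * B + β ^ 2 * μ := by
    rw [hxd, Q_add, Q_smul, Q_smul, hw, hw', map_smul, map_smul, LinearMap.smul_apply, ← hB]
    simp only [smul_eq_mul]
    ring
  have hQd : Q d = μ ^ 2 * (α ^ 2 * μ + α * β * B + β ^ 2 * μ) := by
    rw [hdd, Q_sub, Q_smul, Q_smul, hw, hw', map_smul, map_smul, LinearMap.smul_apply, hB']
    simp only [smul_eq_mul]
    ring
  have hx' : α ^ 2 * μ + α * β * B + β ^ 2 * μ ≠ 0 := by rwa [← hQx]
  apply OG_ext
  intro y
  rw [mul_apply', mul_apply', refl_apply, refl_apply, refl_apply, refl_apply, hw, hw']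
  obtain ⟨D, hDdef⟩ : ∃ D, D = α ^ 2 * μ + α * β * B + β ^ 2 * μ := ⟨_, rfl⟩
  rw [← hDdef] at hx' hQx hQd
  set f := P Q w y with hf
  set g := P Q w' y with hg
  set a := μ⁻¹ * g with ha
  have e2 : P Q w (y - a • w') = f - a * B := by
    rw [map_sub, map_smul, ← hf, ← hB]
    simp only [smul_eq_mul]
  rw [e2]
  set b := μ⁻¹ * (f - a * B) with hb
  have e3 : P Q x (y - a • w' - b • w) = α * (f - a * B - b * (2 * μ)) + β * (g - a * (2 * μ) - b * B) := by
    rw [hxd]
    simp only [map_add, map_sub, map_smul, LinearMap.add_apply, LinearMap.sub_apply, LinearMap.smul_apply,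
      smul_eq_mul, pol_self, hw, hw', hB', ← hf, ← hg, ← hB]
    ring
  rw [e3, hQx]
  set h := D⁻¹ * (α * (f - a * B - b * (2 * μ)) + β * (g - a * (2 * μ) - b * B)) with hh
  have e4 : P Q d y = (α * μ + β * B) * g - (β * μ) * f := by
    rw [hdd, map_sub, LinearMap.sub_apply, map_smul, map_smul, LinearMap.smul_apply, LinearMap.smul_apply]
    simp only [smul_eq_mul]
    rfl
  rw [e4, hQd]
  set k := (μ ^ 2 * D)⁻¹ * ((α * μ + β * B) * g - β * μ * f) with hk
  have eA : b + h * α = - (k * (β * μ)) := by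
    rw [hh, hk, hb, ha]
    field_simp
    rw [hDdef]
    ring
  have eC : a + h * β = k * (α * μ + β * B) := by
    rw [hh, hk, hb, ha]
    field_simp
    rw [hDdef]
    ring
  rw [hxd, hdd]
  have e5 : y - a • w' - b • w - h • (α • w + β • w') = y - (b + h * α) • w - (a + h * β) • w' := by
    (module)
  rw [e5, eA, eC]
  (module)

section finite

variable [Fintype F]

lemma card_odd (h2 : (2 : F) ≠ 0) : Fintype.card F % 2 = 1 := by
  by_contra h
  have h3 : Fintype.card F % 2 = 0 := by omega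
  have := FiniteField.even_card_iff_char_two.mpr h3
  apply h2
  have h4 := ringChar.Nat.cast_ringChar (R := F)
  rw [this] at h4
  exact_mod_cast h4

/-- Solve the diagonal binary equation. -/
lemma exists_binary (h2 : (2 : F) ≠ 0) {D : F} (hD : D ≠ 0) (e : F) : ∃ a b : F, a ^ 2 + D * b ^ 2 = e := by
  classical
  open Polynomial in
  obtain ⟨a, b, hab⟩ := FiniteField.exists_root_sum_quadratic
    (f := (X : F[X]) ^ 2) (g := C D * X ^ 2 - C e)
    (by simp)
    (by
      rw [degree_sub_C]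
      · rw [degree_C_mul_X_pow 2 hD]; rfl
      · rw [degree_C_mul_X_pow 2 hD]; norm_num)
    (card_odd h2)
  refine ⟨a, b, ?_⟩
  simp only [Polynomial.eval_mul, Polynomial.eval_C, Polynomial.eval_pow, Polynomial.eval_X,
    Polynomial.eval_sub] at hab
  linear_combination hab

/-- The nondegenerate plane case. -/
theorem refl_mul_mem_of_plane (h2 : (2 : F) ≠ 0) {c μ : F} (hc : c ≠ 0) (hμ : μ ≠ 0) {w w' : V}
    (hw : Q w = μ) (hw' : Q w' = μ) (hwn : Q w ≠ 0) (hwn' : Q w' ≠ 0)
    (hD : (P Q w w') ^ 2 ≠ 4 * μ ^ 2) : refl Q w hwn * refl Q w' hwn' ∈ Rc Q c := by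
  set B := P Q w w' with hB
  have hB' : P Q w' w = B := pol_comm Q _ _
  have hD' : 4 * μ ^ 2 - B ^ 2 ≠ 0 := fun h => hD (sub_eq_zero.mp h).symm
  obtain ⟨a, b, hab⟩ := exists_binary h2 hD' (4 * μ * c)
  have h2μ : 2 * μ ≠ 0 := mul_ne_zero h2 hμ
  set α := (2 * μ)⁻¹ * (a - B * b) with hα
  set β := b with hβ
  have hQx : Q (α • w + β • w') = c := by
    rw [Q_add, Q_smul, Q_smul, hw, hw', map_smul, map_smul, LinearMap.smul_apply, ← hB]
    simp only [smul_eq_mul]
    have h4 : (4 : F) * μ ≠ 0 := by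
      have : (4 : F) = 2 * 2 := by norm_num
      rw [this]
      exact mul_ne_zero (mul_ne_zero h2 h2) hμ
    apply mul_left_cancel₀ h4
    rw [← hab, hα]
    field_simp
    ring
  set d := (α * μ + β * B) • w' - (β * μ) • w with hd
  have hQd : Q d = μ ^ 2 * c := by
    rw [hd, Q_sub, Q_smul, Q_smul, hw, hw', map_smul, map_smul, LinearMap.smul_apply, hB']
    rw [Q_add, Q_smul, Q_smul, hw, hw', map_smul, map_smul, LinearMap.smul_apply, ← hB] at hQx
    simp only [smul_eq_mul] at hQx ⊢
    rw [← hQx]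
    ring
  have hxn : Q (α • w + β • w') ≠ 0 := by rwa [hQx]
  have hdn : Q d ≠ 0 := by
    rw [hQd]
    exact mul_ne_zero (pow_ne_zero 2 hμ) hc
  have h3 := refl_three hμ hw hw' hwn hwn' rfl hd hxn hdn
  have h4 : refl Q w hwn * refl Q w' hwn' = refl Q _ hxn * refl Q d hdn := by
    rw [← h3, ← mul_assoc, refl_mul_self, one_mul]
  rw [h4]
  apply Subgroup.mul_mem
  · exact refl_mem_Rc hxn one_ne_zero (by rw [hQx]; ring)
  · exact refl_mem_Rc hdn hμ (by rw [hQd]; ring)

/-- Bilinear helper. -/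
lemma four_sq (μ γ : F) : (2 * μ) ^ 2 = 4 * μ ^ 2 := by ring

variable [FiniteDimensional F V]

/-- A hyperbolic partner orthogonal to `w`. -/
lemma exists_partner' (h2 : (2 : F) ≠ 0) (hQ : (P Q).Nondegenerate) {μ : F} (hμ : μ ≠ 0) {w u : V}
    (hw : Q w = μ) (hu0 : u ≠ 0) (hu : Q u = 0) (huw : P Q w u = 0) :
    ∃ u' : V, Q u' = 0 ∧ P Q u u' = 1 ∧ P Q w u' = 0 := by
  obtain ⟨y₀, hy₀⟩ : ∃ y₀, P Q u y₀ ≠ 0 := by
    by_contra h
    push Not at h
    exact hu0 (hQ.1 u h)
  have h2μ : 2 * μ ≠ 0 := mul_ne_zero h2 hμ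
  set y := y₀ - ((2 * μ)⁻¹ * P Q w y₀) • w with hy
  have hyw : P Q w y = 0 := by
    rw [hy, map_sub, map_smul, pol_self, hw]
    simp only [smul_eq_mul]
    field_simp
    ring
  have huw' : P Q u w = 0 := by rw [pol_comm]; exact huw
  have huy : P Q u y = P Q u y₀ := by
    rw [hy, map_sub, map_smul, huw']
    simp
  have hne : P Q u y ≠ 0 := by rwa [huy]
  obtain ⟨y₁, huy₁, hwy₁⟩ : ∃ y₁, P Q u y₁ = 1 ∧ P Q w y₁ = 0 := by
    refine ⟨(P Q u y)⁻¹ • y, ?_, ?_⟩
    · rw [map_smul, smul_eq_mul]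
      exact inv_mul_cancel₀ hne
    · rw [map_smul, hyw, smul_zero]
  have huu : P Q u u = 0 := by
    rw [pol_self, hu, mul_zero]
  refine ⟨y₁ - (Q y₁) • u, ?_, ?_, ?_⟩
  · rw [Q_sub, Q_smul, hu, map_smul, pol_comm Q y₁ u, huy₁]
    simp
  · rw [map_sub, map_smul, huu, huy₁]
    simp
  · rw [map_sub, map_smul, hwy₁, huw]
    simp

/-- A third vector for the degenerate planes. -/
theorem exists_third (h2 : (2 : F) ≠ 0) (hQ : (P Q).Nondegenerate) {μ : F} (hμ : μ ≠ 0) {w w' : V}
    (hw : Q w = μ) (hw' : Q w' = μ) (hB : P Q w w' = 2 * μ) (hne : w ≠ w')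
    (hdim : Fintype.card F = 3 → 5 ≤ finrank F V ∨ finrank F V ≤ 2) :
    ∃ z : V, Q z = μ ∧ (P Q w z) ^ 2 ≠ 4 * μ ^ 2 ∧ (P Q z w') ^ 2 ≠ 4 * μ ^ 2 := by
  classical
  set u := w' - w with hu
  have hw'eq : w' = w + u := by rw [hu]; abel
  have hu0 : u ≠ 0 := fun h => hne (sub_eq_zero.mp h).symm
  have hB' : P Q w' w = 2 * μ := by rw [pol_comm]; exact hB
  have hQu : Q u = 0 := by
    rw [hu, Q_sub, hw, hw', hB']
    ring
  have huw : P Q w u = 0 := by
    rw [hu, map_sub, hB, pol_self, hw, sub_self]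
  have huw' : P Q u w = 0 := by rw [pol_comm]; exact huw
  obtain ⟨u', h1, h3, h4⟩ := exists_partner' h2 hQ hμ hw hu0 hQu huw
  have h4μ : 4 * μ ^ 2 ≠ 0 := by
    have : (4 : F) = 2 * 2 := by norm_num
    rw [this]
    exact mul_ne_zero (mul_ne_zero h2 h2) (pow_ne_zero 2 hμ)
  have huwu : ∀ z, P Q z w' = P Q z w + P Q z u := by
    intro z
    rw [hw'eq, map_add]
  by_cases hq : Fintype.card F = 3
  · -- q = 3 : use the orthogonal complement
    have hindep : 3 ≤ finrank F V := by
      have hli : LinearIndependent F ![w, u, u'] := by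
        rw [Fintype.linearIndependent_iff]
        intro g hg i
        simp only [Fin.sum_univ_three, Matrix.cons_val_zero, Matrix.cons_val_one, Matrix.cons_val_two,
          Matrix.head_cons, Matrix.tail_cons, Matrix.cons_val] at hg
        have e1 := congrArg (P Q u) hg
        have e2 := congrArg (P Q u') hg
        have e3 := congrArg (P Q w) hg
        simp only [map_add, map_smul, map_zero, smul_eq_mul, pol_self, hQu, h1, hw, h3, h4, huw, huw'] at e1 e2 e3
        rw [pol_comm Q u' w, h4, pol_comm Q u' u, h3] at e2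
        simp only [mul_zero, mul_one, zero_add, add_zero] at e1 e2 e3
        have g2 : g 2 = 0 := e1
        have g1 : g 1 = 0 := e2
        have g0 : g 0 = 0 := by
          have := e3
          exact (mul_eq_zero.mp this).resolve_right (mul_ne_zero h2 hμ)
        fin_cases i
        · exact g0
        · exact g1
        · exact g2
      have := hli.fintype_card_le_finrank
      simpa using this
    have hn5 : 5 ≤ finrank F V := by
      rcases hdim hq with h | h
      · exact h
      · omega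
    set S : Submodule F V := Submodule.span F (Set.range ![w, u, u']) with hS
    have hSle : finrank F S ≤ 3 := by
      have := finrank_range_le_card (R := F) ![w, u, u']
      simpa [Set.finrank] using this
    set W : Submodule F V := LinearMap.BilinForm.orthogonal (P Q) S with hW
    have hfr : finrank F W = finrank F V - finrank F S :=
      LinearMap.BilinForm.finrank_orthogonal hQ S
    have hmemW : ∀ x, x ∈ W ↔ P Q w x = 0 ∧ P Q u x = 0 ∧ P Q u' x = 0 := by
      intro x
      rw [hW, mem_orth]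
      constructor
      · intro h
        exact ⟨h w (Submodule.subset_span ⟨0, rfl⟩), h u (Submodule.subset_span ⟨1, rfl⟩),
          h u' (Submodule.subset_span ⟨2, rfl⟩)⟩
      · rintro ⟨a1, a2, a3⟩ s hs
        obtain ⟨g, rfl⟩ := (Submodule.mem_span_range_iff_exists_fun F).mp hs
        simp only [Fin.sum_univ_three, Matrix.cons_val_zero, Matrix.cons_val_one, Matrix.cons_val_two,
          Matrix.head_cons, Matrix.tail_cons, Matrix.cons_val, map_add, map_smul, LinearMap.add_apply,
          LinearMap.smul_apply, a1, a2, a3, smul_zero, add_zero]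
    let Q' : QuadraticForm F W := Q.comp W.subtype
    have hP' : ∀ a b : W, P Q' a b = P Q a.1 b.1 := fun a b => by
      simp [Q', QuadraticMap.polar, QuadraticMap.polarBilin_apply_apply]
    have hsep : ∀ a : W, (∀ b : W, P Q' a b = 0) → a = 0 := by
      intro a ha
      have h5 : a.1 ∈ LinearMap.BilinForm.orthogonal (P Q) W := by
        rw [mem_orth]
        intro b hb
        rw [pol_comm]
        have := ha ⟨b, hb⟩
        rwa [hP'] at this
      have h5' : a.1 ∈ LinearMap.BilinForm.orthogonal (P Q) (LinearMap.BilinForm.orthogonal (P Q) S) := h5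
      rw [LinearMap.BilinForm.orthogonal_orthogonal hQ P_refl S] at h5'
      obtain ⟨g, hg⟩ := (Submodule.mem_span_range_iff_exists_fun F).mp h5'
      simp only [Fin.sum_univ_three, Matrix.cons_val_zero, Matrix.cons_val_one, Matrix.cons_val_two,
        Matrix.head_cons, Matrix.tail_cons, Matrix.cons_val] at hg
      obtain ⟨a1, a2, a3⟩ := (hmemW a.1).mp a.2
      rw [← hg] at a1 a2 a3
      simp only [map_add, map_smul, smul_eq_mul, pol_self, hQu, h1, hw, h3, h4, huw, huw'] at a1 a2 a3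
      rw [pol_comm Q u' w, h4, pol_comm Q u' u, h3] at a3
      simp only [mul_zero, mul_one, zero_add, add_zero] at a1 a2 a3
      apply Subtype.ext
      rw [← hg, a2, a3]
      have g0 : g 0 = 0 := (mul_eq_zero.mp a1).resolve_right (mul_ne_zero h2 hμ)
      rw [g0]
      simp
    have hQ' : (P Q').Nondegenerate := by
      refine ⟨hsep, ?_⟩
      intro a ha
      apply hsep
      intro b
      rw [hP', pol_comm, ← hP']
      exact ha b
    have hfr2 : 2 ≤ finrank F W := by omega
    haveI : Finite V := Module.finite_of_finite F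
    obtain ⟨v, hv⟩ := exists_Q_eq h2 hQ' hfr2 μ
    have hv' : Q v.1 = μ := hv
    obtain ⟨a1, a2, a3⟩ := (hmemW v.1).mp v.2
    refine ⟨v.1, hv', ?_, ?_⟩
    · rw [a1, zero_pow two_ne_zero]
      exact h4μ.symm
    · rw [huwu, pol_comm Q v.1 w, pol_comm Q v.1 u, a1, a2, add_zero, zero_pow two_ne_zero]
      exact h4μ.symm
  · -- q ≥ 5 : a hyperbolic pair
    obtain ⟨γ, hγ⟩ : ∃ γ : F, γ ∉ ({0, 2 * μ, -(2 * μ)} : Finset F) := by
      by_contra h
      push Not at h
      have h5 : (Finset.univ : Finset F) ⊆ {0, 2 * μ, -(2 * μ)} := fun x _ => h x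
      have h6 := Finset.card_le_card h5
      have h7 : ({0, 2 * μ, -(2 * μ)} : Finset F).card ≤ 3 := Finset.card_le_three
      rw [Finset.card_univ] at h6
      have h8 : 1 < Fintype.card F := Fintype.one_lt_card
      have h9 := card_odd h2
      have h10 : Fintype.card F = 3 := by omega
      exact hq h10
    simp only [Finset.mem_insert, Finset.mem_singleton, not_or] at hγ
    obtain ⟨hγ0, hγ1, hγ2⟩ := hγ
    refine ⟨γ • u' + (μ / γ) • u, ?_, ?_, ?_⟩
    · rw [Q_add, Q_smul, Q_smul, h1, hQu, map_smul, map_smul, LinearMap.smul_apply, pol_comm Q u' u, h3]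
      simp only [smul_eq_mul]
      field_simp
      ring
    · rw [map_add, map_smul, map_smul, h4, huw]
      simp only [smul_zero, add_zero]
      rw [zero_pow two_ne_zero]
      exact h4μ.symm
    · have e1 : P Q (γ • u' + (μ / γ) • u) w' = γ := by
        rw [huwu]
        simp only [map_add, LinearMap.add_apply, map_smul, LinearMap.smul_apply, smul_eq_mul]
        rw [pol_comm Q u' w, h4, pol_comm Q u w, huw, pol_comm Q u' u, h3, pol_self, hQu]
        field_simp
        ring
      rw [e1]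
      intro h
      have : (γ - 2 * μ) * (γ + 2 * μ) = 0 := by linear_combination h
      rcases mul_eq_zero.mp this with h5 | h5
      · exact hγ1 (sub_eq_zero.mp h5)
      · exact hγ2 (eq_neg_of_add_eq_zero_left h5)

/-- Products of two reflections in vectors of the same norm lie in `Rc`. -/
theorem refl_mul_mem (h2 : (2 : F) ≠ 0) (hQ : (P Q).Nondegenerate) {c μ : F} (hc : c ≠ 0) (hμ : μ ≠ 0)
    {w w' : V} (hw : Q w = μ) (hw' : Q w' = μ) (hwn : Q w ≠ 0) (hwn' : Q w' ≠ 0)
    (hdim : Fintype.card F = 3 → 5 ≤ finrank F V ∨ finrank F V ≤ 2) :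
    refl Q w hwn * refl Q w' hwn' ∈ Rc Q c := by
  by_cases hD : (P Q w w') ^ 2 = 4 * μ ^ 2
  swap
  · exact refl_mul_mem_of_plane h2 hc hμ hw hw' hwn hwn' hD
  have main : ∀ (w'' : V) (hw'' : Q w'' = μ) (hn : Q w'' ≠ 0), P Q w w'' = 2 * μ →
      refl Q w hwn * refl Q w'' hn ∈ Rc Q c := by
    intro w'' hw'' hn hB
    by_cases hne : w = w''
    · subst hne
      rw [refl_mul_self]
      exact Subgroup.one_mem _
    obtain ⟨z, hz, h3, h4⟩ := exists_third h2 hQ hμ hw hw'' hB hne hdim
    have hzn : Q z ≠ 0 := by rwa [hz]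
    have e : refl Q w hwn * refl Q w'' hn =
        (refl Q w hwn * refl Q z hzn) * (refl Q z hzn * refl Q w'' hn) := by
      rw [mul_assoc, ← mul_assoc (refl Q z hzn), refl_mul_self, one_mul]
    rw [e]
    apply Subgroup.mul_mem
    · exact refl_mul_mem_of_plane h2 hc hμ hw hz hwn hzn h3
    · exact refl_mul_mem_of_plane h2 hc hμ hz hw'' hzn hn h4
  have hcase : P Q w w' = 2 * μ ∨ P Q w w' = -(2 * μ) := by
    have : (P Q w w' - 2 * μ) * (P Q w w' + 2 * μ) = 0 := by linear_combination hD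
    rcases mul_eq_zero.mp this with h | h
    · exact Or.inl (sub_eq_zero.mp h)
    · exact Or.inr (eq_neg_of_add_eq_zero_left h)
  rcases hcase with h | h
  · exact main w' hw' hwn' h
  · have hneg1 : (-1 : F) ≠ 0 := neg_ne_zero.mpr one_ne_zero
    have hQn : Q ((-1 : F) • w') = μ := by
      rw [Q_smul, hw']
      ring
    have hQn' : Q ((-1 : F) • w') ≠ 0 := by rwa [hQn]
    have e := refl_smul hwn' hneg1 hQn'
    rw [← e]
    apply main _ hQn
    rw [map_smul, h]
    simp

/-- The main theorem: the index is two. -/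
theorem index_Rc [Fintype V] (h2 : (2 : F) ≠ 0) (hQ : (P Q).Nondegenerate) (hn : 2 ≤ finrank F V)
    (hdim : Fintype.card F = 3 → 5 ≤ finrank F V ∨ finrank F V ≤ 2) {c : F} (hc : c ≠ 0) :
    (Rc Q c).index = 2 := by
  classical
  obtain ⟨ν, hν⟩ := exists_nonsquare (F := F) h2
  have hν0 : ν ≠ 0 := by
    rintro rfl
    exact hν ⟨0, by simp⟩
  have hμ : c * ν ≠ 0 := mul_ne_zero hc hν0
  obtain ⟨w₀, hw₀⟩ := exists_Q_eq h2 hQ hn (c * ν)
  have hw₀n : Q w₀ ≠ 0 := by rwa [hw₀]
  set r₀ := refl Q w₀ hw₀n with hr₀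
  set ψ := Cfsg.Agent.Lib.Known3.Spinor.sgn Q (c * ν) with hψ
  have hker : ∀ x ∈ Rc Q c, ψ x = 1 := by
    have : Rc Q c ≤ ψ.ker := by
      rw [Rc, Subgroup.closure_le]
      rintro g ⟨v, hv, t, ht, hvt, rfl⟩
      change ψ (refl Q v hv) = 1
      rw [hψ, Cfsg.Agent.Lib.Known3.Spinor.sgn_refl h2 _ hμ hv, if_neg]
      intro hs
      apply hν
      obtain ⟨s, hs⟩ := hs
      refine ⟨s * t, ?_⟩
      rw [hvt] at hs
      have e1 : c * ν / (c * t ^ 2) = ν / t ^ 2 := by
        field_simp
      rw [e1] at hs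
      have ht2 : t ^ 2 ≠ 0 := pow_ne_zero 2 ht
      field_simp at hs
      rw [hs]
      ring
    exact fun x hx => this hx
  have hψr₀ : ψ r₀ = -1 := by
    rw [hψ, hr₀, Cfsg.Agent.Lib.Known3.Spinor.sgn_refl h2 _ hμ hw₀n, if_pos]
    rw [hw₀, div_self hμ]
    exact IsSquare.one
  have hnorm := Rc_normal (Q := Q) c
  have hrr : r₀ * r₀ = 1 := refl_mul_self _
  have hgen : ∀ (v : V) (hv : Q v ≠ 0), refl Q v hv ∈ Rc Q c ∨ refl Q v hv * r₀ ∈ Rc Q c := by
    intro v hv
    by_cases hs : ∃ t : F, t ≠ 0 ∧ Q v = c * t ^ 2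
    · obtain ⟨t, ht, hvt⟩ := hs
      exact Or.inl (refl_mem_Rc hv ht hvt)
    · right
      have hρ : ¬ IsSquare (Q v / c) := by
        rintro ⟨t, ht⟩
        apply hs
        refine ⟨t, ?_, ?_⟩
        · rintro rfl
          rw [mul_zero] at ht
          exact (div_ne_zero hv hc) ht
        · field_simp at ht
          rw [ht]
      obtain ⟨s, hs'⟩ := isSquare_mul_of_not (ringChar_ne_two h2) hρ hν
      have hρ0 : Q v / c ≠ 0 := div_ne_zero hv hc
      have hs0 : s ≠ 0 := by
        rintro rfl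
        rw [mul_zero] at hs'
        exact (mul_ne_zero hρ0 hν0) hs'
      set τ := s / (Q v / c) with hτ
      have hτ0 : τ ≠ 0 := div_ne_zero hs0 hρ0
      have hQτ : Q (τ • v) = c * ν := by
        rw [Q_smul]
        calc τ * τ * Q v = (s * s) / (Q v / c) ^ 2 * ((Q v / c) * c) := by
              rw [hτ]
              field_simp
          _ = ((Q v / c) * ν) / (Q v / c) ^ 2 * ((Q v / c) * c) := by rw [hs']
          _ = c * ν := by field_simp
      have hQτn : Q (τ • v) ≠ 0 := by rwa [hQτ]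
      have e := refl_smul hv hτ0 hQτn
      rw [← e]
      exact refl_mul_mem h2 hQ hc hμ hQτ hw₀ hQτn hw₀n hdim
  have hall : ∀ b : OG Q, b ∈ Rc Q c ∨ b * r₀ ∈ Rc Q c := by
    intro b
    have hb : b ∈ Rf Q := by
      rw [Rf_eq_top_odd h2 hQ]
      exact Subgroup.mem_top b
    induction hb using Subgroup.closure_induction with
    | mem x hx =>
      obtain ⟨v, hv, rfl⟩ := hx
      exact hgen v hv
    | one => exact Or.inl (Subgroup.one_mem _)
    | mul x y _ _ hx hy =>
      rcases hx with hx | hx <;> rcases hy with hy | hy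
      · exact Or.inl (Subgroup.mul_mem _ hx hy)
      · right
        rw [mul_assoc]
        exact Subgroup.mul_mem _ hx hy
      · right
        have e : x * y * r₀ = (x * r₀) * (r₀ * y * r₀⁻¹) := by
          have : r₀⁻¹ = r₀ := refl_inv _
          rw [this]
          calc x * y * r₀ = x * (r₀ * r₀) * y * r₀ := by rw [hrr, mul_one]
            _ = _ := by group
        rw [e]
        exact Subgroup.mul_mem _ hx (hnorm.conj_mem y hy r₀)
      · left
        have e : x * y = (x * r₀) * (r₀ * (y * r₀) * r₀⁻¹) := by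
          have : r₀⁻¹ = r₀ := refl_inv _
          rw [this]
          calc x * y = x * (r₀ * r₀) * y * (r₀ * r₀) := by rw [hrr, mul_one, mul_one]
            _ = _ := by group
        rw [e]
        exact Subgroup.mul_mem _ hx (hnorm.conj_mem _ hy r₀)
    | inv x _ hx =>
      rcases hx with hx | hx
      · exact Or.inl (Subgroup.inv_mem _ hx)
      · right
        have e : x⁻¹ * r₀ = r₀ * (x * r₀)⁻¹ * r₀⁻¹ := by
          have h5 : r₀⁻¹ = r₀ := refl_inv _
          have h6 : r₀ * (x * r₀)⁻¹ * r₀⁻¹ = x⁻¹ * r₀⁻¹ := by group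
          rw [h6, h5]
        rw [e]
        exact hnorm.conj_mem _ (Subgroup.inv_mem _ hx) r₀
  rw [Subgroup.index_eq_two_iff]
  refine ⟨r₀, fun b => ?_⟩
  by_cases hb : b ∈ Rc Q c
  · right
    refine ⟨hb, ?_⟩
    intro hbr
    have h3 := hker _ hbr
    rw [map_mul, hker b hb, hψr₀] at h3
    exact absurd h3 (by decide)
  · left
    exact ⟨(hall b).resolve_left hb, hb⟩

end finite

end Cfsg.Agent.Lib.Classical.OrthRc
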