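/-
`GL_2` acting on the projective line: frames of three points.
-/
import Mathlib
import Cfsg.Agent.Lib.Classical.SL2Sylow

set_option autoImplicit false
set_option linter.unusedSectionVars false

open Matrix
open scoped MatrixGroups LinearAlgebra.Projectivization Pointwise

namespace Cfsg.Agent.Lib.Classical.PGL2

variable {F : Type*} [Field F]

/-- The point spanned by `e_0 + e_1`. -/
noncomputable def p2 : ℙ F (Fin 2 → F) :=
  Projectivization.mk F ![1, 1] (by
    intro h
    have := congrFun h 0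
    simp at this)

noncomputable def q0 : ℙ F (Fin 2 → F) :=
  Projectivization.mk F ![1, 0] (by
    intro h
    have := congrFun h 0
    simp at this)

noncomputable def q1 : ℙ F (Fin 2 → F) :=
  Projectivization.mk F ![0, 1] (by
    intro h
    have := congrFun h 1
    simp at this)

lemma gl_smul_vec (g : GL (Fin 2) F) (v : Fin 2 → F) : g • v = (g : Matrix (Fin 2) (Fin 2) F) *ᵥ v := rfl

/-- A matrix fixing the three standard points is scalar. -/
lemma fix_std (g : GL (Fin 2) F) (h0 : g • (q0 : ℙ F (Fin 2 → F)) = q0) (h1 : g • (q1 : ℙ F (Fin 2 → F)) = q1)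
    (h2 : g • (p2 : ℙ F (Fin 2 → F)) = p2) :
    ∃ α : F, (g : Matrix (Fin 2) (Fin 2) F) = α • (1 : Matrix (Fin 2) (Fin 2) F) := by
  rw [q0, Projectivization.smul_mk, Projectivization.mk_eq_mk_iff'] at h0
  rw [q1, Projectivization.smul_mk, Projectivization.mk_eq_mk_iff'] at h1
  rw [p2, Projectivization.smul_mk, Projectivization.mk_eq_mk_iff'] at h2
  obtain ⟨a, ha⟩ := h0
  obtain ⟨b, hb⟩ := h1
  obtain ⟨c, hc⟩ := h2
  rw [gl_smul_vec] at ha hb hc
  have a0 := congrFun ha 0
  have a1 := congrFun ha 1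
  have b0 := congrFun hb 0
  have b1 := congrFun hb 1
  have c0 := congrFun hc 0
  have c1 := congrFun hc 1
  simp [Matrix.mulVec, dotProduct, Fin.sum_univ_two] at a0 a1 b0 b1 c0 c1
  refine ⟨a, ?_⟩
  ext i j
  fin_cases i <;> fin_cases j <;> simp
  · exact a0.symm
  · exact b0.symm
  · exact a1.symm
  · rw [← b1]
    grind

/-- Three distinct points are the image of the standard frame. -/
lemma frame (a b c : ℙ F (Fin 2 → F)) (hab : a ≠ b) (hac : a ≠ c) (hbc : b ≠ c) :
    ∃ M : GL (Fin 2) F, M • (q0 : ℙ F (Fin 2 → F)) = a ∧ M • (q1 : ℙ F (Fin 2 → F)) = b ∧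
      M • (p2 : ℙ F (Fin 2 → F)) = c := by
  classical
  induction a using Projectivization.ind with | _ u hu =>
  induction b using Projectivization.ind with | _ v hv =>
  induction c using Projectivization.ind with | _ w hw =>
  -- `u, v` are independent
  have hindep : u 0 * v 1 - u 1 * v 0 ≠ 0 := by
    intro hd
    apply hab
    rw [Projectivization.mk_eq_mk_iff']
    by_cases h0 : v 0 = 0
    · have hv1 : v 1 ≠ 0 := by
        intro h1
        apply hv
        funext i
        fin_cases i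
        · exact h0
        · exact h1
      refine ⟨u 1 / v 1, ?_⟩
      funext i
      fin_cases i
      · simp [h0] at hd ⊢
        rcases hd with h | h
        · exact h.symm
        · exact absurd h hv1
      · simp
        field_simp
    · refine ⟨u 0 / v 0, ?_⟩
      funext i
      fin_cases i
      · simp
        field_simp
      · simp
        field_simp
        linear_combination hd
  -- write `w` in terms of `u, v`
  let d := u 0 * v 1 - u 1 * v 0
  let s := (w 0 * v 1 - w 1 * v 0) / d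
  let t := (u 0 * w 1 - u 1 * w 0) / d
  have hd : d ≠ 0 := hindep
  have hw0 : w 0 = s * u 0 + t * v 0 := by
    simp only [s, t]
    field_simp
    simp only [d]
    ring
  have hw1 : w 1 = s * u 1 + t * v 1 := by
    simp only [s, t]
    field_simp
    simp only [d]
    ring
  have hs : s ≠ 0 := by
    intro hs
    apply hbc
    rw [Projectivization.mk_eq_mk_iff']
    have ht : t ≠ 0 := by
      intro ht
      apply hw
      funext i
      fin_cases i
      · simpa [hs, ht] using hw0
      · simpa [hs, ht] using hw1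
    refine ⟨t⁻¹, ?_⟩
    funext i
    fin_cases i
    · simp [hw0, hs]
      field_simp
    · simp [hw1, hs]
      field_simp
  have ht : t ≠ 0 := by
    intro ht
    apply hac
    rw [Projectivization.mk_eq_mk_iff']
    refine ⟨s⁻¹, ?_⟩
    funext i
    fin_cases i
    · simp [hw0, ht]
      field_simp
    · simp [hw1, ht]
      field_simp
  let A : Matrix (Fin 2) (Fin 2) F := !![s * u 0, t * v 0; s * u 1, t * v 1]
  have hdet : A.det ≠ 0 := by
    have : A.det = s * t * d := by
      simp [A, Matrix.det_fin_two, d]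
      ring
    rw [this]
    exact mul_ne_zero (mul_ne_zero hs ht) hindep
  refine ⟨Matrix.GeneralLinearGroup.mkOfDetNeZero A hdet, ?_, ?_, ?_⟩
  · rw [q0, Projectivization.smul_mk, Projectivization.mk_eq_mk_iff']
    refine ⟨s, ?_⟩
    funext i
    rw [gl_smul_vec]
    change (s • u) i = (A *ᵥ ![1, 0]) i
    fin_cases i <;> simp [A, Matrix.mulVec, dotProduct, Fin.sum_univ_two]
  · rw [q1, Projectivization.smul_mk, Projectivization.mk_eq_mk_iff']
    refine ⟨t, ?_⟩
    funext i
    rw [gl_smul_vec]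
    change (t • v) i = (A *ᵥ ![0, 1]) i
    fin_cases i <;> simp [A, Matrix.mulVec, dotProduct, Fin.sum_univ_two]
  · rw [p2, Projectivization.smul_mk, Projectivization.mk_eq_mk_iff']
    refine ⟨1, ?_⟩
    funext i
    rw [gl_smul_vec]
    change ((1 : F) • w) i = (A *ᵥ ![1, 1]) i
    fin_cases i <;> simp [A, Matrix.mulVec, dotProduct, Fin.sum_univ_two, hw0, hw1]

lemma q0_ne_q1 : (q0 : ℙ F (Fin 2 → F)) ≠ q1 := by
  intro h
  rw [q0, q1, Projectivization.mk_eq_mk_iff'] at h
  obtain ⟨a, ha⟩ := h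
  have := congrFun ha 0
  simp at this

lemma q0_ne_p2 : (q0 : ℙ F (Fin 2 → F)) ≠ p2 := by
  intro h
  rw [q0, p2, Projectivization.mk_eq_mk_iff'] at h
  obtain ⟨a, ha⟩ := h
  have h0 := congrFun ha 0
  have h1 := congrFun ha 1
  simp at h0 h1
  rw [h1] at h0
  simp at h0

lemma q1_ne_p2 : (q1 : ℙ F (Fin 2 → F)) ≠ p2 := by
  intro h
  rw [q1, p2, Projectivization.mk_eq_mk_iff'] at h
  obtain ⟨a, ha⟩ := h
  have h0 := congrFun ha 0
  have h1 := congrFun ha 1
  simp at h0 h1
  rw [h0] at h1
  simp at h1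

/-- An element of `GL_2` fixing three distinct points is scalar. -/
lemma fix_three (g : GL (Fin 2) F) (a b c : ℙ F (Fin 2 → F)) (hab : a ≠ b) (hac : a ≠ c) (hbc : b ≠ c)
    (h0 : g • a = a) (h1 : g • b = b) (h2 : g • c = c) :
    ∃ α : F, (g : Matrix (Fin 2) (Fin 2) F) = α • (1 : Matrix (Fin 2) (Fin 2) F) := by
  obtain ⟨M, rfl, rfl, rfl⟩ := frame a b c hab hac hbc
  have key : ∀ x : ℙ F (Fin 2 → F), g • (M • x) = M • x → (M⁻¹ * g * M) • x = x := by
    intro x hx
    rw [mul_smul, mul_smul, hx, inv_smul_smul]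
  obtain ⟨α, hα⟩ := fix_std (M⁻¹ * g * M) (key _ h0) (key _ h1) (key _ h2)
  refine ⟨α, ?_⟩
  have h3 : g = M * (M⁻¹ * g * M) * M⁻¹ := by group
  rw [h3]
  simp only [Units.val_mul, hα]
  rw [Matrix.mul_smul, Matrix.mul_one, Matrix.smul_mul, ← Units.val_mul, mul_inv_cancel, Units.val_one]

/-- An element acting on a standard frame. -/
lemma mk_one_of_scalar (g : GL (Fin 2) F) (α : F)
    (hg : (g : Matrix (Fin 2) (Fin 2) F) = α • (1 : Matrix (Fin 2) (Fin 2) F)) :
    (ProjGenLinGroup.mk g : ProjGenLinGroup (Fin 2) F) = 1 := by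
  rw [ProjGenLinGroup.mk_eq_one, Matrix.GeneralLinearGroup.center_eq_range_scalar]
  have hα : α ≠ 0 := by
    rintro rfl
    have := g.det_ne_zero
    rw [hg] at this
    simp at this
  refine ⟨Units.mk0 α hα, ?_⟩
  apply Units.ext
  rw [hg]
  ext i j
  simp [Matrix.one_apply, Matrix.GeneralLinearGroup.scalar, Matrix.scalar_apply, Matrix.diagonal_apply]

/-- The action of `PGL_2` in terms of `GL_2`. -/
lemma pgl_smul (g : GL (Fin 2) F) (p : ℙ F (Fin 2 → F)) :
    (ProjGenLinGroup.mk g : ProjGenLinGroup (Fin 2) F) • p = g • p := by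
  induction p using Projectivization.ind with | _ v hv =>
  rw [Projectivization.PGL.mk_smul_mk, Projectivization.smul_mk]

/-- `PGL_2` is 3-transitive. -/
theorem pgl_three_trans (x y : Fin 3 ↪ ℙ F (Fin 2 → F)) :
    ∃ g : GL (Fin 2) F, ∀ i, g • x i = y i := by
  have hinj : ∀ (z : Fin 3 ↪ ℙ F (Fin 2 → F)), z 0 ≠ z 1 ∧ z 0 ≠ z 2 ∧ z 1 ≠ z 2 := fun z =>
    ⟨fun h => by simpa using z.injective h, fun h => by simpa using z.injective h,
      fun h => by simpa using z.injective h⟩
  obtain ⟨x1, x2, x3⟩ := hinj x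
  obtain ⟨y1, y2, y3⟩ := hinj y
  obtain ⟨M, hM0, hM1, hM2⟩ := frame (x 0) (x 1) (x 2) x1 x2 x3
  obtain ⟨N, hN0, hN1, hN2⟩ := frame (y 0) (y 1) (y 2) y1 y2 y3
  refine ⟨N * M⁻¹, ?_⟩
  intro i
  fin_cases i
  · change (N * M⁻¹) • x 0 = y 0
    rw [← hM0, ← hN0, mul_smul, inv_smul_smul]
  · change (N * M⁻¹) • x 1 = y 1
    rw [← hM1, ← hN1, mul_smul, inv_smul_smul]
  · change (N * M⁻¹) • x 2 = y 2
    rw [← hM2, ← hN2, mul_smul, inv_smul_smul]

/-- The action of `SL_2` agrees with that of a proportional element of `GL_2`. -/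
lemma sl_smul_eq (A : SpecialLinearGroup (Fin 2) F) (g : GL (Fin 2) F) (c : F) (hc : c ≠ 0)
    (h : (A : Matrix (Fin 2) (Fin 2) F) = c • (g : Matrix (Fin 2) (Fin 2) F)) (p : ℙ F (Fin 2 → F)) :
    A • p = g • p := by
  induction p using Projectivization.ind with | _ v hv =>
  rw [Projectivization.smul_mk, Projectivization.smul_mk, Projectivization.mk_eq_mk_iff']
  refine ⟨c, ?_⟩
  rw [gl_smul_vec]
  change c • ((g : Matrix (Fin 2) (Fin 2) F) *ᵥ v) = (A : Matrix (Fin 2) (Fin 2) F) *ᵥ v
  rw [h, Matrix.smul_mulVec]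

/-- An embedding from three distinct points. -/
def triple {α : Type*} (a b c : α) (hab : a ≠ b) (hac : a ≠ c) (hbc : b ≠ c) : Fin 3 ↪ α where
  toFun := ![a, b, c]
  inj' := by
    intro i j h
    fin_cases i <;> fin_cases j <;> simp_all [eq_comm]

end Cfsg.Agent.Lib.Classical.PGL2
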