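/-
Maximal parabolic subgroups of the general linear group: matrix description; maximality.
-/
import Mathlib
import Cfsg.Prelude.Def_ClassicalGeometry

set_option autoImplicit false
set_option linter.unusedSectionVars false

open Matrix

namespace Cfsg.Agent.Lib.Classical.ParabGL

variable {F : Type*} [Field F] {n : ℕ}

/-- The coordinate subspace. -/
def Wk (F : Type*) [Field F] (n k : ℕ) : Submodule F (Fin n → F) where
  carrier := {v | ∀ i : Fin n, k ≤ (i : ℕ) → v i = 0}
  add_mem' {a b} ha hb i hi := by simp [ha i hi, hb i hi]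
  zero_mem' i _ := rfl
  smul_mem' c a ha i hi := by simp [ha i hi]

/-- The maximal parabolic. -/
abbrev Pk (F : Type*) [Field F] (n k : ℕ) : Subgroup (GL (Fin n) F) :=
  Cfsg.stabilizing (Cfsg.glToMat (Fin n) F) {v : Fin n → F | ∀ i : Fin n, k ≤ (i : ℕ) → v i = 0}

lemma mem_Pk_iff (k : ℕ) (g : GL (Fin n) F) :
    g ∈ Pk F n k ↔ ∀ i j : Fin n, k ≤ (i : ℕ) → (j : ℕ) < k → (g : Matrix (Fin n) (Fin n) F) i j = 0 := by
  classical
  constructor
  · intro hg i j hi hj
    have h := (hg (Pi.single j 1)).mp ?_ i hi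
    · simpa [Cfsg.glToMat] using h
    · intro i' hi'
      rw [Pi.single_apply, if_neg]
      rintro rfl
      omega
  · intro hg
    have hfw : ∀ v ∈ Wk F n k, ((g : Matrix (Fin n) (Fin n) F) *ᵥ v) ∈ Wk F n k := by
      intro v hv i hi
      simp only [Matrix.mulVec, dotProduct]
      refine Finset.sum_eq_zero fun j _ => ?_
      by_cases hj : (j : ℕ) < k
      · rw [hg i j hi hj, zero_mul]
      · rw [hv j (by omega), mul_zero]
    let A : Wk F n k →ₗ[F] Wk F n k :=
      (Matrix.mulVecLin (g : Matrix (Fin n) (Fin n) F)).restrict hfw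
    have hinj : Function.Injective A := by
      intro a b hab
      have h1 : (g : Matrix (Fin n) (Fin n) F) *ᵥ (a : Fin n → F) = (g : Matrix (Fin n) (Fin n) F) *ᵥ (b : Fin n → F) :=
        congrArg Subtype.val hab
      have h2 := congrArg (fun x => ((g⁻¹ : GL (Fin n) F) : Matrix (Fin n) (Fin n) F) *ᵥ x) h1
      simp only [Matrix.mulVec_mulVec] at h2
      rw [← Matrix.GeneralLinearGroup.coe_mul, inv_mul_cancel] at h2
      simp only [Matrix.GeneralLinearGroup.coe_one, Matrix.one_mulVec] at h2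
      exact Subtype.ext h2
    have hsurj : Function.Surjective A := LinearMap.injective_iff_surjective.mp hinj
    intro v
    constructor
    · intro hv
      exact hfw v hv
    · intro hv
      obtain ⟨w, hw⟩ := hsurj ⟨_, hv⟩
      have h1 : (g : Matrix (Fin n) (Fin n) F) *ᵥ (w : Fin n → F) = (g : Matrix (Fin n) (Fin n) F) *ᵥ v :=
        congrArg Subtype.val hw
      have h2 := congrArg (fun x => ((g⁻¹ : GL (Fin n) F) : Matrix (Fin n) (Fin n) F) *ᵥ x) h1
      simp only [Matrix.mulVec_mulVec] at h2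
      rw [← Matrix.GeneralLinearGroup.coe_mul, inv_mul_cancel] at h2
      simp only [Matrix.GeneralLinearGroup.coe_one, Matrix.one_mulVec] at h2
      rw [← h2]
      exact w.2

/-- Elementary matrix as an element of `GL`. -/
noncomputable def T (i j : Fin n) (hij : i ≠ j) (c : F) : GL (Fin n) F :=
  Matrix.GeneralLinearGroup.mkOfDetNeZero (Matrix.transvection i j c) (by
    rw [Matrix.det_transvection_of_ne i j hij]
    exact one_ne_zero)

@[simp] lemma T_coe (i j : Fin n) (hij : i ≠ j) (c : F) :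
    ((T i j hij c : GL (Fin n) F) : Matrix (Fin n) (Fin n) F) = Matrix.transvection i j c := rfl

lemma transvection_apply (i j a b : Fin n) (c : F) :
    (Matrix.transvection i j c) a b = (if a = b then 1 else 0) + (if a = i ∧ b = j then c else 0) := by
  classical
  simp only [Matrix.transvection, Matrix.add_apply, Matrix.one_apply, Matrix.single_apply]
  congr 1
  have : (i = a ∧ j = b) ↔ (a = i ∧ b = j) := ⟨fun h => ⟨h.1.symm, h.2.symm⟩, fun h => ⟨h.1.symm, h.2.symm⟩⟩
  simp only [this]

lemma T_mem_of (k : ℕ) (i j : Fin n) (hij : i ≠ j) (c : F) (h : k ≤ (i : ℕ) → k ≤ (j : ℕ)) :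
    T i j hij c ∈ Pk F n k := by
  rw [mem_Pk_iff]
  intro a b ha hb
  rw [T_coe, transvection_apply, if_neg (by rintro rfl; omega), if_neg, add_zero]
  rintro ⟨rfl, rfl⟩
  have := h ha
  omega

/-- The key computation: conjugating an element of the parabolic by `h` yields a root element. -/
lemma key_A (k : ℕ) (H : Subgroup (GL (Fin n) F)) (hPH : Pk F n k ≤ H) (h : GL (Fin n) F) (hh : h ∈ H)
    (i₀ j₀ j : Fin n) (hi₀ : k ≤ (i₀ : ℕ)) (hj₀ : (j₀ : ℕ) < k) (hj : (j : ℕ) < k)
    (hc : (h : Matrix (Fin n) (Fin n) F) i₀ j₀ ≠ 0) (hne : i₀ ≠ j) :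
    T i₀ j hne ((h : Matrix (Fin n) (Fin n) F) i₀ j₀) ∈ H := by
  classical
  set c := (h : Matrix (Fin n) (Fin n) F) i₀ j₀ with hcdef
  let x : Fin n → F := fun l => if l = i₀ then 0 else -((h : Matrix (Fin n) (Fin n) F) l j₀) / c
  let φ : Fin n → F := Pi.single i₀ 1
  have hφx : φ ⬝ᵥ x = 0 := by
    simp [φ, x]
  have hmul : ∀ y : Fin n → F, (1 + vecMulVec y φ) * (1 - vecMulVec y φ) = (1 : Matrix (Fin n) (Fin n) F) - (φ ⬝ᵥ y) • vecMulVec y φ := by
    intro y
    rw [add_mul, mul_sub, mul_sub, one_mul, mul_one, one_mul, Matrix.vecMulVec_mul_vecMulVec]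
    ext a b
    simp [Matrix.sub_apply, Matrix.add_apply, Matrix.smul_apply]
    try ring
  have hmul' : ∀ y : Fin n → F, (1 - vecMulVec y φ) * (1 + vecMulVec y φ) = (1 : Matrix (Fin n) (Fin n) F) - (φ ⬝ᵥ y) • vecMulVec y φ := by
    intro y
    rw [sub_mul, mul_add, mul_add, one_mul, mul_one, one_mul, Matrix.vecMulVec_mul_vecMulVec]
    ext a b
    simp [Matrix.sub_apply, Matrix.add_apply, Matrix.smul_apply]
    try ring
  let w : GL (Fin n) F := ⟨1 + vecMulVec x φ, 1 - vecMulVec x φ, by rw [hmul, hφx]; simp, by rw [hmul', hφx]; simp⟩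
  have hwc : (w : Matrix (Fin n) (Fin n) F) = 1 + vecMulVec x φ := rfl
  have hwP : w ∈ Pk F n k := by
    rw [mem_Pk_iff]
    intro a b ha hb
    rw [hwc]
    have hb' : b ≠ i₀ := by
      rintro rfl
      omega
    have hab : a ≠ b := by
      rintro rfl
      omega
    simp [Matrix.add_apply, Matrix.one_apply, hab, vecMulVec_apply, φ, Pi.single_apply, hb']
  let g : GL (Fin n) F := w * h
  have hgH : g ∈ H := H.mul_mem (hPH hwP) hh
  have hgc : (g : Matrix (Fin n) (Fin n) F) = (1 + vecMulVec x φ) * (h : Matrix (Fin n) (Fin n) F) := rfl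
  have hcol : ∀ l, (g : Matrix (Fin n) (Fin n) F) l j₀ = if l = i₀ then c else 0 := by
    intro l
    rw [hgc, add_mul, one_mul, Matrix.add_apply, Matrix.mul_apply]
    simp only [vecMulVec_apply, φ, Pi.single_apply, mul_ite, mul_one, mul_zero]
    simp only [ite_mul, zero_mul, Finset.sum_ite_eq', Finset.mem_univ, if_true]
    by_cases hl : l = i₀
    · simp [hl, x, hcdef]
    · simp only [x, hl, if_false]
      field_simp
      ring
  let E : GL (Fin n) F := T i₀ j hne c
  let τ : GL (Fin n) F := g⁻¹ * E * g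
  let τ' : Matrix (Fin n) (Fin n) F := 1 + vecMulVec (Pi.single j₀ 1) ((g : Matrix (Fin n) (Fin n) F) j)
  have hgτ : (g : Matrix (Fin n) (Fin n) F) * τ' = (E : Matrix (Fin n) (Fin n) F) * g := by
    ext l b
    rw [T_coe]
    have h1 : ((g : Matrix (Fin n) (Fin n) F) * τ') l b = (g : Matrix (Fin n) (Fin n) F) l b +
        (g : Matrix (Fin n) (Fin n) F) l j₀ * (g : Matrix (Fin n) (Fin n) F) j b := by
      simp only [τ', mul_add, mul_one, Matrix.add_apply]
      congr 1
      rw [Matrix.mul_apply]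
      simp [vecMulVec_apply, Pi.single_apply]
    rw [h1, hcol]
    by_cases hl : l = i₀
    · subst hl
      simp [Matrix.transvection_mul_apply_same]
    · simp [hl, Matrix.transvection_mul_apply_of_ne i₀ j l b c _ (Ne.symm hl)]
  have hτc : (τ : Matrix (Fin n) (Fin n) F) = τ' := by
    have h1 : ((g⁻¹ : GL (Fin n) F) : Matrix (Fin n) (Fin n) F) * (g : Matrix (Fin n) (Fin n) F) = 1 := by
      rw [← Matrix.GeneralLinearGroup.coe_mul, inv_mul_cancel]
      simp
    change ((g⁻¹ : GL (Fin n) F) : Matrix (Fin n) (Fin n) F) * (E : Matrix (Fin n) (Fin n) F) * g = τ'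
    rw [Matrix.mul_assoc, ← hgτ, ← Matrix.mul_assoc, h1, Matrix.one_mul]
  have hτP : τ ∈ Pk F n k := by
    rw [mem_Pk_iff]
    intro a b ha hb
    rw [hτc]
    have ha' : a ≠ j₀ := by
      rintro rfl
      omega
    have hab : a ≠ b := by
      rintro rfl
      omega
    simp [τ', Matrix.add_apply, Matrix.one_apply, hab, vecMulVec_apply, Pi.single_apply, ha']
  have hfin : E = g * τ * g⁻¹ := by
    simp only [τ]
    group
  change E ∈ H
  rw [hfin]
  exact H.mul_mem (H.mul_mem hgH (hPH hτP)) (H.inv_mem hgH)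

/-- All lower-left root elements lie in any subgroup properly containing the parabolic. -/
lemma key_B (k : ℕ) (H : Subgroup (GL (Fin n) F)) (hPH : Pk F n k ≤ H) (h : GL (Fin n) F) (hh : h ∈ H)
    (i₀ j₀ i j : Fin n) (hi₀ : k ≤ (i₀ : ℕ)) (hj₀ : (j₀ : ℕ) < k) (hc : (h : Matrix (Fin n) (Fin n) F) i₀ j₀ ≠ 0)
    (hi : k ≤ (i : ℕ)) (hj : (j : ℕ) < k) (hne : i ≠ j) (d : F) (hd : d ≠ 0) :
    T i j hne d ∈ H := by
  classical
  set c := (h : Matrix (Fin n) (Fin n) F) i₀ j₀ with hcdef
  -- an element of the parabolic moving the entry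
  obtain ⟨p, hpP, hp⟩ : ∃ p ∈ Pk F n k, ((p * h : GL (Fin n) F) : Matrix (Fin n) (Fin n) F) i j₀ = d := by
    by_cases hii : i = i₀
    · subst hii
      let D : Fin n → F := fun l => if l = i then d / c else 1
      have hD0 : (Matrix.diagonal D).det ≠ 0 := by
        rw [Matrix.det_diagonal, Finset.prod_ne_zero_iff]
        intro l _
        simp only [D]
        split_ifs
        · exact div_ne_zero hd hc
        · exact one_ne_zero
      refine ⟨Matrix.GeneralLinearGroup.mkOfDetNeZero (Matrix.diagonal D) hD0, ?_, ?_⟩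
      · rw [mem_Pk_iff]
        intro a b ha hb
        change Matrix.diagonal D a b = 0
        rw [Matrix.diagonal_apply_ne]
        rintro rfl
        omega
      · change (Matrix.diagonal D * (h : Matrix (Fin n) (Fin n) F)) i j₀ = d
        rw [Matrix.diagonal_mul]
        simp only [D, if_true]
        rw [← hcdef]
        field_simp
    · refine ⟨T i i₀ hii ((d - (h : Matrix (Fin n) (Fin n) F) i j₀) / c), T_mem_of k i i₀ hii _ (fun _ => hi₀), ?_⟩
      change (Matrix.transvection i i₀ ((d - (h : Matrix (Fin n) (Fin n) F) i j₀) / c) * (h : Matrix (Fin n) (Fin n) F) : Matrix (Fin n) (Fin n) F) i j₀ = d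
      rw [Matrix.transvection_mul_apply_same, ← hcdef]
      field_simp
      ring
  have hm : p * h ∈ H := H.mul_mem (hPH hpP) hh
  have hd' : ((p * h : GL (Fin n) F) : Matrix (Fin n) (Fin n) F) i j₀ ≠ 0 := by
    rw [hp]
    exact hd
  have := key_A k H hPH (p * h) hm i j₀ j hi hj₀ hj hd' hne
  rw [hp] at this
  exact this

/-- Maximality. -/
theorem isCoatom_Pk (k : ℕ) (hk0 : 0 < k) (hkn : k < n) : IsCoatom (Pk F n k) := by
  classical
  constructor
  · intro htop
    have hne : (⟨k, hkn⟩ : Fin n) ≠ ⟨0, by omega⟩ := by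
      intro h
      have := congrArg Fin.val h
      simp at this
      omega
    have h1 : T (⟨k, hkn⟩ : Fin n) ⟨0, by omega⟩ hne (1 : F) ∈ Pk F n k := by
      rw [htop]
      exact Subgroup.mem_top _
    rw [mem_Pk_iff] at h1
    have h2 := h1 ⟨k, hkn⟩ ⟨0, by omega⟩ (le_refl _) (by simpa using hk0)
    rw [T_coe, transvection_apply, if_neg hne] at h2
    simp at h2
  · intro H hH
    obtain ⟨hPH, h, hh, hnot⟩ := SetLike.lt_iff_le_and_exists.mp hH
    rw [mem_Pk_iff] at hnot
    push Not at hnot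
    obtain ⟨i₀, j₀, hi₀, hj₀, hc⟩ := hnot
    rw [eq_top_iff]
    intro g _
    have hroot : ∀ (i j : Fin n) (hij : i ≠ j) (d : F), T i j hij d ∈ H := by
      intro i j hij d
      by_cases hd : d = 0
      · have : T i j hij d = 1 := by
          apply Units.ext
          simp [hd]
        rw [this]
        exact H.one_mem
      by_cases hi : k ≤ (i : ℕ)
      · by_cases hj : (j : ℕ) < k
        · exact key_B k H hPH h hh i₀ j₀ i j hi₀ hj₀ hc hi hj hij d hd
        · exact hPH (T_mem_of k i j hij d (fun _ => by omega))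
      · exact hPH (T_mem_of k i j hij d (fun h => absurd h hi))
    have hind := Matrix.diagonal_transvection_induction_of_det_ne_zero
      (fun M : Matrix (Fin n) (Fin n) F => ∃ x ∈ H, (x : Matrix (Fin n) (Fin n) F) = M)
      (g : Matrix (Fin n) (Fin n) F)
      (by
        have := (Matrix.isUnit_iff_isUnit_det _).mp g.isUnit
        exact this.ne_zero)
      (by
        intro D hD
        refine ⟨Matrix.GeneralLinearGroup.mkOfDetNeZero (Matrix.diagonal D) hD, hPH ?_, rfl⟩
        rw [mem_Pk_iff]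
        intro a b ha hb
        change Matrix.diagonal D a b = 0
        rw [Matrix.diagonal_apply_ne]
        rintro rfl
        omega)
      (by
        intro t
        exact ⟨T t.i t.j t.hij t.c, hroot _ _ _ _, rfl⟩)
      (by
        rintro A B _ _ ⟨x, hx, rfl⟩ ⟨y, hy, rfl⟩
        exact ⟨x * y, H.mul_mem hx hy, rfl⟩)
    obtain ⟨x, hx, hxg⟩ := hind
    have : x = g := Units.ext hxg
    rw [← this]
    exact hx

end Cfsg.Agent.Lib.Classical.ParabGL
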