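/-
The setwise stabiliser of a subspace having an orthogonal complement, as a product of isometry groups.
-/
import Mathlib
import Cfsg.Agent.Lib.Classical.IsoAbs

set_option autoImplicit false
set_option linter.unusedSectionVars false

namespace Cfsg.Agent.Lib.Classical.Abs

variable {F V : Type*} [Field F] [AddCommGroup V] [Module F V]

/-- The setwise stabiliser of a subspace in `isoG form`. -/
def setStabG (form : V → V → F) (W : Submodule F V) : Subgroup (isoG form) where
  carrier := {g | ∀ v, v ∈ W ↔ g.1 v ∈ W}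
  mul_mem' {a b} ha hb := by
    intro v
    rw [hb v, ha]
    rfl
  one_mem' := fun _ => Iff.rfl
  inv_mem' {a} ha := by
    intro v
    have h := ha (a⁻¹.1 v)
    have e : a.1 (a⁻¹.1 v) = v := by
      change a.1 (a.1⁻¹ v) = v
      exact a.1.apply_symm_apply v
    rw [e] at h
    exact h.symm

lemma mem_setStabG {form : V → V → F} {W : Submodule F V} {g : isoG form} :
    g ∈ setStabG form W ↔ ∀ v, v ∈ W ↔ g.1 v ∈ W := Iff.rfl

/-- Restriction of a stabilising automorphism. -/
noncomputable def restrE (g : V ≃ₗ[F] V) (W : Submodule F V) (h : ∀ v, v ∈ W ↔ g v ∈ W) : W ≃ₗ[F] W :=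
  LinearEquiv.ofLinear ((g : V →ₗ[F] V).restrict (fun w hw => (h w).mp hw))
    ((g.symm : V →ₗ[F] V).restrict (fun w hw => by
      rw [h]
      simpa using hw))
    (by
      ext w
      simp)
    (by
      ext w
      simp)

@[simp] lemma restrE_apply (g : V ≃ₗ[F] V) (W : Submodule F V) (h : ∀ v, v ∈ W ↔ g v ∈ W) (w : W) :
    ((restrE g W h w : W) : V) = g w := rfl

section decomp

variable (form : V → V → F) (W W' : Submodule F V) (hc : IsCompl W W')
  (hD : ∀ w ∈ W, ∀ w' ∈ W', ∀ u ∈ W, ∀ u' ∈ W', form (w + w') (u + u') = form w u + form w' u')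
  (hperp : ∀ v, v ∈ W' ↔ ∀ w ∈ W, form v w = 0)

include hperp in
lemma stab_perp (g : V ≃ₗ[F] V) (hg : g ∈ isoG form) (h : ∀ v, v ∈ W ↔ g v ∈ W) :
    ∀ v, v ∈ W' ↔ g v ∈ W' := by
  intro v
  rw [hperp, hperp]
  constructor
  · intro h1 w hw
    have h2 : g (g.symm w) = w := g.apply_symm_apply w
    rw [← h2, hg v (g.symm w)]
    apply h1
    rw [h, h2]
    exact hw
  · intro h1 w hw
    rw [← hg v w]
    exact h1 _ ((h w).mp hw)

/-- The glueing of two automorphisms along a direct sum. -/
noncomputable def glueE (a : W ≃ₗ[F] W) (b : W' ≃ₗ[F] W') : V ≃ₗ[F] V :=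
  ((Submodule.prodEquivOfIsCompl W W' hc).symm.trans (a.prodCongr b)).trans
    (Submodule.prodEquivOfIsCompl W W' hc)

lemma glueE_add (a : W ≃ₗ[F] W) (b : W' ≃ₗ[F] W') (w : W) (w' : W') :
    glueE W W' hc a b ((w : V) + w') = (a w : V) + (b w' : V) := by
  have h1 : (Submodule.prodEquivOfIsCompl W W' hc) (w, w') = (w : V) + w' := by
    simp [Submodule.coe_prodEquivOfIsCompl']
  simp only [glueE, LinearEquiv.trans_apply]
  rw [← h1, LinearEquiv.symm_apply_apply]
  simp [Submodule.coe_prodEquivOfIsCompl']

/-- The setwise stabiliser of `W` is the product of the isometry groups of `W` and its orthogonal complement. -/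
noncomputable def stabDecomp :
    setStabG form W ≃* isoG (fun u v : W => form u v) × isoG (fun u v : W' => form u v) :=
  MulEquiv.ofBijective
    ({ toFun := fun g => (⟨restrE g.1.1 W g.2, fun u v => g.1.2 u v⟩,
          ⟨restrE g.1.1 W' (stab_perp form W W' hperp g.1.1 g.1.2 g.2), fun u v => g.1.2 u v⟩)
       map_one' := by
        ext w <;> rfl
       map_mul' := fun a b => by
        ext w <;> rfl } : setStabG form W →* isoG (fun u v : W => form u v) × isoG (fun u v : W' => form u v))
    (by
      constructor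
      · rintro a b hab
        apply Subtype.ext
        apply Subtype.ext
        ext v
        obtain ⟨w, w', hw, hw', rfl⟩ : ∃ w w', w ∈ W ∧ w' ∈ W' ∧ w + w' = v := by
          have : v ∈ W ⊔ W' := by rw [hc.sup_eq_top]; trivial
          obtain ⟨w, hw, w', hw', h⟩ := Submodule.mem_sup.mp this
          exact ⟨w, w', hw, hw', h⟩
        have h1 := congrArg Prod.fst hab
        have h2 := congrArg Prod.snd hab
        have h3 : a.1.1 w = b.1.1 w :=
          congrArg (fun g : isoG (fun u v : W => form u v) => ((g.1 ⟨w, hw⟩ : W) : V)) h1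
        have h4 : a.1.1 w' = b.1.1 w' :=
          congrArg (fun g : isoG (fun u v : W' => form u v) => ((g.1 ⟨w', hw'⟩ : W') : V)) h2
        rw [map_add, map_add, h3, h4]
      · rintro ⟨a, b⟩
        have hglue : ∀ (w : W) (w' : W'), glueE W W' hc a.1 b.1 ((w : V) + w') = (a.1 w : V) + (b.1 w' : V) :=
          glueE_add W W' hc a.1 b.1
        have hiso : glueE W W' hc a.1 b.1 ∈ isoG form := by
          intro u v
          obtain ⟨w, hw, w', hw', rfl⟩ := Submodule.mem_sup.mp (show u ∈ W ⊔ W' by rw [hc.sup_eq_top]; trivial)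
          obtain ⟨z, hz, z', hz', rfl⟩ := Submodule.mem_sup.mp (show v ∈ W ⊔ W' by rw [hc.sup_eq_top]; trivial)
          have e1 := hglue ⟨w, hw⟩ ⟨w', hw'⟩
          have e2 := hglue ⟨z, hz⟩ ⟨z', hz'⟩
          simp only at e1 e2
          rw [e1, e2, hD _ (a.1 _).2 _ (b.1 _).2 _ (a.1 _).2 _ (b.1 _).2, hD _ hw _ hw' _ hz _ hz']
          have h1 := a.2 ⟨w, hw⟩ ⟨z, hz⟩
          have h2 := b.2 ⟨w', hw'⟩ ⟨z', hz'⟩
          simp only at h1 h2
          rw [h1, h2]
        have hstab : ∀ v, v ∈ W ↔ (⟨glueE W W' hc a.1 b.1, hiso⟩ : isoG form).1 v ∈ W := by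
          intro v
          obtain ⟨w, hw, w', hw', rfl⟩ := Submodule.mem_sup.mp (show v ∈ W ⊔ W' by rw [hc.sup_eq_top]; trivial)
          have e1 := hglue ⟨w, hw⟩ ⟨w', hw'⟩
          simp only at e1
          change w + w' ∈ W ↔ glueE W W' hc a.1 b.1 (w + w') ∈ W
          rw [e1]
          have hw2 : (a.1 ⟨w, hw⟩ : V) ∈ W := (a.1 ⟨w, hw⟩).2
          rw [Submodule.add_mem_iff_right _ hw, Submodule.add_mem_iff_right _ hw2]
          have hdisj := hc.disjoint
          have key : ∀ x ∈ W', x ∈ W → x = 0 := by
            intro x hx hx'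
            have : x ∈ W ⊓ W' := ⟨hx', hx⟩
            rw [hdisj.eq_bot] at this
            simpa using this
          constructor
          · intro h
            have h0 : w' = 0 := key w' hw' h
            have : (⟨w', hw'⟩ : W') = 0 := Subtype.ext h0
            rw [this, map_zero]
            exact W.zero_mem
          · intro h
            have h0 : (b.1 ⟨w', hw'⟩ : V) = 0 := key _ (b.1 _).2 h
            have h1 : b.1 ⟨w', hw'⟩ = 0 := Subtype.ext h0
            have h2 : (⟨w', hw'⟩ : W') = 0 := by
              rwa [map_eq_zero_iff _ b.1.injective] at h1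
            have h3 : w' = 0 := congrArg Subtype.val h2
            rw [h3]
            exact W.zero_mem
        refine ⟨⟨⟨glueE W W' hc a.1 b.1, hiso⟩, hstab⟩, ?_⟩
        apply Prod.ext
        · apply Subtype.ext
          ext w
          change glueE W W' hc a.1 b.1 (w : V) = (a.1 w : V)
          have := hglue w 0
          simpa using this
        · apply Subtype.ext
          ext w'
          change glueE W W' hc a.1 b.1 (w' : V) = (b.1 w' : V)
          have := hglue 0 w'
          simpa using this)

@[simp] lemma stabDecomp_fst (g : setStabG form W) (w : W) :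
    (((stabDecomp form W W' hc hD hperp g).1.1 w : W) : V) = g.1.1 w := rfl

@[simp] lemma stabDecomp_snd (g : setStabG form W) (w : W') :
    (((stabDecomp form W W' hc hD hperp g).2.1 w : W') : V) = g.1.1 w := rfl

end decomp

/-- Transport of a subgroup along an isomorphism. -/
noncomputable def subgroupEquivOfIff {G H : Type*} [Group G] [Group H] (E : G ≃* H) (S : Subgroup G) (T : Subgroup H)
    (h : ∀ g, g ∈ S ↔ E g ∈ T) : S ≃* T where
  toFun g := ⟨E g.1, (h _).mp g.2⟩
  invFun t := ⟨E.symm t.1, (h _).mpr (by simpa using t.2)⟩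
  left_inv g := by
    apply Subtype.ext
    simp
  right_inv g := by
    apply Subtype.ext
    simp
  map_mul' a b := by
    apply Subtype.ext
    simp

end Cfsg.Agent.Lib.Classical.Abs
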