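/-
Maximal parabolics of GL_n: the subspace is determined by the parabolic; the inverse-transpose isomorphism.
-/
import Mathlib
import Cfsg.Agent.Lib.Classical.ParabGL
import Cfsg.Agent.Lib.Classical.StabDecomp
import Cfsg.Agent.Lib.Classical.IsoBridge

set_option autoImplicit false
set_option linter.unusedSectionVars false

open Matrix

namespace Cfsg.Agent.Lib.Classical.ParabGL

variable {F : Type*} [Field F] {n : ℕ}

/-- `Wk F n k` has dimension `k`. -/
lemma finrank_Wk (k : ℕ) (hk : k ≤ n) : Module.finrank F (Wk F n k) = k := by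
  classical
  let e : Wk F n k ≃ₗ[F] (Fin k → F) :=
    { toFun := fun v i => (v : Fin n → F) (Fin.castLE hk i)
      map_add' := fun a b => rfl
      map_smul' := fun c a => rfl
      invFun := fun x => ⟨fun j => if h : (j : ℕ) < k then x ⟨j, h⟩ else 0, by
        intro i hi
        dsimp only
        rw [dif_neg (by omega)]⟩
      left_inv := fun v => by
        apply Subtype.ext
        funext j
        by_cases h : (j : ℕ) < k
        · simp [h]
        · simp only [h, dite_false]
          exact (v.2 j (by omega)).symm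
      right_inv := fun x => by
        funext i
        simp }
  rw [e.finrank_eq]
  simp

/-- The transposed-inverse automorphism of `GL`. -/
noncomputable def trInv (n : ℕ) (F : Type*) [Field F] : GL (Fin n) F ≃* GL (Fin n) F where
  toFun g := ⟨((g⁻¹ : GL (Fin n) F) : Matrix (Fin n) (Fin n) F)ᵀ, (g : Matrix (Fin n) (Fin n) F)ᵀ, by
      rw [← Matrix.transpose_mul, ← Matrix.GeneralLinearGroup.coe_mul, mul_inv_cancel]
      simp, by
      rw [← Matrix.transpose_mul, ← Matrix.GeneralLinearGroup.coe_mul, inv_mul_cancel]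
      simp⟩
  invFun g := ⟨((g⁻¹ : GL (Fin n) F) : Matrix (Fin n) (Fin n) F)ᵀ, (g : Matrix (Fin n) (Fin n) F)ᵀ, by
      rw [← Matrix.transpose_mul, ← Matrix.GeneralLinearGroup.coe_mul, mul_inv_cancel]
      simp, by
      rw [← Matrix.transpose_mul, ← Matrix.GeneralLinearGroup.coe_mul, inv_mul_cancel]
      simp⟩
  left_inv g := by
    apply Units.ext
    change (((⟨((g⁻¹ : GL (Fin n) F) : Matrix (Fin n) (Fin n) F)ᵀ, (g : Matrix (Fin n) (Fin n) F)ᵀ, _, _⟩ : GL (Fin n) F)⁻¹ : GL (Fin n) F) : Matrix (Fin n) (Fin n) F)ᵀ = _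
    rw [Units.inv_mk]
    simp
  right_inv g := by
    apply Units.ext
    change (((⟨((g⁻¹ : GL (Fin n) F) : Matrix (Fin n) (Fin n) F)ᵀ, (g : Matrix (Fin n) (Fin n) F)ᵀ, _, _⟩ : GL (Fin n) F)⁻¹ : GL (Fin n) F) : Matrix (Fin n) (Fin n) F)ᵀ = _
    rw [Units.inv_mk]
    simp
  map_mul' a b := by
    apply Units.ext
    change ((((a * b)⁻¹ : GL (Fin n) F) : Matrix (Fin n) (Fin n) F))ᵀ = ((a⁻¹ : GL (Fin n) F) : Matrix (Fin n) (Fin n) F)ᵀ * ((b⁻¹ : GL (Fin n) F) : Matrix (Fin n) (Fin n) F)ᵀ
    rw [← Matrix.transpose_mul, ← Matrix.GeneralLinearGroup.coe_mul, _root_.mul_inv_rev]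

/-- Reindexing by the reversal. -/
noncomputable def revE (n : ℕ) (F : Type*) [Field F] : GL (Fin n) F ≃* GL (Fin n) F :=
  Units.mapEquiv (Matrix.reindexAlgEquiv F F (Fin.revPerm (n := n))).toMulEquiv

lemma revE_apply (g : GL (Fin n) F) (a b : Fin n) :
    ((revE n F g : GL (Fin n) F) : Matrix (Fin n) (Fin n) F) a b = (g : Matrix (Fin n) (Fin n) F) a.rev b.rev := by
  simp [revE, Matrix.reindexAlgEquiv_apply, Fin.revPerm]

lemma trInv_apply (g : GL (Fin n) F) (a b : Fin n) :
    ((trInv n F g : GL (Fin n) F) : Matrix (Fin n) (Fin n) F) a b = ((g⁻¹ : GL (Fin n) F) : Matrix (Fin n) (Fin n) F) b a := rfl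

/-- The isomorphism between the two parabolics. -/
noncomputable def parabEquiv (k : ℕ) (hk : k ≤ n) : Pk F n k ≃* Pk F n (n - k) :=
  Abs.subgroupEquivOfIff ((trInv n F).trans (revE n F)) _ _ (by
    intro g
    constructor
    · intro hg
      have h := (mem_Pk_iff k g⁻¹).mp ((Pk F n k).inv_mem hg)
      rw [mem_Pk_iff]
      intro a b ha hb
      change ((revE n F (trInv n F g) : GL (Fin n) F) : Matrix (Fin n) (Fin n) F) a b = 0
      rw [revE_apply, trInv_apply]
      apply h
      · rw [Fin.val_rev]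
        omega
      · rw [Fin.val_rev]
        omega
    · intro hg
      have h := (mem_Pk_iff (n - k) _).mp hg
      have h3 : g⁻¹ ∈ Pk F n k := by
        rw [mem_Pk_iff]
        intro i j hi hj
        have h1 := h j.rev i.rev (by rw [Fin.val_rev]; omega) (by rw [Fin.val_rev]; omega)
        change ((revE n F (trInv n F g) : GL (Fin n) F) : Matrix (Fin n) (Fin n) F) _ _ = 0 at h1
        rw [revE_apply, trInv_apply] at h1
        simpa using h1
      simpa using (Pk F n k).inv_mem h3)

/-- A subspace invariant under the parabolic is trivial or the coordinate subspace. -/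
theorem invariant_subspace (l : ℕ) (U : Submodule F (Fin n → F))
    (hU : ∀ p ∈ Pk F n l, ∀ u ∈ U, (p : Matrix (Fin n) (Fin n) F) *ᵥ u ∈ U) :
    U = ⊥ ∨ U = ⊤ ∨ U = Wk F n l := by
  classical
  -- generation step
  have hstep : ∀ (u : Fin n → F), u ∈ U → ∀ (i a : Fin n), u i ≠ 0 → a ≠ i → (l ≤ (a : ℕ) → l ≤ (i : ℕ)) → (Pi.single a 1 : Fin n → F) ∈ U := by
    intro u hu i a hi hai hc
    have h1 := hU _ (T_mem_of l a i hai (1 : F) hc) u hu
    have h2 := U.sub_mem h1 hu
    have h3 : (T a i hai (1 : F) : Matrix (Fin n) (Fin n) F) *ᵥ u - u = u i • Pi.single a 1 := by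
      funext x
      simp only [T_coe, Pi.sub_apply, Matrix.mulVec, dotProduct, transvection_apply, add_mul, Finset.sum_add_distrib]
      by_cases hx : x = a
      · subst hx
        simp [Finset.sum_ite_eq]
      · simp [hx, Finset.sum_ite_eq]
    rw [h3] at h2
    exact (U.smul_mem_iff hi).mp h2
  have hdecomp : ∀ (u : Fin n → F) (i : Fin n), u = ∑ a, u a • (Pi.single a 1 : Fin n → F) := by
    intro u _
    funext x
    simp [Finset.sum_apply, Pi.single_apply]
  by_cases hex : ∃ u ∈ U, ∃ i : Fin n, l ≤ (i : ℕ) ∧ u i ≠ 0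
  · obtain ⟨u, hu, i, hi, hui⟩ := hex
    right; left
    have h1 : ∀ a, a ≠ i → (Pi.single a 1 : Fin n → F) ∈ U := fun a ha => hstep u hu i a hui ha (fun _ => hi)
    have h2 : (Pi.single i 1 : Fin n → F) ∈ U := by
      have h3 : u = u i • (Pi.single i 1 : Fin n → F) + ∑ a ∈ Finset.univ.erase i, u a • (Pi.single a 1 : Fin n → F) :=
        ((Finset.add_sum_erase Finset.univ (fun a => u a • (Pi.single a 1 : Fin n → F)) (Finset.mem_univ i)).trans (hdecomp u i).symm).symm
      have h4 : ∑ a ∈ Finset.univ.erase i, u a • (Pi.single a 1 : Fin n → F) ∈ U :=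
        U.sum_mem fun a ha => U.smul_mem _ (h1 a (Finset.ne_of_mem_erase ha))
      have h5 : u i • (Pi.single i 1 : Fin n → F) ∈ U := by
        have h6 : u i • (Pi.single i 1 : Fin n → F) = u - ∑ a ∈ Finset.univ.erase i, u a • (Pi.single a 1 : Fin n → F) := by
          rw [eq_sub_iff_add_eq]
          exact h3.symm
        rw [h6]
        exact U.sub_mem hu h4
      exact (U.smul_mem_iff hui).mp h5
    rw [eq_top_iff]
    intro v _
    rw [hdecomp v i]
    refine U.sum_mem fun a _ => U.smul_mem _ ?_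
    by_cases ha : a = i
    · rw [ha]; exact h2
    · exact h1 a ha
  · push Not at hex
    have hsub : U ≤ Wk F n l := fun u hu i hi => hex u hu i hi
    by_cases hbot : U = ⊥
    · left; exact hbot
    right; right
    apply le_antisymm hsub
    obtain ⟨u, hu, hu0⟩ := U.ne_bot_iff.mp hbot
    obtain ⟨i, hi⟩ : ∃ i, u i ≠ 0 := by
      by_contra h
      push Not at h
      exact hu0 (funext h)
    have hil : (i : ℕ) < l := by
      by_contra h
      exact hi (hex u hu i (by omega))
    have h1 : ∀ a : Fin n, (a : ℕ) < l → a ≠ i → (Pi.single a 1 : Fin n → F) ∈ U :=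
      fun a ha hai => hstep u hu i a hi hai (fun h => by omega)
    have h2 : (Pi.single i 1 : Fin n → F) ∈ U := by
      have h3 : u = u i • (Pi.single i 1 : Fin n → F) + ∑ a ∈ Finset.univ.erase i, u a • (Pi.single a 1 : Fin n → F) :=
        ((Finset.add_sum_erase Finset.univ (fun a => u a • (Pi.single a 1 : Fin n → F)) (Finset.mem_univ i)).trans (hdecomp u i).symm).symm
      have h4 : ∑ a ∈ Finset.univ.erase i, u a • (Pi.single a 1 : Fin n → F) ∈ U := by
        refine U.sum_mem fun a ha => ?_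
        by_cases hal : (a : ℕ) < l
        · exact U.smul_mem _ (h1 a hal (Finset.ne_of_mem_erase ha))
        · rw [hex u hu a (by omega), zero_smul]
          exact U.zero_mem
      have h5 : u i • (Pi.single i 1 : Fin n → F) ∈ U := by
        have h6 : u i • (Pi.single i 1 : Fin n → F) = u - ∑ a ∈ Finset.univ.erase i, u a • (Pi.single a 1 : Fin n → F) := by
          rw [eq_sub_iff_add_eq]
          exact h3.symm
        rw [h6]
        exact U.sub_mem hu h4
      exact (U.smul_mem_iff hi).mp h5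
    intro v hv
    rw [hdecomp v i]
    refine U.sum_mem fun a _ => ?_
    by_cases hal : (a : ℕ) < l
    · refine U.smul_mem _ ?_
      by_cases ha : a = i
      · rw [ha]; exact h2
      · exact h1 a hal ha
    · rw [hv a (by omega), zero_smul]
      exact U.zero_mem

/-- Non-conjugacy. -/
theorem not_conj (k : ℕ) (hk0 : 0 < k) (hkn : k < n) (h2 : 2 * k ≠ n) (g : GL (Fin n) F) :
    (Pk F n k).map (MulAut.conj g).toMonoidHom ≠ Pk F n (n - k) := by
  classical
  intro heq
  set l := n - k with hl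
  let U : Submodule F (Fin n → F) := (Wk F n k).map ((Abs.glLin g : (Fin n → F) ≃ₗ[F] (Fin n → F)) : (Fin n → F) →ₗ[F] (Fin n → F))
  have hfr : Module.finrank F U = k := by
    rw [LinearEquiv.finrank_map_eq, finrank_Wk k hkn.le]
  have hinv : ∀ p ∈ Pk F n l, ∀ u ∈ U, (p : Matrix (Fin n) (Fin n) F) *ᵥ u ∈ U := by
    intro p hp u hu
    rw [← heq] at hp
    obtain ⟨x, hx, rfl⟩ := hp
    obtain ⟨w, hw, rfl⟩ := hu
    refine ⟨(x : Matrix (Fin n) (Fin n) F) *ᵥ w, (hx w).mp hw, ?_⟩
    change Abs.glLin g ((x : Matrix (Fin n) (Fin n) F) *ᵥ w) = ((MulAut.conj g) x : GL (Fin n) F).1 *ᵥ (Abs.glLin g w)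
    rw [Abs.glLin_apply, Abs.glLin_apply, Matrix.mulVec_mulVec, Matrix.mulVec_mulVec]
    congr 1
    simp only [MulAut.conj_apply]
    rw [← Matrix.GeneralLinearGroup.coe_mul, ← Matrix.GeneralLinearGroup.coe_mul]
    group
  rcases invariant_subspace l U hinv with h | h | h
  · rw [h, finrank_bot] at hfr
    omega
  · rw [h, finrank_top] at hfr
    simp at hfr
    omega
  · rw [h, finrank_Wk l (by omega)] at hfr
    omega

end Cfsg.Agent.Lib.Classical.ParabGL
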