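/-
Monic quadratics `X^2 - t X + 1` over a finite field: divisibility of `X^(q±1) - 1`.
-/
import Mathlib

set_option autoImplicit false
set_option linter.unusedSectionVars false

open Polynomial

namespace Cfsg.Agent.Lib.Classical

variable {F : Type*} [Field F] [Fintype F]

/-- The quadratic with constant term one. -/
noncomputable def qpoly (t : F) : F[X] := X ^ 2 - C t * X + 1

lemma qpoly_monic (t : F) : (qpoly t).Monic := by
  unfold qpoly
  monicity!

lemma qpoly_natDegree (t : F) : (qpoly t).natDegree = 2 := by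
  unfold qpoly
  compute_degree!

lemma qpoly_degree (t : F) : (qpoly t).degree = 2 := by
  unfold qpoly
  compute_degree!

lemma qpoly_eval (t a : F) : (qpoly t).eval a = a ^ 2 - t * a + 1 := by
  simp [qpoly]

/-- If `X^2 - tX + 1` is irreducible, it divides `X^(q+1) - 1`. -/
theorem qpoly_dvd_of_irreducible (t : F) (h : Irreducible (qpoly t)) :
    qpoly t ∣ X ^ (Fintype.card F + 1) - 1 := by
  classical
  have : Fact (Irreducible (qpoly t)) := ⟨h⟩
  set K := AdjoinRoot (qpoly t) with hK
  let x : K := AdjoinRoot.root (qpoly t)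
  have hx : x ^ 2 - algebraMap F K t * x + 1 = 0 := by
    have h2 : AdjoinRoot.mk (qpoly t) (X ^ 2 - C t * X + 1) = 0 := AdjoinRoot.mk_self
    simp only [map_add, map_sub, map_mul, map_pow, AdjoinRoot.mk_X, AdjoinRoot.mk_C, map_one] at h2
    exact h2
  let φ := FiniteField.frobeniusAlgHom F K
  have hφx : φ x = x ^ (Fintype.card F) := rfl
  have hroot : (x ^ Fintype.card F) ^ 2 - algebraMap F K t * x ^ Fintype.card F + 1 = 0 := by
    have := congrArg φ hx
    simpa [map_add, map_sub, map_mul, map_pow, hφx, AlgHom.commutes] using this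
  have hfac : (x ^ Fintype.card F - x) * (x ^ Fintype.card F - (algebraMap F K t - x)) = 0 := by
    linear_combination hroot - hx
  have hne : x ^ Fintype.card F - x ≠ 0 := by
    intro h0
    have hdvd : qpoly t ∣ X ^ (Fintype.card F) - X := by
      rw [← AdjoinRoot.mk_eq_zero]
      simp only [map_sub, map_pow, AdjoinRoot.mk_X]
      exact h0
    have := h.natDegree_dvd_of_dvd_X_pow_card_pow_sub_X (n := 1)
      (by simpa [Nat.card_eq_fintype_card] using hdvd)
    rw [qpoly_natDegree] at this
    norm_num at this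
  have hq : x ^ Fintype.card F = algebraMap F K t - x := by
    have := (mul_eq_zero.mp hfac).resolve_left hne
    exact sub_eq_zero.mp this
  rw [← AdjoinRoot.mk_eq_zero]
  simp only [map_sub, map_pow, AdjoinRoot.mk_X, map_one]
  change x ^ (Fintype.card F + 1) - 1 = 0
  rw [pow_succ, hq]
  linear_combination -hx

/-- If `X^2 - tX + 1 = (X - a)(X - a⁻¹)`, `a ≠ a⁻¹`, it divides `X^(q-1) - 1`. -/
theorem qpoly_dvd_of_split (t a : F) (ha : a ≠ 0) (hroot : (qpoly t).eval a = 0) (hne : a ≠ a⁻¹) :
    qpoly t ∣ X ^ (Fintype.card F - 1) - 1 := by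
  have ht : t = a + a⁻¹ := by
    rw [qpoly_eval] at hroot
    field_simp
    linear_combination -hroot
  have hP : qpoly t = (X - C a) * (X - C a⁻¹) := by
    rw [qpoly, ht]
    have : (C a : F[X]) * C a⁻¹ = 1 := by rw [← C_mul, mul_inv_cancel₀ ha, C_1]
    simp only [C_add]
    linear_combination -this
  rw [hP]
  apply IsCoprime.mul_dvd
  · apply Polynomial.isCoprime_X_sub_C_of_isUnit_sub
    exact (sub_ne_zero.mpr hne).isUnit
  · rw [dvd_iff_isRoot, IsRoot]
    simp [FiniteField.pow_card_sub_one_eq_one a ha]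
  · rw [dvd_iff_isRoot, IsRoot]
    simp [FiniteField.pow_card_sub_one_eq_one a⁻¹ (inv_ne_zero ha)]

end Cfsg.Agent.Lib.Classical
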