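/-
More classical groups transported along an isomorphism of fields.
-/
import Mathlib
import Cfsg.Agent.Lib.Classical.RingCongr

set_option autoImplicit false
set_option linter.unusedSectionVars false

open scoped Matrix

namespace Cfsg.Agent.Lib.Classical.RC

variable {F K : Type*} [Field F] [Field K]
variable {n : Type} [Fintype n] [DecidableEq n]

lemma isometryCongr_coe (e : F ≃+* K) (Q : (n → F) → F) (Q' : (n → K) → K)
    (h : ∀ u, Q' (vecCongr e u) = e (Q u)) (g : Cfsg.isometryGroup F Q) :
    ((isometryCongr e Q Q' h g).1 : Matrix.GeneralLinearGroup n K) = glCongr e g.1 := rfl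

lemma det_glCongr (e : F ≃+* K) (g : Matrix.GeneralLinearGroup n F) :
    ((Matrix.GeneralLinearGroup.det (glCongr e g) : Kˣ) : K) =
      e ((Matrix.GeneralLinearGroup.det g : Fˣ) : F) := by
  simp only [Matrix.GeneralLinearGroup.val_det_apply]
  exact ((e : F →+* K).map_det _).symm

/-- The special isometry groups along a field isomorphism. -/
def specialCongr (e : F ≃+* K) (Q : (n → F) → F) (Q' : (n → K) → K)
    (h : ∀ u, Q' (vecCongr e u) = e (Q u)) :
    Cfsg.specialIsometryGroup F Q ≃* Cfsg.specialIsometryGroup K Q' := by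
  refine (MulEquiv.subgroupMap (isometryCongr e Q Q' h) _).trans (MulEquiv.subgroupCongr ?_)
  ext x
  constructor
  · rintro ⟨g, hg, rfl⟩
    have hg' : Matrix.GeneralLinearGroup.det g.1 = 1 := hg
    change Matrix.GeneralLinearGroup.det (isometryCongr e Q Q' h g).1 = 1
    apply Units.ext
    rw [isometryCongr_coe, det_glCongr, hg']
    simp
  · intro hx
    have hx' : Matrix.GeneralLinearGroup.det x.1 = 1 := hx
    refine ⟨(isometryCongr e Q Q' h).symm x, ?_, by simp⟩
    change Matrix.GeneralLinearGroup.det ((isometryCongr e Q Q' h).symm x).1 = 1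
    apply Units.ext
    apply e.injective
    rw [← det_glCongr, ← isometryCongr_coe e Q Q' h, MulEquiv.apply_symm_apply, hx']
    simp

end Cfsg.Agent.Lib.Classical.RC
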