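/-
Actions of isometry groups on the vectors with `Q v = 0` or other invariant sets.
-/
import Mathlib
import Cfsg.Prelude.Def_ClassicalGeometry

set_option autoImplicit false
set_option linter.unusedSectionVars false

open scoped Matrix
open Matrix

namespace Cfsg.Agent.Lib.Classical.Small

variable {ι : Type} [Fintype ι] [DecidableEq ι] {F : Type*} [Field F]

/-- The action of the isometry group on a subset of vectors preserved by all isometries. -/
def isoAct (Q : (ι → F) → F) (S : Set (ι → F)) (hS : ∀ g : Cfsg.isometryGroup F Q, ∀ v ∈ S,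
    ((g.1 : Matrix.GeneralLinearGroup ι F) : Matrix ι ι F) *ᵥ v ∈ S) :
    Cfsg.isometryGroup F Q →* Equiv.Perm S where
  toFun g :=
    { toFun := fun v => ⟨((g.1 : Matrix.GeneralLinearGroup ι F) : Matrix ι ι F) *ᵥ v.1, hS g v.1 v.2⟩
      invFun := fun v => ⟨((g⁻¹.1 : Matrix.GeneralLinearGroup ι F) : Matrix ι ι F) *ᵥ v.1, hS g⁻¹ v.1 v.2⟩
      left_inv := fun v => by
        apply Subtype.ext
        change ((g⁻¹.1 : Matrix.GeneralLinearGroup ι F) : Matrix ι ι F) *ᵥ (((g.1 : Matrix.GeneralLinearGroup ι F) : Matrix ι ι F) *ᵥ v.1) = v.1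
        rw [Matrix.mulVec_mulVec]
        have : ((g⁻¹.1 : Matrix.GeneralLinearGroup ι F) : Matrix ι ι F) * ((g.1 : Matrix.GeneralLinearGroup ι F) : Matrix ι ι F) = 1 := by
          have h := congrArg (fun x : Cfsg.isometryGroup F Q => ((x.1 : Matrix.GeneralLinearGroup ι F) : Matrix ι ι F)) (inv_mul_cancel g)
          exact h
        rw [this, Matrix.one_mulVec]
      right_inv := fun v => by
        apply Subtype.ext
        change ((g.1 : Matrix.GeneralLinearGroup ι F) : Matrix ι ι F) *ᵥ (((g⁻¹.1 : Matrix.GeneralLinearGroup ι F) : Matrix ι ι F) *ᵥ v.1) = v.1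
        rw [Matrix.mulVec_mulVec]
        have : ((g.1 : Matrix.GeneralLinearGroup ι F) : Matrix ι ι F) * ((g⁻¹.1 : Matrix.GeneralLinearGroup ι F) : Matrix ι ι F) = 1 := by
          have h := congrArg (fun x : Cfsg.isometryGroup F Q => ((x.1 : Matrix.GeneralLinearGroup ι F) : Matrix ι ι F)) (mul_inv_cancel g)
          exact h
        rw [this, Matrix.one_mulVec] }
  map_one' := by
    ext v : 2
    change (1 : Matrix ι ι F) *ᵥ v.1 = v.1
    rw [Matrix.one_mulVec]
  map_mul' a b := by
    ext v : 2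
    change (((a.1 : Matrix.GeneralLinearGroup ι F) : Matrix ι ι F) * ((b.1 : Matrix.GeneralLinearGroup ι F) : Matrix ι ι F)) *ᵥ v.1 =
      ((a.1 : Matrix.GeneralLinearGroup ι F) : Matrix ι ι F) *ᵥ (((b.1 : Matrix.GeneralLinearGroup ι F) : Matrix ι ι F) *ᵥ v.1)
    rw [Matrix.mulVec_mulVec]

@[simp] lemma isoAct_apply (Q : (ι → F) → F) (S : Set (ι → F)) (hS : ∀ g : Cfsg.isometryGroup F Q, ∀ v ∈ S,
    ((g.1 : Matrix.GeneralLinearGroup ι F) : Matrix ι ι F) *ᵥ v ∈ S) (g : Cfsg.isometryGroup F Q) (v : S) :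
    ((isoAct Q S hS g) v).1 = ((g.1 : Matrix.GeneralLinearGroup ι F) : Matrix ι ι F) *ᵥ v.1 := rfl

/-- If the vectors of `S` span, the action on `S` is faithful. -/
lemma isoAct_injective (Q : (ι → F) → F) (S : Set (ι → F)) (hS : ∀ g : Cfsg.isometryGroup F Q, ∀ v ∈ S,
    ((g.1 : Matrix.GeneralLinearGroup ι F) : Matrix ι ι F) *ᵥ v ∈ S)
    (hspan : Submodule.span F S = ⊤) : Function.Injective (isoAct Q S hS) := by
  rw [injective_iff_map_eq_one]
  intro g hg
  have h1 : ∀ v ∈ S, ((g.1 : Matrix.GeneralLinearGroup ι F) : Matrix ι ι F) *ᵥ v = v := by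
    intro v hv
    have := congrArg (fun p : Equiv.Perm S => (p ⟨v, hv⟩).1) hg
    simpa using this
  have h2 : ∀ v, ((g.1 : Matrix.GeneralLinearGroup ι F) : Matrix ι ι F) *ᵥ v = v := by
    intro v
    have hv : v ∈ Submodule.span F S := by rw [hspan]; trivial
    induction hv using Submodule.span_induction with
    | mem x hx => exact h1 x hx
    | zero => simp
    | add x y _ _ hx hy => rw [Matrix.mulVec_add, hx, hy]
    | smul c x _ hx => rw [Matrix.mulVec_smul, hx]
  apply Subtype.ext
  apply Units.ext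
  apply Matrix.toLin'.injective
  apply LinearMap.ext
  intro v
  simpa using h2 v

/-- The non-zero zeros of `Q` are preserved by isometries. -/
lemma sing_stable (Q : (ι → F) → F) (c : F) (g : Cfsg.isometryGroup F Q) (v : ι → F)
    (hv : v ∈ {v | v ≠ 0 ∧ Q v = c}) :
    ((g.1 : Matrix.GeneralLinearGroup ι F) : Matrix ι ι F) *ᵥ v ∈ {v | v ≠ 0 ∧ Q v = c} := by
  refine ⟨?_, ?_⟩
  · intro h0
    apply hv.1
    have h1 : ((g⁻¹.1 : Matrix.GeneralLinearGroup ι F) : Matrix ι ι F) * ((g.1 : Matrix.GeneralLinearGroup ι F) : Matrix ι ι F) = 1 := by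
      have h := congrArg (fun x : Cfsg.isometryGroup F Q => ((x.1 : Matrix.GeneralLinearGroup ι F) : Matrix ι ι F)) (inv_mul_cancel g)
      exact h
    have := congrArg (fun w => ((g⁻¹.1 : Matrix.GeneralLinearGroup ι F) : Matrix ι ι F) *ᵥ w) h0
    simpa [Matrix.mulVec_mulVec, h1] using this
  · have : Q (((g.1 : Matrix.GeneralLinearGroup ι F) : Matrix ι ι F) *ᵥ v) = Q v := g.2 v 0
    rw [this]
    exact hv.2

/-- Counting the non-zero zeros. -/
lemma card_sing_add_one {V : Type*} [AddCommGroup V] [Finite V] (Q : V → F) (hQ0 : Q 0 = 0) :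
    Nat.card {v : V // Q v = 0} = Nat.card {v : V // v ≠ 0 ∧ Q v = 0} + 1 := by
  classical
  have e2 : {v : V // Q v = 0} ≃ Option {x : V // x ≠ 0 ∧ Q x = 0} :=
    { toFun := fun v => if h : v.1 = 0 then none else some ⟨v.1, h, v.2⟩
      invFun := fun o => o.elim ⟨0, hQ0⟩ (fun x => ⟨x.1, x.2.2⟩)
      left_inv := by
        intro v
        by_cases h : v.1 = 0
        · simp only [h, dite_true, Option.elim_none]
          exact Subtype.ext h.symm
        · simp [h]
      right_inv := by
        intro o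
        cases o with
        | none => simp
        | some x =>
          have := x.2.1
          simp [this] }
  rw [Nat.card_congr e2]
  simp [Finite.card_option]

/-- A set spans as soon as its span contains all coordinate vectors. -/
lemma span_eq_top_of_single (S : Set (ι → F)) (h : ∀ i : ι, (Pi.single i 1 : ι → F) ∈ Submodule.span F S) :
    Submodule.span F S = ⊤ := by
  rw [eq_top_iff, ← (Pi.basisFun F ι).span_eq, Submodule.span_le]
  rintro _ ⟨i, rfl⟩
  simpa using h i

end Cfsg.Agent.Lib.Classical.Small
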