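/-
Involutions of the projective symplectic group, odd characteristic: at most ⌊m/2⌋ + 1 conjugacy classes.
-/
import Mathlib
import Cfsg.Agent.Lib.Classical.CplxConj
import Cfsg.Agent.Lib.Classical.SympStd
import Cfsg.Agent.Lib.Classical.SpPerfect
import Cfsg.Agent.Lib.Classical.SpCenter
import Cfsg.Agent.Lib.Classical.IsoBridge

set_option autoImplicit false
set_option linter.unusedSectionVars false

open scoped MatrixGroups Matrix
open Matrix

namespace Cfsg.Agent.Lib.Classical.SpInv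

open Cfsg.Agent.Lib.Classical Cfsg.Agent.Lib.Classical.Abs

variable {m : ℕ} {F : Type*} [Field F]

local notation "Vv" => (Fin m ⊕ Fin m → F)
local notation "f" => Cfsg.sympForm m F
local notation "Mm" => Matrix (Fin m ⊕ Fin m) (Fin m ⊕ Fin m) F
local notation "Sp" => symplecticGroup (Fin m) F

/-- `Sp` as an abstract isometry group. -/
noncomputable def spI (m : ℕ) (F : Type*) [Field F] : symplecticGroup (Fin m) F ≃* isoG (Cfsg.sympForm m F) :=
  (spEquivGL m F).trans (glIsoEquiv (Cfsg.sympForm m F))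

lemma spI_apply (A : Sp) (v : Vv) : (spI m F A).1 v = (A : Mm) *ᵥ v :=
  glIsoEquiv_apply (Cfsg.sympForm m F) (spEquivGL m F A) v

/-- A linear isometry conjugating `x` to `y` yields conjugacy in `Sp`. -/
lemma conj_of_linear (x y : Sp) (θ : Vv ≃ₗ[F] Vv) (hθ : ∀ u v, f (θ u) (θ v) = f u v)
    (hc : ∀ u, θ ((x : Mm) *ᵥ u) = (y : Mm) *ᵥ θ u) : IsConj x y := by
  let g : Sp := (spI m F).symm ⟨θ, hθ⟩
  have hg : ∀ u, (g : Mm) *ᵥ u = θ u := by
    intro u
    rw [← spI_apply]
    simp [g]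
  rw [isConj_iff]
  refine ⟨g, ?_⟩
  rw [mul_inv_eq_iff_eq_mul]
  apply sp_ext
  intro u
  rw [coe_sp_mul, coe_sp_mul, ← Matrix.mulVec_mulVec, ← Matrix.mulVec_mulVec, hg, hg, hc]

variable (x : symplecticGroup (Fin m) F)

/-- The linear map of a symplectic matrix. -/
noncomputable def Lx : Vv →ₗ[F] Vv := Matrix.mulVecLin (x : Mm)

@[simp] lemma Lx_apply (u : Vv) : Lx x u = (x : Mm) *ᵥ u := rfl

/-- The `-1` eigenspace. -/
noncomputable def Wm : Submodule F Vv := LinearMap.ker (Lx x + LinearMap.id)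

/-- The `+1` eigenspace. -/
noncomputable def Wp : Submodule F Vv := LinearMap.ker (Lx x - LinearMap.id)

lemma mem_Wm {u : Vv} : u ∈ Wm x ↔ (x : Mm) *ᵥ u = -u := by
  simp only [Wm, LinearMap.mem_ker, LinearMap.add_apply, LinearMap.id_apply, Lx_apply]
  exact add_eq_zero_iff_eq_neg

lemma mem_Wp {u : Vv} : u ∈ Wp x ↔ (x : Mm) *ᵥ u = u := by
  simp only [Wp, LinearMap.mem_ker, LinearMap.sub_apply, LinearMap.id_apply, Lx_apply]
  exact sub_eq_zero

variable {x}

section sq

variable (h2 : (2 : F) ≠ 0) (hx : (x : Matrix (Fin m ⊕ Fin m) (Fin m ⊕ Fin m) F) * (x : Matrix (Fin m ⊕ Fin m) (Fin m ⊕ Fin m) F) = 1)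

include hx in
lemma sq_apply (u : Vv) : (x : Mm) *ᵥ ((x : Mm) *ᵥ u) = u := by
  rw [Matrix.mulVec_mulVec, hx, Matrix.one_mulVec]

include h2 hx in
lemma isCompl_W : IsCompl (Wm x) (Wp x) := by
  constructor
  · rw [Submodule.disjoint_def]
    intro u h1 h3
    rw [mem_Wm] at h1
    rw [mem_Wp] at h3
    have h4 : u = -u := h3.symm.trans h1
    have h5 : (2 : F) • u = 0 := by
      rw [two_smul]
      nth_rw 1 [h4]
      simp
    exact (smul_eq_zero.mp h5).resolve_left h2
  · rw [codisjoint_iff, eq_top_iff]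
    intro v _
    have h1 : (2⁻¹ : F) • (v - (x : Mm) *ᵥ v) ∈ Wm x := by
      rw [mem_Wm, Matrix.mulVec_smul, Matrix.mulVec_sub, sq_apply hx, ← smul_neg, neg_sub]
    have h3 : (2⁻¹ : F) • (v + (x : Mm) *ᵥ v) ∈ Wp x := by
      rw [mem_Wp, Matrix.mulVec_smul, Matrix.mulVec_add, sq_apply hx, add_comm]
    have h4 : v = (2⁻¹ : F) • (v - (x : Mm) *ᵥ v) + (2⁻¹ : F) • (v + (x : Mm) *ᵥ v) := by
      rw [← smul_add]
      have : v - (x : Mm) *ᵥ v + (v + (x : Mm) *ᵥ v) = (2 : F) • v := by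
        rw [two_smul]
        abel
      rw [this, smul_smul, inv_mul_cancel₀ h2, one_smul]
    rw [h4]
    exact Submodule.add_mem_sup h1 h3

include h2 in
lemma orth_W {u w : Vv} (hu : u ∈ Wm x) (hw : w ∈ Wp x) : f u w = 0 := by
  have h1 := sp_preserves x u w
  rw [(mem_Wm x).mp hu, (mem_Wp x).mp hw] at h1
  have h3 : (-u) = (-1 : F) • u := by simp
  rw [h3, sympForm_smul_left] at h1
  have h4 : (2 : F) * f u w = 0 := by linear_combination -h1
  exact (mul_eq_zero.mp h4).resolve_left h2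

include h2 in
lemma add_W {w w' u u' : Vv} (hw : w ∈ Wm x) (hw' : w' ∈ Wp x) (hu : u ∈ Wm x) (hu' : u' ∈ Wp x) :
    f (w + w') (u + u') = f w u + f w' u' := by
  rw [sympForm_add_left, sympForm_add_right, sympForm_add_right, orth_W h2 hw hu', sympForm_flip u w',
    orth_W h2 hu hw']
  simp

include h2 hx in
lemma nondeg_Wm : ((sympBilin m F).restrict (Wm x)).Nondegenerate := by
  have hL : ((sympBilin m F).restrict (Wm x)).SeparatingLeft := by
    intro a ha
    apply Subtype.ext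
    apply sympForm_eq_zero_iff
    intro u
    rw [sympForm_flip, neg_eq_zero]
    obtain ⟨w, hw, w', hw', rfl⟩ := Submodule.mem_sup.mp
      (show u ∈ Wm x ⊔ Wp x by rw [(isCompl_W h2 hx).sup_eq_top]; trivial)
    rw [sympForm_add_right, orth_W h2 a.2 hw', add_zero]
    exact ha ⟨w, hw⟩
  refine ⟨hL, ?_⟩
  intro a ha
  apply hL
  intro b
  have h1 := ha b
  change f b a = 0 at h1
  change f a b = 0
  rw [sympForm_flip, h1, neg_zero]

include h2 hx in
lemma nondeg_Wp : ((sympBilin m F).restrict (Wp x)).Nondegenerate := by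
  have hL : ((sympBilin m F).restrict (Wp x)).SeparatingLeft := by
    intro a ha
    apply Subtype.ext
    apply sympForm_eq_zero_iff
    intro u
    rw [sympForm_flip, neg_eq_zero]
    obtain ⟨w, hw, w', hw', rfl⟩ := Submodule.mem_sup.mp
      (show u ∈ Wm x ⊔ Wp x by rw [(isCompl_W h2 hx).sup_eq_top]; trivial)
    rw [sympForm_add_right, sympForm_flip, orth_W h2 hw a.2, neg_zero, zero_add]
    exact ha ⟨w', hw'⟩
  refine ⟨hL, ?_⟩
  intro a ha
  apply hL
  intro b
  have h1 := ha b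
  change f b a = 0 at h1
  change f a b = 0
  rw [sympForm_flip, h1, neg_zero]

include h2 hx in
lemma finrank_W_add : Module.finrank F (Wm x) + Module.finrank F (Wp x) = 2 * m := by
  rw [Submodule.finrank_add_eq_of_isCompl (isCompl_W h2 hx)]
  simp
  omega

end sq

/-- Non-degenerate alternating forms live on even-dimensional spaces. -/
lemma even_of_alt {V : Type*} [AddCommGroup V] [Module F V] [FiniteDimensional F V]
    (B : LinearMap.BilinForm F V) (hB : B.Nondegenerate) (hA : B.IsAlt) : ∃ j, Module.finrank F V = 2 * j := by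
  obtain ⟨m', k, b, h1, h2, h3, h4⟩ := Cfsg.Agent.S0752.result B hA
  have hk : k = 0 := by
    by_contra hk
    have hpos : 0 < k := Nat.pos_of_ne_zero hk
    have h0 := hB.1 (b (Sum.inr ⟨0, hpos⟩)) (h4 ⟨0, hpos⟩)
    exact b.ne_zero _ h0
  subst hk
  refine ⟨m', ?_⟩
  have := Module.finrank_eq_card_basis b
  simp at this
  omega

/-- Glueing along two direct sums. -/
noncomputable def glue2 {V : Type*} [AddCommGroup V] [Module F V] {W W' U U' : Submodule F V}
    (hc : IsCompl W W') (hc' : IsCompl U U') (a : W ≃ₗ[F] U) (b : W' ≃ₗ[F] U') : V ≃ₗ[F] V :=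
  ((Submodule.prodEquivOfIsCompl W W' hc).symm.trans (a.prodCongr b)).trans (Submodule.prodEquivOfIsCompl U U' hc')

lemma glue2_add {V : Type*} [AddCommGroup V] [Module F V] {W W' U U' : Submodule F V}
    (hc : IsCompl W W') (hc' : IsCompl U U') (a : W ≃ₗ[F] U) (b : W' ≃ₗ[F] U') (w : W) (w' : W') :
    glue2 hc hc' a b ((w : V) + w') = (a w : V) + (b w' : V) := by
  have h1 : (Submodule.prodEquivOfIsCompl W W' hc) (w, w') = (w : V) + w' := by
    simp [Submodule.coe_prodEquivOfIsCompl']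
  simp only [glue2, LinearEquiv.trans_apply]
  rw [← h1, LinearEquiv.symm_apply_apply]
  simp [Submodule.coe_prodEquivOfIsCompl']

/-- Symplectic involutions with eigenspaces of the same dimensions are conjugate. -/
theorem conj_of_sq_one (h2 : (2 : F) ≠ 0) {x y : Sp} (hx : (x : Mm) * (x : Mm) = 1) (hy : (y : Mm) * (y : Mm) = 1)
    (hd : Module.finrank F (Wm x) = Module.finrank F (Wm y)) : IsConj x y := by
  classical
  obtain ⟨j, hj⟩ := even_of_alt _ (nondeg_Wm h2 hx) (fun u => sympForm_self _)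
  have hj' : Module.finrank F (Wm y) = 2 * j := by rw [← hd, hj]
  have hjm : Module.finrank F (Wp x) = 2 * (m - j) := by
    have := finrank_W_add h2 hx
    omega
  have hjm' : Module.finrank F (Wp y) = 2 * (m - j) := by
    have := finrank_W_add h2 hy
    omega
  obtain ⟨θ₁, hθ₁⟩ := exists_symp_isometry _ (nondeg_Wm h2 hx) (fun u => sympForm_self _) j hj
  obtain ⟨η₁, hη₁⟩ := exists_symp_isometry _ (nondeg_Wm h2 hy) (fun u => sympForm_self _) j hj'
  obtain ⟨θ₂, hθ₂⟩ := exists_symp_isometry _ (nondeg_Wp h2 hx) (fun u => sympForm_self _) (m - j) hjm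
  obtain ⟨η₂, hη₂⟩ := exists_symp_isometry _ (nondeg_Wp h2 hy) (fun u => sympForm_self _) (m - j) hjm'
  let a : Wm x ≃ₗ[F] Wm y := θ₁.trans η₁.symm
  let b : Wp x ≃ₗ[F] Wp y := θ₂.trans η₂.symm
  have ha : ∀ u v, f (a u) (a v) = f u v := by
    intro u v
    have h1 := hη₁ (a u) (a v)
    have h3 := hθ₁ u v
    simp only [a, LinearEquiv.trans_apply, LinearEquiv.apply_symm_apply] at h1
    exact h1.symm.trans h3
  have hb : ∀ u v, f (b u) (b v) = f u v := by
    intro u v
    have h1 := hη₂ (b u) (b v)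
    have h3 := hθ₂ u v
    simp only [b, LinearEquiv.trans_apply, LinearEquiv.apply_symm_apply] at h1
    exact h1.symm.trans h3
  have hcx := isCompl_W h2 hx
  have hcy := isCompl_W h2 hy
  refine conj_of_linear x y (glue2 hcx hcy a b) ?_ ?_
  · intro u v
    obtain ⟨w, hw, w', hw', rfl⟩ := Submodule.mem_sup.mp (show u ∈ Wm x ⊔ Wp x by rw [hcx.sup_eq_top]; trivial)
    obtain ⟨z, hz, z', hz', rfl⟩ := Submodule.mem_sup.mp (show v ∈ Wm x ⊔ Wp x by rw [hcx.sup_eq_top]; trivial)
    have e1 := glue2_add hcx hcy a b ⟨w, hw⟩ ⟨w', hw'⟩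
    have e2 := glue2_add hcx hcy a b ⟨z, hz⟩ ⟨z', hz'⟩
    simp only at e1 e2
    rw [e1, e2, add_W h2 (a _).2 (b _).2 (a _).2 (b _).2, add_W h2 hw hw' hz hz', ha, hb]
  · intro u
    obtain ⟨w, hw, w', hw', rfl⟩ := Submodule.mem_sup.mp (show u ∈ Wm x ⊔ Wp x by rw [hcx.sup_eq_top]; trivial)
    have e1 := glue2_add hcx hcy a b ⟨w, hw⟩ ⟨w', hw'⟩
    have e2 := glue2_add hcx hcy a b (-⟨w, hw⟩) ⟨w', hw'⟩
    simp only at e1 e2
    rw [e1, Matrix.mulVec_add, Matrix.mulVec_add, (mem_Wm x).mp hw, (mem_Wp x).mp hw', (mem_Wm y).mp (a _).2,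
      (mem_Wp y).mp (b _).2]
    simpa using e2

/-- Symplectic elements of square `-1` are conjugate. -/
theorem conj_of_sq_neg [Fintype F] (h2 : (2 : F) ≠ 0) {x y : Sp} (hx : (x : Mm) * (x : Mm) = -1)
    (hy : (y : Mm) * (y : Mm) = -1) : IsConj x y := by
  classical
  have hxs : ∀ (z : Sp), (z : Mm) * (z : Mm) = -1 → ∀ u, Lx z (Lx z u) = -u := by
    intro z hz u
    rw [Lx_apply, Lx_apply, Matrix.mulVec_mulVec, hz, Matrix.neg_mulVec, Matrix.one_mulVec]
  have hdim : Module.finrank F Vv = 2 * m := by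
    simp
    omega
  obtain ⟨θ, hθ1, hθ2⟩ := Cplx.cplx_classify h2 m Vv Vv (sympBilin m F) (sympBilin m F)
    sympBilin_nondegenerate sympBilin_nondegenerate sympBilin_isAlt sympBilin_isAlt (Lx x) (Lx y)
    (hxs x hx) (hxs y hy) (fun u v => sp_preserves x u v) (fun u v => sp_preserves y u v) hdim hdim
  exact conj_of_linear x y θ hθ1 hθ2

/-- `-1` in `Sp`. -/
def negSp (m : ℕ) (F : Type*) [Field F] : symplecticGroup (Fin m) F :=
  ⟨-1, mem_symplecticGroup_iff_preserves.mpr (fun u v => by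
    simp only [Matrix.neg_mulVec, Matrix.one_mulVec]
    have h1 : (-u) = (-1 : F) • u := by simp
    have h3 : (-v) = (-1 : F) • v := by simp
    rw [h1, h3, sympForm_smul_left, sympForm_smul_right]
    ring)⟩

lemma negSp_coe : ((negSp m F : Sp) : Mm) = -1 := rfl

lemma negSp_center : negSp m F ∈ Subgroup.center Sp := by
  rw [Subgroup.mem_center_iff]
  intro g
  apply Subtype.ext
  simp only [coe_sp_mul, negSp_coe]
  simp

/-- The class of an involution. -/
def Cls (j : ℕ) (y : Cfsg.PSp m F) : Prop :=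
  ∃ x : Sp, ((x : Cfsg.PSp m F) = y) ∧ ((j = 0 ∧ (x : Mm) * (x : Mm) = -1) ∨
    (j ≠ 0 ∧ (x : Mm) * (x : Mm) = 1 ∧ Module.finrank F (Wm x) = 2 * j))

lemma exists_cls (h2 : (2 : F) ≠ 0) (hm : 1 ≤ m) (y : Cfsg.PSp m F) (hy : orderOf y = 2) :
    ∃ j, j ≤ m / 2 ∧ Cls j y := by
  classical
  obtain ⟨x, rfl⟩ := QuotientGroup.mk_surjective y
  have hy1 : ((x : Cfsg.PSp m F)) ≠ 1 := by
    intro h
    rw [h, orderOf_one] at hy
    omega
  have hy2 : ((x : Cfsg.PSp m F)) ^ 2 = 1 := by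
    rw [← hy]
    exact pow_orderOf_eq_one _
  have hxc : x ∉ Subgroup.center Sp := fun h => hy1 ((QuotientGroup.eq_one_iff x).mpr h)
  have hsq : x * x ∈ Subgroup.center Sp := by
    rw [← QuotientGroup.eq_one_iff, QuotientGroup.mk_mul, ← pow_two]
    exact hy2
  obtain ⟨a, ha, hax⟩ := sp_center_scalar hm (x * x) hsq
  have hax' : (x : Mm) * (x : Mm) = a • 1 := hax
  have ha2 : a = 1 ∨ a = -1 := by
    have : (a - 1) * (a + 1) = 0 := by linear_combination ha
    rcases mul_eq_zero.mp this with h | h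
    · exact Or.inl (sub_eq_zero.mp h)
    · exact Or.inr (eq_neg_of_add_eq_zero_left h)
  rcases ha2 with rfl | rfl
  · rw [one_smul] at hax'
    obtain ⟨j₀, hj₀⟩ := even_of_alt _ (nondeg_Wm h2 hax') (fun u => sympForm_self _)
    have hd := finrank_W_add h2 hax'
    have hc := isCompl_W h2 hax'
    have hj1 : j₀ ≠ 0 := by
      rintro rfl
      have h0 : Wm x = ⊥ := Submodule.finrank_eq_zero.mp (by simpa using hj₀)
      have h1 : Wp x = ⊤ := by
        have := hc.sup_eq_top
        rwa [h0, bot_sup_eq] at this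
      apply hxc
      have : x = 1 := by
        apply sp_ext
        intro u
        have hu : u ∈ Wp x := by rw [h1]; trivial
        rw [(mem_Wp x).mp hu]
        simp
      rw [this]
      exact Subgroup.one_mem _
    have hj2 : m - j₀ ≠ 0 := by
      intro h
      have h0 : Wp x = ⊥ := Submodule.finrank_eq_zero.mp (by omega)
      have h1 : Wm x = ⊤ := by
        have := hc.sup_eq_top
        rwa [h0, sup_bot_eq] at this
      apply hxc
      have : x = negSp m F := by
        apply sp_ext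
        intro u
        have hu : u ∈ Wm x := by rw [h1]; trivial
        rw [(mem_Wm x).mp hu, negSp_coe, Matrix.neg_mulVec, Matrix.one_mulVec]
      rw [this]
      exact negSp_center
    by_cases hle : j₀ ≤ m / 2
    · exact ⟨j₀, hle, x, rfl, Or.inr ⟨hj1, hax', hj₀⟩⟩
    · refine ⟨m - j₀, by omega, negSp m F * x, ?_, Or.inr ⟨hj2, ?_, ?_⟩⟩
      · rw [QuotientGroup.mk_mul, (QuotientGroup.eq_one_iff _).mpr negSp_center, one_mul]
      · rw [coe_sp_mul, negSp_coe]
        simp [hax']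
      · have heq : Wm (negSp m F * x) = Wp x := by
          ext u
          rw [mem_Wm, mem_Wp, coe_sp_mul, negSp_coe]
          simp only [neg_mul, one_mul, Matrix.neg_mulVec]
          exact neg_inj
        rw [heq]
        omega
  · refine ⟨0, Nat.zero_le _, x, rfl, Or.inl ⟨rfl, ?_⟩⟩
    rw [hax']
    simp

lemma conj_of_cls [Fintype F] (h2 : (2 : F) ≠ 0) {j : ℕ} {y z : Cfsg.PSp m F} (hy : Cls j y) (hz : Cls j z) :
    IsConj y z := by
  obtain ⟨x, rfl, hx⟩ := hy
  obtain ⟨x', rfl, hx'⟩ := hz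
  have key : IsConj x x' := by
    rcases hx with ⟨h0, h1⟩ | ⟨h0, h1, h3⟩
    · rcases hx' with ⟨_, h1'⟩ | ⟨h0', _, _⟩
      · exact conj_of_sq_neg h2 h1 h1'
      · exact absurd h0 h0'
    · rcases hx' with ⟨h0', _⟩ | ⟨_, h1', h3'⟩
      · exact absurd h0' h0
      · exact conj_of_sq_one h2 h1 h1' (by rw [h3, h3'])
  exact MonoidHom.map_isConj (QuotientGroup.mk' (Subgroup.center Sp)) key

/-- The invariant on the involutions of `PSp`. -/
theorem psp_classes [Fintype F] (h2 : (2 : F) ≠ 0) (hm : 1 ≤ m) :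
    ∃ κ : Cfsg.PSp m F → ℕ, (∀ y, orderOf y = 2 → κ y < m / 2 + 1) ∧
      ∀ y z, orderOf y = 2 → orderOf z = 2 → κ y = κ z → IsConj y z := by
  classical
  let κ : Cfsg.PSp m F → ℕ := fun y => if h : orderOf y = 2 then Classical.choose (exists_cls h2 hm y h) else 0
  have hκ : ∀ y (h : orderOf y = 2), κ y ≤ m / 2 ∧ Cls (κ y) y := by
    intro y h
    simp only [κ, dif_pos h]
    exact Classical.choose_spec (exists_cls h2 hm y h)
  refine ⟨κ, fun y h => Nat.lt_succ_of_le (hκ y h).1, ?_⟩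
  intro y z hy hz heq
  have h1 := (hκ y hy).2
  have h3 := (hκ z hz).2
  rw [← heq] at h3
  exact conj_of_cls h2 h1 h3

/-- The pigeonhole principle for conjugacy classes of involutions. -/
theorem no_iso {G H : Type*} [Group G] [Group H] (m J : ℕ) (hJ : J < m) (t : Fin m → G)
    (ht : ∀ i, orderOf (t i) = 2) (hne : ∀ i j, IsConj (t i) (t j) → i = j) (κ : H → ℕ)
    (hκ : ∀ y, orderOf y = 2 → κ y < J)
    (hκ2 : ∀ y z, orderOf y = 2 → orderOf z = 2 → κ y = κ z → IsConj y z) : IsEmpty (G ≃* H) := by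
  refine ⟨fun e => ?_⟩
  have hord : ∀ i, orderOf (e (t i)) = 2 := fun i => by
    rw [MulEquiv.orderOf_eq, ht]
  let g : Fin m → Fin J := fun i => ⟨κ (e (t i)), hκ _ (hord i)⟩
  obtain ⟨i, j, hij, hg⟩ := Fintype.exists_ne_map_eq_of_card_lt g (by simpa using hJ)
  have h1 : κ (e (t i)) = κ (e (t j)) := congrArg Fin.val hg
  have h2 := hκ2 _ _ (hord i) (hord j) h1
  have h3 := MonoidHom.map_isConj e.symm.toMonoidHom h2
  simp only [MulEquiv.toMonoidHom_eq_coe, MonoidHom.coe_coe, MulEquiv.symm_apply_apply] at h3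
  exact hij (hne i j h3)

end Cfsg.Agent.Lib.Classical.SpInv
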