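import Mathlib
import Cfsg.Prelude.Def_ClassicalGeometry

set_option autoImplicit false

/-!
# The normaliser of the diagonal torus of `Sp_{2m}(q)`

Monomial matrices in the symplectic group: every element of the normaliser of the
diagonal torus is monomial when `q ≥ 4`, with permutation part in the centraliser of the
coordinate swap.
-/

namespace Cfsg.Agent.Lib.Classical.SpTorus

open Matrix

variable {F : Type*} [Field F] {m : ℕ}

/-- The coordinate swap. -/
abbrev sw (m : ℕ) : Equiv.Perm (Fin m ⊕ Fin m) := Equiv.sumComm _ _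

/-- Signs of the standard alternating matrix. -/
def sgnJ : Fin m ⊕ Fin m → F
  | .inl _ => -1
  | .inr _ => 1

@[simp] lemma sgnJ_inl (i : Fin m) : (sgnJ (Sum.inl i) : F) = -1 := rfl
@[simp] lemma sgnJ_inr (i : Fin m) : (sgnJ (Sum.inr i) : F) = 1 := rfl

lemma sgnJ_ne_zero (k : Fin m ⊕ Fin m) : (sgnJ k : F) ≠ 0 := by
  rcases k with i | i <;> simp

lemma J_apply (k k' : Fin m ⊕ Fin m) :
    J (Fin m) F k k' = if k' = sw m k then sgnJ k else 0 := by
  rcases k with i | i <;> rcases k' with j | j <;>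
    simp [J, Matrix.one_apply, eq_comm] <;> split_ifs <;> simp

/-- `A` has exactly the entries `(σ j, j)` nonzero. -/
def IsMono (A : Matrix (Fin m ⊕ Fin m) (Fin m ⊕ Fin m) F) (σ : Equiv.Perm (Fin m ⊕ Fin m)) : Prop :=
  ∀ k j, A k j ≠ 0 ↔ k = σ j

variable {A A' B : Matrix (Fin m ⊕ Fin m) (Fin m ⊕ Fin m) F} {σ τ : Equiv.Perm (Fin m ⊕ Fin m)}

lemma IsMono.eq_zero (h : IsMono A σ) {k j : Fin m ⊕ Fin m} (hk : k ≠ σ j) : A k j = 0 := by
  by_contra h0
  exact hk ((h k j).mp h0)

lemma IsMono.ne_zero (h : IsMono A σ) (j : Fin m ⊕ Fin m) : A (σ j) j ≠ 0 := (h _ _).mpr rfl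

lemma IsMono.unique (h1 : IsMono A σ) (h2 : IsMono A τ) : σ = τ :=
  Equiv.ext fun j => (h2 _ _).mp (h1.ne_zero j)

lemma mul_apply_right (hB : IsMono B τ) (k j : Fin m ⊕ Fin m) :
    (A * B) k j = A k (τ j) * B (τ j) j := by
  rw [Matrix.mul_apply]
  apply Finset.sum_eq_single (τ j)
  · intro l _ hl
    rw [hB.eq_zero hl, mul_zero]
  · simp

lemma IsMono.mul (hA : IsMono A σ) (hB : IsMono B τ) : IsMono (A * B) (σ * τ) := by
  intro k j
  rw [mul_apply_right hB, mul_ne_zero_iff]
  constructor
  · rintro ⟨h1, _⟩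
    exact (hA _ _).mp h1
  · intro h
    exact ⟨(hA _ _).mpr h, hB.ne_zero j⟩

lemma isMono_one : IsMono (1 : Matrix (Fin m ⊕ Fin m) (Fin m ⊕ Fin m) F) 1 := by
  intro k j
  simp [Matrix.one_apply]

lemma IsMono.inv (hA : IsMono A σ) (h : A' * A = 1) : IsMono A' σ⁻¹ := by
  intro k j
  have h1 : (A' * A) k (σ⁻¹ j) = (1 : Matrix (Fin m ⊕ Fin m) (Fin m ⊕ Fin m) F) k (σ⁻¹ j) := by rw [h]
  have e : σ (σ⁻¹ j) = j := by simp
  rw [mul_apply_right hA, Matrix.one_apply, e] at h1
  have h2 : A j (σ⁻¹ j) ≠ 0 := by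
    have := hA.ne_zero (σ⁻¹ j)
    rwa [e] at this
  constructor
  · intro h3
    by_contra h4
    rw [if_neg h4] at h1
    exact (mul_ne_zero h3 h2) h1
  · intro h3
    rw [if_pos h3] at h1
    intro h4
    rw [h4, zero_mul] at h1
    exact zero_ne_one h1

/-- The formula for the symplectic product of a monomial matrix. -/
lemma sp_entry (hA : IsMono A σ) (k k' : Fin m ⊕ Fin m) :
    (A * J (Fin m) F * Aᵀ) k k' =
      A k (σ⁻¹ k) * J (Fin m) F (σ⁻¹ k) (σ⁻¹ k') * A k' (σ⁻¹ k') := by
  have h1 : ∀ l : Fin m ⊕ Fin m, A k l = 0 ∨ l = σ⁻¹ k := by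
    intro l
    by_cases h : A k l = 0
    · exact Or.inl h
    · right
      have := (hA _ _).mp h
      rw [this]; simp
  have h2 : ∀ l : Fin m ⊕ Fin m, A k' l = 0 ∨ l = σ⁻¹ k' := by
    intro l
    by_cases h : A k' l = 0
    · exact Or.inl h
    · right
      have := (hA _ _).mp h
      rw [this]; simp
  rw [Matrix.mul_apply, Finset.sum_eq_single (σ⁻¹ k')]
  · congr 1
    rw [Matrix.mul_apply, Finset.sum_eq_single (σ⁻¹ k)]
    · intro l _ hl
      rcases h1 l with h | h
      · rw [h, zero_mul]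
      · exact absurd h hl
    · simp
  · intro l _ hl
    rcases h2 l with h | h
    · rw [Matrix.transpose_apply, h, mul_zero]
    · exact absurd h hl
  · simp

/-- σ commutes with the swap for symplectic monomial matrices. -/
lemma comm_swap_of_sp (hA : IsMono A σ) (hS : A ∈ symplecticGroup (Fin m) F)
    (k : Fin m ⊕ Fin m) : σ (sw m k) = sw m (σ k) := by
  have h : (A * J (Fin m) F * Aᵀ) (σ k) (σ (sw m k)) = J (Fin m) F (σ k) (σ (sw m k)) := by
    rw [SymplecticGroup.mem_iff.mp hS]
  rw [sp_entry hA] at h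
  have e1 : σ⁻¹ (σ k) = k := by simp
  have e2 : σ⁻¹ (σ (sw m k)) = sw m k := by simp
  rw [e1, e2] at h
  by_contra hne
  have h1 : J (Fin m) F (σ k) (σ (sw m k)) = 0 := by
    rw [J_apply, if_neg hne]
  have h2 : J (Fin m) F k (sw m k) ≠ 0 := by
    rw [J_apply, if_pos rfl]
    exact sgnJ_ne_zero k
  rw [h1] at h
  exact mul_ne_zero (mul_ne_zero (hA.ne_zero k) h2) (hA.ne_zero _) h

/-- Matrix with prescribed monomial shape. -/
def monoMat (σ : Equiv.Perm (Fin m ⊕ Fin m)) (c : Fin m ⊕ Fin m → F) :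
    Matrix (Fin m ⊕ Fin m) (Fin m ⊕ Fin m) F :=
  fun k j => if k = σ j then c j else 0

lemma isMono_monoMat (c : Fin m ⊕ Fin m → F) (hc : ∀ l, c l ≠ 0) : IsMono (monoMat σ c) σ := by
  intro k j
  unfold monoMat
  by_cases h : k = σ j
  · simp [h, hc]
  · simp [h]

lemma monoMat_apply_self (c : Fin m ⊕ Fin m → F) (j : Fin m ⊕ Fin m) :
    monoMat σ c (σ j) j = c j := by
  simp [monoMat]

lemma monoMat_mem (c : Fin m ⊕ Fin m → F) (hc0 : ∀ l, c l ≠ 0)
    (hσ : ∀ k, σ (sw m k) = sw m (σ k))
    (hc : ∀ l, c l * c (sw m l) * sgnJ l = sgnJ (σ l)) :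
    monoMat σ c ∈ symplecticGroup (Fin m) F := by
  rw [SymplecticGroup.mem_iff]
  ext k k'
  rw [sp_entry (isMono_monoMat c hc0)]
  obtain ⟨l, rfl⟩ := σ.surjective k
  obtain ⟨l', rfl⟩ := σ.surjective k'
  have e1 : σ⁻¹ (σ l) = l := by simp
  have e2 : σ⁻¹ (σ l') = l' := by simp
  rw [e1, e2, monoMat_apply_self, monoMat_apply_self]
  rw [J_apply, J_apply]
  by_cases h : l' = sw m l
  · subst h
    rw [if_pos rfl, if_pos (hσ l)]
    rw [← hc l]
    ring
  · rw [if_neg h, if_neg]
    · ring
    · intro h2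
      apply h
      apply σ.injective
      rw [h2, hσ]

/-- diag entries: the diagonal of a member of `Sp`. -/
lemma diag_relation (hA : IsMono A 1) (hS : A ∈ symplecticGroup (Fin m) F) (i : Fin m) :
    A (Sum.inl i) (Sum.inl i) * A (Sum.inr i) (Sum.inr i) = 1 := by
  have h : (A * J (Fin m) F * Aᵀ) (Sum.inl i) (Sum.inr i) = J (Fin m) F (Sum.inl i) (Sum.inr i) := by
    rw [SymplecticGroup.mem_iff.mp hS]
  rw [sp_entry hA] at h
  simp only [inv_one, Equiv.Perm.coe_one, id_eq, J_apply] at h
  simp at h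
  exact h

lemma sw_ne (j : Fin m ⊕ Fin m) : sw m j ≠ j := by
  rcases j with i | i <;> simp

lemma sw_sw (j : Fin m ⊕ Fin m) : sw m (sw m j) = j := by
  rcases j with i | i <;> simp

/-- The test eigenvalue vector. -/
def tauV (a : F) (j : Fin m ⊕ Fin m) : Fin m ⊕ Fin m → F :=
  fun l => if l = j then a else if l = sw m j then a⁻¹ else 1

lemma tauV_eq_iff {a : F} (ha0 : a ≠ 0) (ha1 : a ^ 2 ≠ 1) (j l : Fin m ⊕ Fin m) :
    tauV a j l = a ↔ l = j := by
  unfold tauV
  split_ifs with h1 h2
  · simp [h1]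
  · constructor
    · intro h
      exfalso
      apply ha1
      rw [sq]
      nth_rewrite 1 [← h]
      exact inv_mul_cancel₀ ha0
    · intro h
      exact absurd h h1
  · constructor
    · intro h
      exfalso
      apply ha1
      rw [← h]
      simp
    · intro h
      exact absurd h h1

lemma tauV_ne_zero {a : F} (ha0 : a ≠ 0) (j l : Fin m ⊕ Fin m) : tauV a j l ≠ 0 := by
  unfold tauV
  split_ifs
  · exact ha0
  · exact inv_ne_zero ha0
  · exact one_ne_zero

lemma tauV_mul_swap {a : F} (ha0 : a ≠ 0) (j l : Fin m ⊕ Fin m) :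
    tauV a j l * tauV a j (sw m l) = 1 := by
  unfold tauV
  by_cases h1 : l = j
  · subst h1
    rw [if_pos rfl, if_neg (sw_ne l), if_pos rfl]
    exact mul_inv_cancel₀ ha0
  · by_cases h2 : l = sw m j
    · subst h2
      rw [if_neg h1, if_pos rfl, sw_sw, if_pos rfl]
      exact inv_mul_cancel₀ ha0
    · rw [if_neg h1, if_neg h2, if_neg, if_neg, one_mul]
      · intro h
        apply h1
        have := congrArg (sw m) h
        rwa [sw_sw, sw_sw] at this
      · intro h
        apply h2
        rw [← h, sw_sw]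

lemma monoMat_one (c : Fin m ⊕ Fin m → F) : monoMat 1 c = Matrix.diagonal c := by
  ext k j
  unfold monoMat
  by_cases h : k = j
  · subst h
    simp
  · simp [h]

lemma tauV_mem {a : F} (ha0 : a ≠ 0) (j : Fin m ⊕ Fin m) :
    monoMat 1 (tauV a j) ∈ symplecticGroup (Fin m) F := by
  apply monoMat_mem _ (tauV_ne_zero ha0 j)
  · intro k
    rfl
  · intro l
    rw [tauV_mul_swap ha0, one_mul]
    rfl

lemma isMono_tauV {a : F} (ha0 : a ≠ 0) (j : Fin m ⊕ Fin m) :
    IsMono (monoMat 1 (tauV a j)) 1 := isMono_monoMat _ (tauV_ne_zero ha0 j)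

lemma exists_mono (h1 : A * A' = 1) (h2 : A' * A = 1) {a : F} (ha0 : a ≠ 0) (ha1 : a ^ 2 ≠ 1)
    (hN : ∀ j, ∃ d : Fin m ⊕ Fin m → F, A * monoMat 1 (tauV a j) = Matrix.diagonal d * A) :
    ∃ σ, IsMono A σ := by
  have hcol : ∀ j k k', A k j ≠ 0 → A k' j ≠ 0 → k = k' := by
    intro j k k' hk hk'
    obtain ⟨d, hd⟩ := hN j
    rw [monoMat_one] at hd
    have e : ∀ k l, A k l * tauV a j l = d k * A k l := by
      intro k l
      have h3 : (A * Matrix.diagonal (tauV a j)) k l = (Matrix.diagonal d * A) k l := by rw [hd]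
      rwa [Matrix.mul_diagonal, Matrix.diagonal_mul] at h3
    have htj : tauV a j j = a := (tauV_eq_iff ha0 ha1 j j).mpr rfl
    have hd' : ∀ k, A k j ≠ 0 → d k = a := by
      intro k hk
      have h3 := e k j
      rw [htj, mul_comm] at h3
      exact (mul_right_cancel₀ hk h3).symm
    have hsupp : ∀ k, A k j ≠ 0 → ∀ l, l ≠ j → A k l = 0 := by
      intro k hk l hl
      by_contra h4
      have h3 := e k l
      rw [hd' k hk, mul_comm] at h3
      have h5 := mul_right_cancel₀ h4 h3
      exact hl ((tauV_eq_iff ha0 ha1 j l).mp h5)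
    have hrow : ∀ k, A k j ≠ 0 → ∀ n, (A * A') k n = A k j * A' j n := by
      intro k hk n
      rw [Matrix.mul_apply]
      apply Finset.sum_eq_single j
      · intro l _ hl
        rw [hsupp k hk l hl, zero_mul]
      · simp
    have h3 := hrow k' hk' k'
    rw [h1, Matrix.one_apply_eq] at h3
    have h4 : A' j k' ≠ 0 := by
      intro h5
      rw [h5, mul_zero] at h3
      exact one_ne_zero h3
    have h5 := hrow k hk k'
    rw [h1] at h5
    by_contra hne
    rw [Matrix.one_apply_ne hne] at h5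
    exact mul_ne_zero hk h4 h5.symm
  have hex : ∀ j, ∃ k, A k j ≠ 0 := by
    intro j
    have h3 : (A' * A) j j = 1 := by rw [h2, Matrix.one_apply_eq]
    rw [Matrix.mul_apply] at h3
    have h4 : ∑ k, A' j k * A k j ≠ 0 := by
      rw [h3]
      exact one_ne_zero
    obtain ⟨k, _, hk⟩ := Finset.exists_ne_zero_of_sum_ne_zero h4
    exact ⟨k, right_ne_zero_of_mul hk⟩
  choose f hf using hex
  have hinj : Function.Injective f := by
    intro j j' hjj
    have hcolA : ∀ n, (A' * A) n j' = A' n (f j') * A (f j') j' := by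
      intro n
      rw [Matrix.mul_apply]
      apply Finset.sum_eq_single (f j')
      · intro l _ hl
        have h5 : A l j' = 0 := by
          by_contra h6
          exact hl (hcol j' _ _ h6 (hf j'))
        rw [h5, mul_zero]
      · simp
    have hcolB : ∀ n, (A' * A) n j = A' n (f j) * A (f j) j := by
      intro n
      rw [Matrix.mul_apply]
      apply Finset.sum_eq_single (f j)
      · intro l _ hl
        have h5 : A l j = 0 := by
          by_contra h6
          exact hl (hcol j _ _ h6 (hf j))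
        rw [h5, mul_zero]
      · simp
    have h3 := hcolB j
    rw [h2, Matrix.one_apply_eq] at h3
    have h4 : A' j (f j) ≠ 0 := by
      intro h5
      rw [h5, zero_mul] at h3
      exact one_ne_zero h3
    have h5 := hcolA j
    rw [h2, ← hjj] at h5
    by_contra hne
    rw [Matrix.one_apply_ne hne] at h5
    have h6 : A (f j) j' ≠ 0 := by
      have := hf j'
      rwa [← hjj] at this
    exact mul_ne_zero h4 h6 h5.symm
  refine ⟨Equiv.ofBijective f (Finite.injective_iff_bijective.mp hinj), ?_⟩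
  intro k j
  constructor
  · intro h
    exact hcol j _ _ h (hf j)
  · intro h
    rw [h]
    exact hf j

/-! ### The torus as the stabiliser of the coordinate lines -/

/-- The torus. -/
abbrev TT (m : ℕ) (F : Type*) [Field F] : Subgroup (symplecticGroup (Fin m) F) :=
  ⨅ i : Fin m ⊕ Fin m, Cfsg.stabilizing (Cfsg.spToMat m F)
    ((Submodule.span F {(Pi.single i (1 : F) : Fin m ⊕ Fin m → F)} :
      Submodule F (Fin m ⊕ Fin m → F)) : Set (Fin m ⊕ Fin m → F))

lemma mem_line (i : Fin m ⊕ Fin m) (v : Fin m ⊕ Fin m → F) :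
    v ∈ (Submodule.span F {(Pi.single i (1 : F) : Fin m ⊕ Fin m → F)} :
      Submodule F (Fin m ⊕ Fin m → F)) ↔ ∀ k, k ≠ i → v k = 0 := by
  rw [Submodule.mem_span_singleton]
  constructor
  · rintro ⟨c, rfl⟩ k hk
    simp [hk]
  · intro h
    refine ⟨v i, ?_⟩
    ext k
    by_cases hk : k = i
    · subst hk
      simp
    · simp [hk, h k hk]

lemma inv_mul_coe (A : symplecticGroup (Fin m) F) : (A⁻¹ : symplecticGroup (Fin m) F).1 * A.1 = 1 := by
  have : ((A⁻¹ * A : symplecticGroup (Fin m) F) : Matrix (Fin m ⊕ Fin m) (Fin m ⊕ Fin m) F) = 1 := by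
    rw [inv_mul_cancel]
    rfl
  exact this

lemma mul_inv_coe (A : symplecticGroup (Fin m) F) : A.1 * (A⁻¹ : symplecticGroup (Fin m) F).1 = 1 := by
  have : ((A * A⁻¹ : symplecticGroup (Fin m) F) : Matrix (Fin m ⊕ Fin m) (Fin m ⊕ Fin m) F) = 1 := by
    rw [mul_inv_cancel]
    rfl
  exact this

lemma mem_TT_iff (A : symplecticGroup (Fin m) F) : A ∈ TT m F ↔ IsMono A.1 1 := by
  rw [Subgroup.mem_iInf]
  constructor
  · intro h
    have h0 : ∀ i k, k ≠ i → A.1 k i = 0 := by
      intro i k hk
      have h1 : (Pi.single i (1 : F) : Fin m ⊕ Fin m → F) ∈ (Submodule.span F {(Pi.single i (1 : F) : Fin m ⊕ Fin m → F)} :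
          Submodule F (Fin m ⊕ Fin m → F)) := Submodule.mem_span_singleton_self _
      have h2 := (h i (Pi.single i (1 : F))).mp h1
      have h3 := (mem_line i _).mp h2 k hk
      simpa using h3
    intro k j
    constructor
    · intro h1
      by_contra h2
      exact h1 (h0 j k h2)
    · intro h1
      have e : k = j := h1
      subst e
      intro h2
      have h3 : ((A⁻¹ : symplecticGroup (Fin m) F).1 * A.1) k k = 1 := by
        rw [inv_mul_coe, Matrix.one_apply_eq]
      rw [Matrix.mul_apply, Finset.sum_eq_single k] at h3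
      · rw [h2, mul_zero] at h3
        exact zero_ne_one h3
      · intro l _ hl
        rw [h0 k l hl, mul_zero]
      · simp
  · intro hA i v
    have e : ∀ k, (Cfsg.spToMat m F A *ᵥ v) k = A.1 k k * v k := by
      intro k
      change (A.1 *ᵥ v) k = _
      rw [Matrix.mulVec, dotProduct, Finset.sum_eq_single k]
      · intro l _ hl
        have : A.1 k l = 0 := hA.eq_zero (by simpa using hl.symm)
        rw [this, zero_mul]
      · simp
    have hne : ∀ k, A.1 k k ≠ 0 := fun k => hA.ne_zero k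
    change v ∈ (Submodule.span F {(Pi.single i (1 : F) : Fin m ⊕ Fin m → F)} :
      Submodule F (Fin m ⊕ Fin m → F)) ↔ Cfsg.spToMat m F A *ᵥ v ∈ (Submodule.span F {(Pi.single i (1 : F) : Fin m ⊕ Fin m → F)} :
      Submodule F (Fin m ⊕ Fin m → F))
    rw [mem_line, mem_line]
    constructor
    · intro h k hk
      rw [e, h k hk, mul_zero]
    · intro h k hk
      have h1 := h k hk
      rw [e] at h1
      exact (mul_eq_zero.mp h1).resolve_left (hne k)

/-- The monomial subgroup. -/
def MM (m : ℕ) (F : Type*) [Field F] : Subgroup (symplecticGroup (Fin m) F) where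
  carrier := {A | ∃ σ, IsMono A.1 σ}
  mul_mem' := by
    rintro a b ⟨σ, hσ⟩ ⟨τ, hτ⟩
    exact ⟨σ * τ, hσ.mul hτ⟩
  one_mem' := ⟨1, isMono_one⟩
  inv_mem' := by
    rintro a ⟨σ, hσ⟩
    exact ⟨σ⁻¹, hσ.inv (inv_mul_coe a)⟩

/-- The permutation part. -/
noncomputable def permOf (A : MM m F) : Equiv.Perm (Fin m ⊕ Fin m) := A.2.choose

lemma permOf_spec (A : MM m F) : IsMono A.1.1 (permOf A) := A.2.choose_spec

/-- The permutation part as a homomorphism. -/
noncomputable def phi (m : ℕ) (F : Type*) [Field F] : MM m F →* Equiv.Perm (Fin m ⊕ Fin m) where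
  toFun := permOf
  map_one' := (permOf_spec (1 : MM m F)).unique isMono_one
  map_mul' a b := (permOf_spec (a * b)).unique ((permOf_spec a).mul (permOf_spec b))

lemma mem_ker_phi (A : MM m F) : A ∈ (phi m F).ker ↔ A.1 ∈ TT m F := by
  rw [MonoidHom.mem_ker, mem_TT_iff]
  constructor
  · intro h
    have := permOf_spec A
    change permOf A = 1 at h
    rwa [h] at this
  · intro h
    exact (permOf_spec A).unique h

lemma TT_le_MM : TT m F ≤ MM m F := fun A hA => ⟨1, (mem_TT_iff A).mp hA⟩

lemma range_phi : (phi m F).range = Subgroup.centralizer {sw m} := by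
  ext σ
  rw [Subgroup.mem_centralizer_singleton_iff]
  constructor
  · rintro ⟨A, rfl⟩
    have h := comm_swap_of_sp (permOf_spec A) A.1.2
    apply Equiv.ext
    intro k
    exact (h k)
  · intro h
    have hσ : ∀ k, σ (sw m k) = sw m (σ k) := fun k => (Equiv.ext_iff.mp h k)
    let c : Fin m ⊕ Fin m → F := Sum.elim (fun _ => 1) (fun i => - sgnJ (σ (Sum.inl i)))
    have hc0 : ∀ l, c l ≠ 0 := by
      rintro (i | i)
      · simp [c]
      · simp only [c, Sum.elim_inr]
        exact neg_ne_zero.mpr (sgnJ_ne_zero _)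
    have hs : ∀ k : Fin m ⊕ Fin m, (sgnJ (sw m k) : F) = - sgnJ k := by
      rintro (i | i) <;> simp
    have hc : ∀ l, c l * c (sw m l) * sgnJ l = sgnJ (σ l) := by
      rintro (i | i)
      · simp [c]
      · have := hσ (Sum.inl i)
        have e : σ (Sum.inr i) = sw m (σ (Sum.inl i)) := this
        rw [e, hs]
        simp [c]
    have hmem := monoMat_mem c hc0 hσ hc
    have hm := isMono_monoMat (σ := σ) c hc0
    refine ⟨⟨⟨monoMat σ c, hmem⟩, ⟨σ, hm⟩⟩, ?_⟩
    exact (permOf_spec _).unique hm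

/-- `N(T)` is the monomial subgroup. -/
lemma normalizer_eq {a : F} (ha0 : a ≠ 0) (ha1 : a ^ 2 ≠ 1) :
    Subgroup.normalizer (TT m F : Set (symplecticGroup (Fin m) F)) = MM m F := by
  ext A
  rw [Subgroup.mem_normalizer_iff]
  constructor
  · intro h
    have h1 : ∀ j, ∃ d : Fin m ⊕ Fin m → F, A.1 * monoMat 1 (tauV a j) = Matrix.diagonal d * A.1 := by
      intro j
      let t : symplecticGroup (Fin m) F := ⟨monoMat 1 (tauV a j), tauV_mem ha0 j⟩
      have ht : t ∈ TT m F := (mem_TT_iff t).mpr (isMono_tauV ha0 j)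
      have h2 := (mem_TT_iff _).mp ((h t).mp ht)
      set D : symplecticGroup (Fin m) F := A * t * A⁻¹ with hD
      refine ⟨fun k => D.1 k k, ?_⟩
      have hdiag : D.1 = Matrix.diagonal (fun k => D.1 k k) := by
        ext k l
        by_cases hkl : k = l
        · subst hkl
          simp
        · rw [Matrix.diagonal_apply_ne _ hkl]
          exact h2.eq_zero hkl
      rw [← hdiag]
      have h3 : D * A = A * t := by
        rw [hD]
        group
      exact (congrArg Subtype.val h3).symm
    exact exists_mono (mul_inv_coe A) (inv_mul_coe A) ha0 ha1 h1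
  · rintro ⟨σ, hσ⟩ h
    rw [mem_TT_iff, mem_TT_iff]
    constructor
    · intro hh
      have := (hσ.mul hh).mul (hσ.inv (inv_mul_coe A))
      simpa using this
    · intro hh
      have h1 := hσ.inv (inv_mul_coe A)
      have h2 : ((A⁻¹ * (A * h * A⁻¹) * A : symplecticGroup (Fin m) F)).1 = h.1 := by
        have : A⁻¹ * (A * h * A⁻¹) * A = h := by group
        rw [this]
      rw [← h2]
      have := (h1.mul hh).mul hσ
      simpa using this

/-- The centraliser of the coordinate swap. -/
lemma card_centralizer_sw :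
    Nat.card (Subgroup.centralizer {sw m}) = 2 ^ m * Nat.factorial m := by
  classical
  have h2 : orderOf (sw m) ∣ 2 := by
    apply orderOf_dvd_of_pow_eq_one
    apply Equiv.ext
    intro k
    rw [sq]
    exact sw_sw k
  have hall : ∀ n ∈ (sw m).cycleType, n = 2 := by
    intro n hn
    have h3 := Equiv.Perm.dvd_of_mem_cycleType hn
    have h4 := Equiv.Perm.two_le_of_mem_cycleType hn
    have h5 := Nat.le_of_dvd (by norm_num) (h3.trans h2)
    omega
  have hsum : (sw m).cycleType.sum = 2 * m := by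
    rw [Equiv.Perm.sum_cycleType]
    have : (sw m).support = Finset.univ := by
      ext k
      simp only [Equiv.Perm.mem_support, Finset.mem_univ, iff_true]
      exact sw_ne k
    rw [this, Finset.card_univ]
    simp [two_mul]
  have hrep : (sw m).cycleType = Multiset.replicate (Multiset.card (sw m).cycleType) 2 :=
    Multiset.eq_replicate_card.mpr hall
  have hcard : Multiset.card (sw m).cycleType = m := by
    rw [hrep, Multiset.sum_replicate] at hsum
    simp only [Multiset.card_replicate, smul_eq_mul] at hsum ⊢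
    omega
  rw [hcard] at hrep
  rw [Equiv.Perm.nat_card_centralizer, hsum, hrep]
  have e : Fintype.card (Fin m ⊕ Fin m) - 2 * m = 0 := by
    simp
    omega
  rw [e]
  rcases Nat.eq_zero_or_pos m with rfl | hm
  · simp
  · have : (Multiset.replicate m 2).toFinset = {2} := by
      ext x
      simp only [Multiset.mem_toFinset, Multiset.mem_replicate, Finset.mem_singleton]
      constructor
      · rintro ⟨_, h⟩
        exact h
      · intro h
        exact ⟨by omega, h⟩
    rw [this]
    simp

/-- The torus has order `(q-1)^m`. -/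
lemma card_TT [Fintype F] : Nat.card (TT m F) = (Fintype.card F - 1) ^ m := by
  classical
  let cc : (Fin m → Fˣ) → Fin m ⊕ Fin m → F :=
    fun d => Sum.elim (fun i => (d i : F)) (fun i => (((d i)⁻¹ : Fˣ) : F))
  have hc0 : ∀ d l, cc d l ≠ 0 := by
    intro d l
    rcases l with i | i
    · exact (d i).ne_zero
    · exact ((d i)⁻¹).ne_zero
  have hmem : ∀ d, monoMat 1 (cc d) ∈ symplecticGroup (Fin m) F := by
    intro d
    apply monoMat_mem _ (hc0 d)
    · intro k
      rfl
    · rintro (i | i)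
      · simp [cc]
      · simp [cc]
  have hT : ∀ d, (⟨monoMat 1 (cc d), hmem d⟩ : symplecticGroup (Fin m) F) ∈ TT m F :=
    fun d => (mem_TT_iff _).mpr (isMono_monoMat _ (hc0 d))
  let f : (Fin m → Fˣ) → TT m F := fun d => ⟨⟨monoMat 1 (cc d), hmem d⟩, hT d⟩
  have hbij : Function.Bijective f := by
    constructor
    · intro d d' h
      funext i
      apply Units.ext
      have h1 := congrArg (fun A : TT m F => A.1.1 (Sum.inl i) (Sum.inl i)) h
      simpa [f, monoMat, cc] using h1
    · rintro ⟨⟨A, hA⟩, hAT⟩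
      have hm := (mem_TT_iff _).mp hAT
      change IsMono A 1 at hm
      refine ⟨fun i => Units.mk0 (A (Sum.inl i) (Sum.inl i)) (hm.ne_zero _), ?_⟩
      apply Subtype.ext
      apply Subtype.ext
      ext k j
      change monoMat 1 _ k j = A k j
      unfold monoMat
      by_cases hkj : k = j
      · subst hkj
        rcases k with i | i
        · simp [cc]
          rfl
        · have := diag_relation hm hA i
          simp only [Equiv.Perm.coe_one, id_eq, if_true, cc, Sum.elim_inr, Units.val_inv_eq_inv_val, Units.val_mk0]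
          exact (eq_inv_of_mul_eq_one_right this).symm
      · have e1 : A k j = 0 := hm.eq_zero hkj
        rw [e1]
        simp [hkj]
  rw [← Nat.card_congr (Equiv.ofBijective f hbij), Nat.card_fun, Nat.card_units, Nat.card_eq_fintype_card]
  simp

/-- The main count. -/
theorem card_normalizer [Fintype F] (hq : 4 ≤ Fintype.card F) :
    Nat.card (Subgroup.normalizer (TT m F : Set (symplecticGroup (Fin m) F))) =
      2 ^ m * Nat.factorial m * (Fintype.card F - 1) ^ m := by
  classical
  obtain ⟨a, ha⟩ : ∃ a : F, a ∉ ({0, 1, -1} : Finset F) := by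
    by_contra h
    push Not at h
    have h1 : (Finset.univ : Finset F) ⊆ {0, 1, -1} := fun x _ => h x
    have h2 := Finset.card_le_card h1
    have h3 : ({0, 1, -1} : Finset F).card ≤ 3 := Finset.card_le_three
    rw [Finset.card_univ] at h2
    omega
  simp only [Finset.mem_insert, Finset.mem_singleton, not_or] at ha
  obtain ⟨ha0, ha1, ha2⟩ := ha
  have ha3 : a ^ 2 ≠ 1 := by
    intro h
    have : (a - 1) * (a + 1) = 0 := by
      have : (a - 1) * (a + 1) = a ^ 2 - 1 := by ring
      rw [this, h, sub_self]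
    rcases mul_eq_zero.mp this with h1 | h1
    · exact ha1 (sub_eq_zero.mp h1)
    · exact ha2 (eq_neg_of_add_eq_zero_left h1)
  rw [normalizer_eq ha0 ha3]
  have h1 := (phi m F).ker.card_mul_index
  rw [Subgroup.index_ker, range_phi, card_centralizer_sw] at h1
  have hker : (phi m F).ker = (TT m F).subgroupOf (MM m F) := by
    ext A
    rw [mem_ker_phi, Subgroup.mem_subgroupOf]
  have h2 : Nat.card (phi m F).ker = (Fintype.card F - 1) ^ m := by
    rw [hker, Nat.card_congr (Subgroup.subgroupOfEquivOfLe TT_le_MM).toEquiv, card_TT]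
  rw [h2] at h1
  rw [← h1, mul_comm]

end Cfsg.Agent.Lib.Classical.SpTorus
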