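/-
Symmetric bilinear forms over finite fields: totally isotropic subspaces of half the dimension exist exactly
when the discriminant is `(-1)^m` modulo squares.
-/
import Mathlib
import Cfsg.Agent.Lib.Classical.SymForm

set_option autoImplicit false
set_option linter.unusedSectionVars false

namespace Cfsg.Agent.Lib.Classical.Sym

universe v

variable {F : Type*} [Field F] {V : Type v} [AddCommGroup V] [Module F V]

/-- Isotropic partner. -/
lemma exists_iso_partner [FiniteDimensional F V] (B : LinearMap.BilinForm F V) (hS : B.IsSymm)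
    (hB : B.Nondegenerate) (h2 : (2 : F) ≠ 0) (x : V) (hx0 : x ≠ 0) (hx : B x x = 0) :
    ∃ y, B y y = 0 ∧ B x y = 1 := by
  obtain ⟨y₀, hy1, -⟩ := Witt.exists_partner B hB ⊥ x (by simpa using hx0)
  have hsym : B y₀ x = 1 := by
    have : B y₀ x = B x y₀ := (hS.eq x y₀).symm
    rw [this, hy1]
  refine ⟨y₀ - (B y₀ y₀ / 2) • x, ?_, ?_⟩
  · simp only [map_sub, map_smul, LinearMap.sub_apply, LinearMap.smul_apply, smul_eq_mul, hx, hsym, hy1]
    field_simp
    ring
  · simp [hx, hy1]

/-- Extend an orthogonal family of the perp of a hyperbolic pair. -/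
lemma hyper_family (B : LinearMap.BilinForm F V) (hS : B.IsSymm) (h2 : (2 : F) ≠ 0) (x y : V)
    (hx : B x x = 0) (hy : B y y = 0) (hxy : B x y = 1) {n : ℕ}
    (e' : Fin n → ↥(LinearMap.ker (B x) ⊓ LinearMap.ker (B y)))
    (h1 : ∀ i j, i ≠ j → B (e' i : V) (e' j : V) = 0) (h3 : ∀ i, B (e' i : V) (e' i : V) ≠ 0) :
    ∃ e : Fin (n + 2) → V, (∀ i j, i ≠ j → B (e i) (e j) = 0) ∧ (∀ i, B (e i) (e i) ≠ 0) ∧
      ∏ i, B (e i) (e i) = - ∏ i, B (e' i : V) (e' i : V) := by
  have hsym : ∀ a b, B a b = B b a := fun a b => hS.eq a b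
  have hyx : B y x = 1 := by rw [hsym, hxy]
  set u₁ : V := x + (1 / 2 : F) • y with hu₁
  set u₂ : V := x - (1 / 2 : F) • y with hu₂
  have h11 : B u₁ u₁ = 1 := by
    simp only [hu₁, map_add, map_smul, LinearMap.add_apply, LinearMap.smul_apply, smul_eq_mul, hx, hy, hxy, hyx]
    field_simp
    ring
  have h22 : B u₂ u₂ = -1 := by
    simp only [hu₂, map_sub, map_smul, LinearMap.sub_apply, LinearMap.smul_apply, smul_eq_mul, hx, hy, hxy, hyx]
    field_simp
    ring
  have h12 : B u₁ u₂ = 0 := by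
    simp only [hu₁, hu₂, map_add, map_sub, map_smul, LinearMap.add_apply, LinearMap.smul_apply, smul_eq_mul, hx, hy, hxy, hyx]
    ring
  have hw₁ : ∀ i, B u₁ (e' i : V) = 0 := by
    intro i
    have h4 : B x (e' i : V) = 0 := (e' i).2.1
    have h5 : B y (e' i : V) = 0 := (e' i).2.2
    simp [hu₁, h4, h5]
  have hw₂ : ∀ i, B u₂ (e' i : V) = 0 := by
    intro i
    have h4 : B x (e' i : V) = 0 := (e' i).2.1
    have h5 : B y (e' i : V) = 0 := (e' i).2.2
    simp [hu₂, h4, h5]
  refine ⟨Fin.cons u₁ (Fin.cons u₂ (fun i => (e' i : V))), ?_, ?_, ?_⟩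
  · intro i j hij
    induction i using Fin.cases with
    | zero =>
      induction j using Fin.cases with
      | zero => exact absurd rfl hij
      | succ j =>
        induction j using Fin.cases with
        | zero => simpa using h12
        | succ j => simpa using hw₁ j
    | succ i =>
      induction i using Fin.cases with
      | zero =>
        induction j using Fin.cases with
        | zero => simpa [hsym u₂ u₁] using h12
        | succ j =>
          induction j using Fin.cases with
          | zero => exact absurd rfl hij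
          | succ j => simpa using hw₂ j
      | succ i =>
        induction j using Fin.cases with
        | zero => simpa [hsym (e' i : V) u₁] using hw₁ i
        | succ j =>
          induction j using Fin.cases with
          | zero => simpa [hsym (e' i : V) u₂] using hw₂ i
          | succ j =>
            simp only [Fin.cons_succ]
            exact h1 i j (fun h => hij (by rw [h]))
  · intro i
    induction i using Fin.cases with
    | zero => simp [h11]
    | succ i =>
      induction i using Fin.cases with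
      | zero => simp [h22]
      | succ i =>
        simp only [Fin.cons_succ]
        exact h3 i
  · rw [Fin.prod_univ_succ, Fin.prod_univ_succ]
    simp only [Fin.cons_zero, Fin.cons_succ, h11, h22]
    ring

/-- A totally isotropic subspace of half the dimension gives an orthogonal family with product `(-1)^m`. -/
theorem exists_family_of_ts (h2 : (2 : F) ≠ 0) (m : ℕ) : ∀ (V : Type v) [AddCommGroup V] [Module F V]
    [FiniteDimensional F V] (B : LinearMap.BilinForm F V) (_ : B.IsSymm) (_ : B.Nondegenerate)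
    (_ : Module.finrank F V = 2 * m) (T : Submodule F V) (_ : Module.finrank F T = m)
    (_ : ∀ x ∈ T, ∀ y ∈ T, B x y = 0),
    ∃ e : Fin (2 * m) → V, (∀ i j, i ≠ j → B (e i) (e j) = 0) ∧ (∀ i, B (e i) (e i) ≠ 0) ∧
      ∏ i, B (e i) (e i) = (-1) ^ m := by
  induction m with
  | zero =>
    intro V _ _ _ B _ _ _ _ _ _
    exact ⟨fun i => i.elim0, fun i => i.elim0, fun i => i.elim0, by simp⟩
  | succ m ih =>
    intro V _ _ _ B hS hB hn T hT hts
    have hTne : T ≠ ⊥ := by
      rintro rfl
      simp at hT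
    obtain ⟨x, hxT, hx0⟩ := Submodule.exists_mem_ne_zero_of_ne_bot hTne
    have hxx : B x x = 0 := hts x hxT x hxT
    obtain ⟨y, hyy, hxy⟩ := exists_iso_partner B hS hB h2 x hx0 hxx
    have hsym : ∀ a b, B a b = B b a := fun a b => hS.eq a b
    obtain ⟨h3, h4⟩ := split_two B hS hB x y hxx hyy hxy
    set W := LinearMap.ker (B x) ⊓ LinearMap.ker (B y) with hW
    let ψ : T →ₗ[F] F := (B y) ∘ₗ T.subtype
    have hψ : Module.finrank F (LinearMap.ker ψ) = m := by
      have h5 := LinearMap.finrank_range_add_finrank_ker ψ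
      have h6 : LinearMap.range ψ = ⊤ := by
        rw [LinearMap.range_eq_top]
        intro c
        refine ⟨c • ⟨x, hxT⟩, ?_⟩
        simp only [ψ, LinearMap.comp_apply, Submodule.subtype_apply, Submodule.coe_smul, map_smul, smul_eq_mul]
        rw [hsym y x, hxy, mul_one]
      rw [h6, finrank_top, Module.finrank_self, hT] at h5
      omega
    have hT' : Module.finrank F ↥(T.comap W.subtype) = m := by
      have hEq : W ⊓ T = (LinearMap.ker ψ).map T.subtype := by
        ext v
        constructor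
        · rintro ⟨hv1, hv2⟩
          exact ⟨⟨v, hv2⟩, hv1.2, rfl⟩
        · rintro ⟨⟨a, ha⟩, ha2, rfl⟩
          exact ⟨⟨hts x hxT a ha, ha2⟩, ha⟩
      rw [← Submodule.finrank_map_subtype_eq W (T.comap W.subtype), Submodule.map_comap_subtype, hEq,
        Submodule.finrank_map_subtype_eq, hψ]
    obtain ⟨e', he1, he2, he3⟩ := ih W (B.restrict W) (restrict_symm B hS _) h4 (by omega) _ hT'
      (fun a ha b hb => hts a ha b hb)
    obtain ⟨e, h5, h6, h7⟩ : ∃ e : Fin (2 * (m + 1)) → V, (∀ i j, i ≠ j → B (e i) (e j) = 0) ∧ (∀ i, B (e i) (e i) ≠ 0) ∧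
        ∏ i, B (e i) (e i) = - ∏ i, B (e' i : V) (e' i : V) := hyper_family B hS h2 x y hxx hyy hxy e' he1 he2
    refine ⟨e, h5, h6, ?_⟩
    rw [h7]
    have : ∏ i, B (e' i : V) (e' i : V) = (-1) ^ m := he3
    rw [this, pow_succ]
    ring

/-- Three orthogonal anisotropic vectors over a finite field of odd characteristic span an isotropic vector. -/
lemma exists_isotropic_of_three [Finite F] (h2 : (2 : F) ≠ 0) (B : LinearMap.BilinForm F V)
    (hS : B.IsSymm) (e₀ e₁ e₂ : V) (h01 : B e₀ e₁ = 0) (h02 : B e₀ e₂ = 0) (h12 : B e₁ e₂ = 0)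
    (h0 : B e₀ e₀ ≠ 0) (h1 : B e₁ e₁ ≠ 0) (h3 : B e₂ e₂ ≠ 0) : ∃ x : V, x ≠ 0 ∧ B x x = 0 := by
  classical
  haveI : Fintype F := Fintype.ofFinite F
  have hsym : ∀ a b, B a b = B b a := fun a b => hS.eq a b
  have hchar : ringChar F ≠ 2 := by
    intro h
    apply h2
    have : CharP F 2 := by
      rw [← h]; exact ringChar.charP F
    exact CharTwo.two_eq_zero
  have hdeg : ∀ (a : F), a ≠ 0 → (Polynomial.C a * Polynomial.X ^ 2 : Polynomial F).degree = 2 := by
    intro a ha
    rw [Polynomial.degree_C_mul_X_pow 2 ha]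
    rfl
  have hdeg2 : (Polynomial.C (B e₁ e₁) * Polynomial.X ^ 2 + Polynomial.C (B e₂ e₂) : Polynomial F).degree = 2 := by
    rw [Polynomial.degree_add_eq_left_of_degree_lt]
    · exact hdeg _ h1
    · rw [hdeg _ h1]
      exact lt_of_le_of_lt Polynomial.degree_C_le (by norm_num)
  obtain ⟨a, b, hab⟩ := FiniteField.exists_root_sum_quadratic (hdeg _ h0) hdeg2 (FiniteField.odd_card_of_char_ne_two hchar)
  simp only [Polynomial.eval_mul, Polynomial.eval_C, Polynomial.eval_pow, Polynomial.eval_X, Polynomial.eval_add] at hab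
  refine ⟨a • e₀ + b • e₁ + e₂, ?_, ?_⟩
  · intro h
    have := congrArg (B e₂) h
    simp only [map_add, map_smul, smul_eq_mul, map_zero, hsym e₂ e₀, hsym e₂ e₁, h02, h12] at this
    simp at this
    exact h3 this
  · simp only [map_add, map_smul, LinearMap.add_apply, LinearMap.smul_apply, smul_eq_mul, h01, h02, h12,
      hsym e₁ e₀, hsym e₂ e₀, hsym e₂ e₁]
    linear_combination hab

/-- Over a finite field, discriminant `(-1)^m` modulo squares gives a totally isotropic `m`-space. -/
theorem exists_ts_of_family [Finite F] (h2 : (2 : F) ≠ 0) (m : ℕ) : ∀ (V : Type v) [AddCommGroup V]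
    [Module F V] [FiniteDimensional F V] (B : LinearMap.BilinForm F V) (_ : B.IsSymm)
    (_ : B.Nondegenerate) (_ : Module.finrank F V = 2 * m) (e : Fin (2 * m) → V)
    (_ : ∀ i j, i ≠ j → B (e i) (e j) = 0) (_ : ∀ i, B (e i) (e i) ≠ 0)
    (_ : IsSquare ((-1) ^ m * ∏ i, B (e i) (e i))),
    ∃ T : Submodule F V, Module.finrank F T = m ∧ ∀ x ∈ T, ∀ y ∈ T, B x y = 0 := by
  induction m with
  | zero =>
    intro V _ _ _ B _ _ _ _ _ _ _
    exact ⟨⊥, by simp, by simp⟩
  | succ m ih =>
    intro V _ _ _ B hS hB hn e he1 he2 hsq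
    have hsym : ∀ a b, B a b = B b a := fun a b => hS.eq a b
    -- an isotropic vector
    obtain ⟨x, hx0, hxx⟩ : ∃ x : V, x ≠ 0 ∧ B x x = 0 := by
      rcases m with _ | m
      · let e₀ := e ⟨0, by omega⟩
        let e₁ := e ⟨1, by omega⟩
        have h01 : B e₀ e₁ = 0 := he1 _ _ (by simp [Fin.ext_iff])
        have hp : ∏ i, B (e i) (e i) = B e₀ e₀ * B e₁ e₁ := Fin.prod_univ_two (fun i : Fin 2 => B (e i) (e i))
        rw [hp] at hsq
        obtain ⟨s, hs⟩ := hsq
        refine ⟨s • e₀ + (B e₀ e₀) • e₁, ?_, ?_⟩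
        · intro h
          have := congrArg (B e₁) h
          simp only [map_add, map_smul, smul_eq_mul, map_zero, hsym e₁ e₀, h01] at this
          simp only [mul_zero, zero_add] at this
          exact (mul_ne_zero (he2 _) (he2 _)) this
        · simp only [map_add, map_smul, LinearMap.add_apply, LinearMap.smul_apply, smul_eq_mul, h01, hsym e₁ e₀]
          have : s * s = - (B e₀ e₀ * B e₁ e₁) := by
            rw [← hs]; ring
          linear_combination (B e₀ e₀) * this
      · exact exists_isotropic_of_three h2 B hS (e ⟨0, by omega⟩) (e ⟨1, by omega⟩) (e ⟨2, by omega⟩)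
          (he1 _ _ (by simp [Fin.ext_iff])) (he1 _ _ (by simp [Fin.ext_iff])) (he1 _ _ (by simp [Fin.ext_iff]))
          (he2 _) (he2 _) (he2 _)
    obtain ⟨y, hyy, hxy⟩ := exists_iso_partner B hS hB h2 x hx0 hxx
    obtain ⟨h3, h4⟩ := split_two B hS hB x y hxx hyy hxy
    set W := LinearMap.ker (B x) ⊓ LinearMap.ker (B y) with hW
    have hdimW : Module.finrank F W = 2 * m := by omega
    obtain ⟨e', he'1, he'2⟩ := exists_orth_family h2 (2 * m) W (B.restrict W) (restrict_symm B hS _) h4 hdimW
    obtain ⟨f, hf1, hf2, hf3⟩ : ∃ e : Fin (2 * (m + 1)) → V, (∀ i j, i ≠ j → B (e i) (e j) = 0) ∧ (∀ i, B (e i) (e i) ≠ 0) ∧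
        ∏ i, B (e i) (e i) = - ∏ i, B (e' i : V) (e' i : V) := hyper_family B hS h2 x y hxx hyy hxy e' he'1 he'2
    obtain ⟨d, hd0, hd⟩ := prod_eq_sq_mul B hn e f he1 he2 hf1 hf2
    have hsq' : IsSquare ((-1) ^ m * ∏ i, (B.restrict W) (e' i) (e' i)) := by
      obtain ⟨s, hs⟩ := hsq
      refine ⟨s / d, ?_⟩
      have hp : ∏ i, (B.restrict W) (e' i) (e' i) = ∏ i, B (e' i : V) (e' i : V) := rfl
      rw [hp]
      rw [hd, hf3, pow_succ] at hs
      field_simp
      linear_combination hs
    obtain ⟨T', hT'1, hT'2⟩ := ih W (B.restrict W) (restrict_symm B hS _) h4 hdimW e' he'1 he'2 hsq'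
    have hxW : x ∉ T'.map W.subtype := by
      rintro ⟨a, -, ha⟩
      have h5 : B y a = 0 := a.2.2
      rw [Submodule.subtype_apply] at ha
      rw [ha, hsym, hxy] at h5
      exact one_ne_zero h5
    refine ⟨T'.map W.subtype ⊔ Submodule.span F {x}, ?_, ?_⟩
    · rw [Submodule.finrank_sup_span_singleton hxW, Submodule.finrank_map_subtype_eq, hT'1]
    · intro a ha b hb
      obtain ⟨a', ha', t, ht, rfl⟩ := Submodule.mem_sup.mp ha
      obtain ⟨b', hb', t', ht', rfl⟩ := Submodule.mem_sup.mp hb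
      obtain ⟨c, rfl⟩ := Submodule.mem_span_singleton.mp ht
      obtain ⟨c', rfl⟩ := Submodule.mem_span_singleton.mp ht'
      obtain ⟨a₀, ha₀, rfl⟩ := ha'
      obtain ⟨b₀, hb₀, rfl⟩ := hb'
      have h6 : B a₀ b₀ = 0 := hT'2 a₀ ha₀ b₀ hb₀
      have h7 : B x a₀ = 0 := a₀.2.1
      have h8 : B x b₀ = 0 := b₀.2.1
      simp only [Submodule.subtype_apply, map_add, map_smul, LinearMap.add_apply, LinearMap.smul_apply, smul_eq_mul, h6, h8, hsym (a₀ : V) x, h7, hxx]
      ring

end Cfsg.Agent.Lib.Classical.Sym
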