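/-
Tensor products of bilinear forms: non-degeneracy, totally isotropic subspaces, orthogonal families.
-/
import Mathlib
import Cfsg.Agent.Lib.Classical.SymType

set_option autoImplicit false
set_option linter.unusedSectionVars false

open TensorProduct

namespace Cfsg.Agent.Lib.Classical.Tens

universe u v

variable {F : Type*} [Field F] {U : Type u} {W : Type v} [AddCommGroup U] [Module F U]
  [AddCommGroup W] [Module F W]

lemma tmul_apply (B₁ : LinearMap.BilinForm F U) (B₂ : LinearMap.BilinForm F W) (a a' : U) (b b' : W) :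
    (B₁.tmul B₂) (a ⊗ₜ b) (a' ⊗ₜ b') = B₁ a a' * B₂ b b' := by
  rw [LinearMap.BilinForm.tensorDistrib_tmul, smul_eq_mul, mul_comm]

/-- Tensor products of non-degenerate forms are non-degenerate. -/
theorem tmul_nondeg [FiniteDimensional F U] [FiniteDimensional F W] (B₁ : LinearMap.BilinForm F U)
    (B₂ : LinearMap.BilinForm F W) (h₁ : B₁.Nondegenerate) (h₂ : B₂.Nondegenerate) :
    (B₁.tmul B₂).Nondegenerate := by
  classical
  let b := Module.finBasis F U
  let c := Module.finBasis F W
  let bc := b.tensorProduct c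
  constructor
  · intro x hx
    apply bc.ext_elem
    rintro ⟨k, l⟩
    let u := B₁.flip.dualBasis h₁.flip b k
    let v := B₂.flip.dualBasis h₂.flip c l
    have hu : ∀ i, B₁ (b i) u = if i = k then 1 else 0 := fun i =>
      LinearMap.BilinForm.apply_dualBasis_left (B := B₁.flip) h₁.flip b k i
    have hv : ∀ j, B₂ (c j) v = if j = l then 1 else 0 := fun j =>
      LinearMap.BilinForm.apply_dualBasis_left (B := B₂.flip) h₂.flip c l j
    have h := hx (u ⊗ₜ v)
    rw [← bc.sum_repr x] at h
    simp only [map_sum, map_smul, LinearMap.sum_apply, LinearMap.smul_apply, smul_eq_mul, bc,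
      Module.Basis.tensorProduct_apply', tmul_apply, hu, hv] at h
    rw [Finset.sum_eq_single (k, l)] at h
    · simpa using h
    · rintro ⟨i, j⟩ _ hij
      by_cases hi : i = k
      · have hj : j ≠ l := fun hj => hij (by rw [hi, hj])
        simp [hj]
      · simp [hi]
    · simp
  · intro x hx
    apply bc.ext_elem
    rintro ⟨k, l⟩
    let u := B₁.dualBasis h₁ b k
    let v := B₂.dualBasis h₂ c l
    have hu : ∀ i, B₁ u (b i) = if i = k then 1 else 0 := fun i =>
      LinearMap.BilinForm.apply_dualBasis_left h₁ b k i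
    have hv : ∀ j, B₂ v (c j) = if j = l then 1 else 0 := fun j =>
      LinearMap.BilinForm.apply_dualBasis_left h₂ c l j
    have h := hx (u ⊗ₜ v)
    rw [← bc.sum_repr x] at h
    simp only [map_sum, map_smul, smul_eq_mul, bc,
      Module.Basis.tensorProduct_apply', tmul_apply, hu, hv] at h
    rw [Finset.sum_eq_single (k, l)] at h
    · simpa using h
    · rintro ⟨i, j⟩ _ hij
      by_cases hi : i = k
      · have hj : j ≠ l := fun hj => hij (by rw [hi, hj])
        simp [hj]
      · simp [hi]
    · simp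

/-- Tensoring with a totally isotropic family. -/
theorem exists_ts_tensor [FiniteDimensional F U] [FiniteDimensional F W] (B₁ : LinearMap.BilinForm F U)
    (B₂ : LinearMap.BilinForm F W) {l : ℕ} (e : Fin l → W) (he : LinearIndependent F e)
    (hts : ∀ i j, B₂ (e i) (e j) = 0) :
    ∃ X : Submodule F (U ⊗[F] W), Module.finrank F X = Module.finrank F U * l ∧
      ∀ x ∈ X, ∀ y ∈ X, (B₁.tmul B₂) x y = 0 := by
  classical
  let b := Module.finBasis F U
  let f : Fin (Module.finrank F U) × Fin l → U ⊗[F] W := fun p => b p.1 ⊗ₜ e p.2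
  have hf : LinearIndependent F f := b.linearIndependent.tmul_of_flat_left he
  refine ⟨Submodule.span F (Set.range f), ?_, ?_⟩
  · rw [finrank_span_eq_card hf]
    simp
  · intro x hx y hy
    induction hx using Submodule.span_induction with
    | mem x hx =>
      obtain ⟨p, rfl⟩ := hx
      induction hy using Submodule.span_induction with
      | mem y hy =>
        obtain ⟨q, rfl⟩ := hy
        simp only [f, tmul_apply, hts, mul_zero]
      | zero => simp
      | add a b _ _ ha hb => rw [map_add, ha, hb, add_zero]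
      | smul c a _ ha => rw [map_smul, ha, smul_zero]
    | zero => simp
    | add a b _ _ ha hb => rw [map_add, LinearMap.add_apply, ha, hb, add_zero]
    | smul c a _ ha => rw [map_smul, LinearMap.smul_apply, ha, smul_zero]

/-- Orthogonal family of a tensor product, reindexed. -/
theorem tensor_family [FiniteDimensional F U] [FiniteDimensional F W] (B₁ : LinearMap.BilinForm F U)
    (B₂ : LinearMap.BilinForm F W) {k l n : ℕ} (hn : k * l = n) (a : Fin k → U) (c : Fin l → W)
    (ha1 : ∀ i j, i ≠ j → B₁ (a i) (a j) = 0) (ha2 : ∀ i, B₁ (a i) (a i) ≠ 0)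
    (hc1 : ∀ i j, i ≠ j → B₂ (c i) (c j) = 0) (hc2 : ∀ i, B₂ (c i) (c i) ≠ 0) :
    ∃ e : Fin n → U ⊗[F] W, (∀ i j, i ≠ j → (B₁.tmul B₂) (e i) (e j) = 0) ∧
      (∀ i, (B₁.tmul B₂) (e i) (e i) ≠ 0) ∧
      ∏ i, (B₁.tmul B₂) (e i) (e i) = (∏ i, B₁ (a i) (a i)) ^ l * (∏ j, B₂ (c j) (c j)) ^ k := by
  classical
  subst hn
  let σ : Fin k × Fin l ≃ Fin (k * l) := finProdFinEquiv
  refine ⟨fun i => a (σ.symm i).1 ⊗ₜ c (σ.symm i).2, ?_, ?_, ?_⟩
  · intro i j hij
    rw [tmul_apply]
    have h : σ.symm i ≠ σ.symm j := fun h => hij (σ.symm.injective h)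
    by_cases h1 : (σ.symm i).1 = (σ.symm j).1
    · have h2 : (σ.symm i).2 ≠ (σ.symm j).2 := fun h2 => h (Prod.ext h1 h2)
      rw [hc1 _ _ h2, mul_zero]
    · rw [ha1 _ _ h1, zero_mul]
  · intro i
    rw [tmul_apply]
    exact mul_ne_zero (ha2 _) (hc2 _)
  · simp only [tmul_apply]
    rw [← Equiv.prod_comp σ]
    simp only [Equiv.symm_apply_apply]
    rw [Fintype.prod_prod_type]
    simp only [Finset.prod_mul_distrib, Finset.prod_const, Finset.card_univ, Fintype.card_fin]
    rw [Finset.prod_pow]

end Cfsg.Agent.Lib.Classical.Tens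

namespace Cfsg.Agent.Lib.Classical.Tens

universe u v

variable {F : Type*} [Field F] {U : Type u} {W : Type v} [AddCommGroup U] [Module F U]
  [AddCommGroup W] [Module F W]

lemma tmul_isSymm (B₁ : LinearMap.BilinForm F U) (B₂ : LinearMap.BilinForm F W) (hS₁ : B₁.IsSymm)
    (hS₂ : B₂.IsSymm) : LinearMap.BilinForm.IsSymm (B₁.tmul B₂ : LinearMap.BilinForm F (U ⊗[F] W)) := by
  refine ⟨fun x y => ?_⟩
  induction x using TensorProduct.induction_on with
  | zero => simp
  | add a b ha hb => simp only [map_add, LinearMap.add_apply, ha, hb]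
  | tmul a b =>
    induction y using TensorProduct.induction_on with
    | zero => simp
    | add c d hc hd => simp only [map_add, LinearMap.add_apply, hc, hd]
    | tmul c d =>
      simp only [tmul_apply]
      rw [hS₁.eq a c, hS₂.eq b d]

end Cfsg.Agent.Lib.Classical.Tens
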